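import Mathlib
import Cfsg.Prelude.Def_Sporadic_a

set_option autoImplicit false

namespace Cfsg.Agent.Lib.Helper94

abbrev V24 : Type := Fin 24 → ZMod 2

/-- support of a binary word of length 24 -/
def sp (u : V24) : Finset (Fin 24) := Finset.univ.filter fun i => u i ≠ 0

/-- indicator word of a set -/
def ind (s : Finset (Fin 24)) : V24 := fun i => if i ∈ s then 1 else 0

theorem hammingNorm_eq_card_sp (u : V24) : hammingNorm u = (sp u).card := by
  unfold hammingNorm sp
  congr

theorem mem_sp (u : V24) (i : Fin 24) : i ∈ sp u ↔ u i ≠ 0 := by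
  simp [sp]

theorem zmod2_ne_zero_iff (a : ZMod 2) : a ≠ 0 ↔ a = 1 := by
  revert a; decide

theorem sp_ind (s : Finset (Fin 24)) : sp (ind s) = s := by
  ext i
  simp [mem_sp, ind]

theorem ind_sp (u : V24) : ind (sp u) = u := by
  funext i
  by_cases h : u i = 0
  · simp [ind, mem_sp, h]
  · have h1 : u i = 1 := (zmod2_ne_zero_iff _).1 h
    simp [ind, mem_sp, h1]

theorem sp_injective : Function.Injective sp := fun u v h => by
  rw [← ind_sp u, ← ind_sp v, h]

theorem sp_add (u v : V24) : sp (u + v) = symmDiff (sp u) (sp v) := by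
  ext i
  simp only [mem_sp, Finset.mem_symmDiff, Pi.add_apply]
  generalize u i = a
  generalize v i = b
  revert a b; decide

theorem sub_eq_add' (u v : V24) : u - v = u + v := by
  funext i
  simp only [Pi.sub_apply, Pi.add_apply]
  generalize u i = a
  generalize v i = b
  revert a b; decide

theorem card_symmDiff_add (s t : Finset (Fin 24)) :
    (symmDiff s t).card + 2 * (s ∩ t).card = s.card + t.card := by
  have h1 : (symmDiff s t) = (s \ t) ∪ (t \ s) := rfl
  have h2 : Disjoint (s \ t) (t \ s) := by
    rw [Finset.disjoint_left]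
    intro a ha hb
    simp only [Finset.mem_sdiff] at ha hb
    exact ha.2 hb.1
  rw [h1, Finset.card_union_of_disjoint h2]
  have h3 := Finset.card_sdiff_add_card_inter s t
  have h4 := Finset.card_sdiff_add_card_inter t s
  rw [Finset.inter_comm t s] at h4
  omega

theorem wt_add (u v : V24) :
    hammingNorm (u + v) + 2 * (sp u ∩ sp v).card = hammingNorm u + hammingNorm v := by
  rw [hammingNorm_eq_card_sp, hammingNorm_eq_card_sp, hammingNorm_eq_card_sp, sp_add]
  exact card_symmDiff_add _ _

theorem card_wt_eq (k : ℕ) :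
    (Finset.univ.filter fun u : V24 => hammingNorm u = k).card = Nat.choose 24 k := by
  have : (Finset.univ.filter fun u : V24 => hammingNorm u = k).card
      = (Finset.powersetCard k (Finset.univ : Finset (Fin 24))).card := by
    apply Finset.card_bij (fun u _ => sp u)
    · intro u hu
      simp only [Finset.mem_filter, Finset.mem_univ, true_and] at hu
      rw [Finset.mem_powersetCard]
      exact ⟨Finset.subset_univ _, by rw [← hammingNorm_eq_card_sp, hu]⟩
    · intro u _ v _ h
      exact sp_injective h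
    · intro s hs
      rw [Finset.mem_powersetCard] at hs
      refine ⟨ind s, ?_, sp_ind s⟩
      simp only [Finset.mem_filter, Finset.mem_univ, true_and]
      rw [hammingNorm_eq_card_sp, sp_ind, hs.2]
  rw [this, Finset.card_powersetCard, Finset.card_univ, Fintype.card_fin]

theorem card_wt_le3 : (Finset.univ.filter fun u : V24 => hammingNorm u ≤ 3).card = 2325 := by
  have h := Finset.card_eq_sum_card_fiberwise (f := fun u : V24 => hammingNorm u)
    (s := Finset.univ.filter fun u : V24 => hammingNorm u ≤ 3) (t := Finset.range 4)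
    (by
      intro u hu
      simp only [Finset.coe_filter, Finset.mem_univ, true_and, Set.mem_ofPred_eq] at hu
      simp only [Finset.coe_range, Set.mem_Iio]
      omega)
  rw [h]
  have h2 : ∀ k ∈ Finset.range 4,
      ((Finset.univ.filter fun u : V24 => hammingNorm u ≤ 3).filter fun u => hammingNorm u = k).card
        = Nat.choose 24 k := by
    intro k hk
    rw [← card_wt_eq k, Finset.filter_filter]
    congr 1
    ext u
    simp only [Finset.mem_filter, Finset.mem_univ, true_and]
    rw [Finset.mem_range] at hk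
    constructor
    · exact fun h => h.2
    · exact fun h => ⟨by omega, h⟩
  rw [Finset.sum_congr rfl h2]
  decide

section code

variable (C : Submodule (ZMod 2) V24)

/-- two distinct light words in one coset have weight four and disjoint supports -/
theorem light_pair (hmin : ∀ w ∈ C, w ≠ 0 → 8 ≤ hammingNorm w) {u u' : V24}
    (hd : u - u' ∈ C) (hne : u ≠ u') (hu : hammingNorm u ≤ 4) (hu' : hammingNorm u' ≤ 4) :
    hammingNorm u = 4 ∧ hammingNorm u' = 4 ∧ Disjoint (sp u) (sp u') := by
  have h8 := hmin _ hd (sub_ne_zero.2 hne)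
  rw [sub_eq_add'] at h8
  have h := wt_add u u'
  refine ⟨by omega, by omega, ?_⟩
  rw [Finset.disjoint_iff_inter_eq_empty, ← Finset.card_eq_zero]
  omega

theorem card_quot (hdim : Module.finrank (ZMod 2) C = 12) : Nat.card (V24 ⧸ C) = 4096 := by
  have h1 := Submodule.card_eq_card_quotient_mul_card C
  have h2 : Nat.card V24 = 2 ^ 24 := by
    rw [Nat.card_eq_fintype_card]
    simp [ZMod.card]
  have h3 : Nat.card C = 2 ^ 12 := by
    rw [Module.natCard_eq_pow_finrank (K := ZMod 2), hdim, Nat.card_zmod]
  rw [h2, h3] at h1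
  omega

/-- the words of weight four in a given coset -/
noncomputable def fib4 (c : V24 ⧸ C) : Finset V24 :=
  open Classical in
  (Finset.univ.filter fun u : V24 => hammingNorm u = 4).filter fun u => Submodule.Quotient.mk u = c

theorem mem_fib4 (c : V24 ⧸ C) (u : V24) :
    u ∈ fib4 C c ↔ hammingNorm u = 4 ∧ (Submodule.Quotient.mk u : V24 ⧸ C) = c := by
  classical
  simp [fib4]

theorem fib4_card_le (hmin : ∀ w ∈ C, w ≠ 0 → 8 ≤ hammingNorm w) (c : V24 ⧸ C) :
    (fib4 C c).card ≤ 6 := by
  classical
  have hdisj : ((fib4 C c : Finset V24) : Set V24).PairwiseDisjoint sp := by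
    intro u hu v hv huv
    have hu' := (mem_fib4 C c u).1 hu
    have hv' := (mem_fib4 C c v).1 hv
    have hd : u - v ∈ C := by
      rw [← Submodule.Quotient.eq, hu'.2, hv'.2]
    exact (light_pair C hmin hd huv (le_of_eq hu'.1) (le_of_eq hv'.1)).2.2
  have h1 := Finset.card_biUnion (s := fib4 C c) (t := sp) hdisj
  have h2 : ∑ u ∈ fib4 C c, (sp u).card = 4 * (fib4 C c).card := by
    rw [Finset.sum_congr rfl (g := fun _ => 4)]
    · simp [mul_comm]
    · intro u hu
      rw [← hammingNorm_eq_card_sp]
      exact ((mem_fib4 C c u).1 hu).1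
  have h3 : ((fib4 C c).biUnion sp).card ≤ 24 := by
    have := Finset.card_le_univ ((fib4 C c).biUnion sp)
    simpa using this
  omega

/-- the cosets containing a word of weight at most three -/
noncomputable def cosets3 : Finset (V24 ⧸ C) :=
  open Classical in
  (Finset.univ.filter fun u : V24 => hammingNorm u ≤ 3).image (Submodule.Quotient.mk (p := C))

theorem mem_cosets3 (c : V24 ⧸ C) :
    c ∈ cosets3 C ↔ ∃ u : V24, hammingNorm u ≤ 3 ∧ (Submodule.Quotient.mk u : V24 ⧸ C) = c := by
  classical
  simp [cosets3]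

theorem card_cosets3 (hmin : ∀ w ∈ C, w ≠ 0 → 8 ≤ hammingNorm w) : (cosets3 C).card = 2325 := by
  classical
  rw [cosets3, Finset.card_image_of_injOn, card_wt_le3]
  intro u hu v hv huv
  simp only [Finset.coe_filter, Finset.mem_univ, true_and, Set.mem_ofPred_eq] at hu hv
  by_contra hne
  have hd : u - v ∈ C := by rw [← Submodule.Quotient.eq]; exact huv
  have := light_pair C hmin hd hne (by omega) (by omega)
  omega

theorem fib4_card_eq (hdim : Module.finrank (ZMod 2) C = 12)
    (hmin : ∀ w ∈ C, w ≠ 0 → 8 ≤ hammingNorm w) (c : V24 ⧸ C) (hc : c ∉ cosets3 C) :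
    (fib4 C c).card = 6 := by
  classical
  have : Fintype (V24 ⧸ C) := Fintype.ofFinite _
  have hq : Fintype.card (V24 ⧸ C) = 4096 := by
    rw [← Nat.card_eq_fintype_card]; exact card_quot C hdim
  have hcompl : ((cosets3 C)ᶜ).card = 1771 := by
    rw [Finset.card_compl, hq, card_cosets3 C hmin]
  have hmaps : ((Finset.univ.filter fun u : V24 => hammingNorm u = 4 : Finset V24) : Set V24).MapsTo
      (Submodule.Quotient.mk (p := C)) ((cosets3 C)ᶜ : Finset (V24 ⧸ C)) := by
    intro u hu
    simp only [Finset.coe_filter, Finset.mem_univ, true_and, Set.mem_ofPred_eq] at hu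
    simp only [Finset.coe_compl, Set.mem_compl_iff, Finset.mem_coe]
    intro hmem
    obtain ⟨v, hv, hvu⟩ := (mem_cosets3 C _).1 hmem
    have hne : v ≠ u := by
      intro h; rw [h] at hv; omega
    have hd : v - u ∈ C := by rw [← Submodule.Quotient.eq]; exact hvu
    have := light_pair C hmin hd hne (by omega) (by omega)
    omega
  have hsum := Finset.card_eq_sum_card_fiberwise hmaps
  rw [card_wt_eq 4] at hsum
  have hsum' : ∑ b ∈ (cosets3 C)ᶜ, (fib4 C b).card = ∑ b ∈ (cosets3 C)ᶜ, 6 := by
    rw [Finset.sum_const, hcompl]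
    have : Nat.choose 24 4 = 10626 := by decide
    rw [this] at hsum
    rw [smul_eq_mul]
    rw [show (1771 * 6 : ℕ) = 10626 from rfl, hsum]
    apply Finset.sum_congr rfl
    intro b _
    unfold fib4
    congr
  have := (Finset.sum_eq_sum_iff_of_le (fun b _ => fib4_card_le C hmin b)).1 hsum'
  exact this c (by simpa using hc)

/-- every four-set is the support of a word whose coset consists of six disjoint tetrads -/
theorem fib4_cover (hdim : Module.finrank (ZMod 2) C = 12)
    (hmin : ∀ w ∈ C, w ≠ 0 → 8 ≤ hammingNorm w) (c : V24 ⧸ C) (hc : c ∉ cosets3 C) (i : Fin 24) :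
    ∃ u ∈ fib4 C c, i ∈ sp u := by
  classical
  have hdisj : ((fib4 C c : Finset V24) : Set V24).PairwiseDisjoint sp := by
    intro u hu v hv huv
    have hu' := (mem_fib4 C c u).1 hu
    have hv' := (mem_fib4 C c v).1 hv
    have hd : u - v ∈ C := by
      rw [← Submodule.Quotient.eq, hu'.2, hv'.2]
    exact (light_pair C hmin hd huv (le_of_eq hu'.1) (le_of_eq hv'.1)).2.2
  have h1 := Finset.card_biUnion (s := fib4 C c) (t := sp) hdisj
  have h2 : ∑ u ∈ fib4 C c, (sp u).card = 4 * (fib4 C c).card := by
    rw [Finset.sum_congr rfl (g := fun _ => 4)]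
    · simp [mul_comm]
    · intro u hu
      rw [← hammingNorm_eq_card_sp]
      exact ((mem_fib4 C c u).1 hu).1
  rw [h2, fib4_card_eq C hdim hmin c hc] at h1
  have h3 : (fib4 C c).biUnion sp = Finset.univ := by
    apply Finset.eq_univ_of_card
    rw [h1]; simp
  have : i ∈ (fib4 C c).biUnion sp := by rw [h3]; exact Finset.mem_univ _
  simpa using this

theorem coset_leaders (hdim : Module.finrank (ZMod 2) C = 12)
    (hmin : ∀ w ∈ C, w ≠ 0 → 8 ≤ hammingNorm w) (w : V24) :
    (∃ u : V24, {u : V24 | u - w ∈ C ∧ hammingNorm u ≤ 4} = {u} ∧ hammingNorm u ≤ 3) ∨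
    ({u : V24 | u - w ∈ C ∧ hammingNorm u ≤ 4}.ncard = 6 ∧
      ∀ u ∈ {u : V24 | u - w ∈ C ∧ hammingNorm u ≤ 4}, hammingNorm u = 4 ∧
        ∀ u' ∈ {u : V24 | u - w ∈ C ∧ hammingNorm u ≤ 4}, u ≠ u' → Disjoint (sp u) (sp u')) := by
  classical
  by_cases hc : (Submodule.Quotient.mk w : V24 ⧸ C) ∈ cosets3 C
  · left
    obtain ⟨u0, hu0, hu0w⟩ := (mem_cosets3 C _).1 hc
    refine ⟨u0, ?_, hu0⟩
    ext u
    simp only [Set.mem_ofPred_eq, Set.mem_singleton_iff]
    constructor
    · rintro ⟨hu, hu4⟩
      by_contra hne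
      have hd : u - u0 ∈ C := by
        rw [← Submodule.Quotient.eq, hu0w, Submodule.Quotient.eq]; exact hu
      have := light_pair C hmin hd hne hu4 (by omega)
      omega
    · rintro rfl
      exact ⟨by rw [← Submodule.Quotient.eq]; exact hu0w, by omega⟩
  · right
    have hset : {u : V24 | u - w ∈ C ∧ hammingNorm u ≤ 4}
        = ((fib4 C (Submodule.Quotient.mk w) : Finset V24) : Set V24) := by
      ext u
      simp only [Set.mem_ofPred_eq, Finset.mem_coe, mem_fib4]
      constructor
      · rintro ⟨hu, hu4⟩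
        have hq : (Submodule.Quotient.mk u : V24 ⧸ C) = Submodule.Quotient.mk w := by
          rw [Submodule.Quotient.eq]; exact hu
        refine ⟨?_, hq⟩
        by_contra h4
        exact hc ((mem_cosets3 C _).2 ⟨u, by omega, hq⟩)
      · rintro ⟨hu4, hq⟩
        exact ⟨by rw [← Submodule.Quotient.eq]; exact hq, le_of_eq hu4⟩
    refine ⟨?_, ?_⟩
    · rw [hset, Set.ncard_coe_finset]
      exact fib4_card_eq C hdim hmin _ hc
    · rintro u ⟨hu, hu4⟩
      have hu4' : hammingNorm u = 4 := by
        have : u ∈ ((fib4 C (Submodule.Quotient.mk w) : Finset V24) : Set V24) := by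
          rw [← hset]; exact ⟨hu, hu4⟩
        exact ((mem_fib4 C _ u).1 this).1
      refine ⟨hu4', ?_⟩
      rintro u' ⟨hu', hu'4⟩ hne
      have hd : u - u' ∈ C := by
        have := C.sub_mem hu hu'
        simpa using this
      exact (light_pair C hmin hd hne hu4 hu'4).2.2

/-- every five-set lies in the support of a codeword of weight eight -/
theorem exists_octad (hdim : Module.finrank (ZMod 2) C = 12)
    (hmin : ∀ w ∈ C, w ≠ 0 → 8 ≤ hammingNorm w) (s : Finset (Fin 24)) (hs : s.card = 5) :
    ∃ o ∈ C, hammingNorm o = 8 ∧ s ⊆ sp o := by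
  classical
  obtain ⟨i, hi⟩ : s.Nonempty := by
    rw [← Finset.card_pos]; omega
  set t := s.erase i with ht
  have htc : t.card = 4 := by rw [ht, Finset.card_erase_of_mem hi]; omega
  have hwt : hammingNorm (ind t) = 4 := by rw [hammingNorm_eq_card_sp, sp_ind, htc]
  have hc : (Submodule.Quotient.mk (ind t) : V24 ⧸ C) ∉ cosets3 C := by
    intro hmem
    obtain ⟨v, hv, hvu⟩ := (mem_cosets3 C _).1 hmem
    have hne : v ≠ ind t := by
      intro h; rw [h] at hv; omega
    have hd : v - ind t ∈ C := by rw [← Submodule.Quotient.eq]; exact hvu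
    have := light_pair C hmin hd hne (by omega) (by omega)
    omega
  obtain ⟨u, hu, hiu⟩ := fib4_cover C hdim hmin _ hc i
  obtain ⟨hu4, huq⟩ := (mem_fib4 C _ u).1 hu
  have hne : u ≠ ind t := by
    intro h
    rw [h, sp_ind, ht] at hiu
    exact (Finset.notMem_erase i s) hiu
  have hd : u - ind t ∈ C := by rw [← Submodule.Quotient.eq]; exact huq
  have hl := light_pair C hmin hd hne (le_of_eq hu4) (le_of_eq hwt)
  refine ⟨u - ind t, hd, ?_, ?_⟩
  · rw [sub_eq_add']
    have h := wt_add u (ind t)
    have h0 : (sp u ∩ sp (ind t)).card = 0 := by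
      rw [Finset.card_eq_zero, ← Finset.disjoint_iff_inter_eq_empty]; exact hl.2.2
    omega
  · rw [sub_eq_add', sp_add, sp_ind]
    intro j hj
    rw [Finset.mem_symmDiff]
    by_cases hji : j = i
    · left
      subst hji
      exact ⟨hiu, Finset.notMem_erase _ _⟩
    · right
      have hjt : j ∈ t := Finset.mem_erase.2 ⟨hji, hj⟩
      refine ⟨hjt, fun hju => ?_⟩
      have := Finset.disjoint_left.1 hl.2.2 hju
      rw [sp_ind] at this
      exact this hjt

/-- two codewords of weight eight sharing five points are equal -/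
theorem octad_unique (hmin : ∀ w ∈ C, w ≠ 0 → 8 ≤ hammingNorm w) {o o' : V24} (ho : o ∈ C)
    (ho' : o' ∈ C) (h8 : hammingNorm o = 8) (h8' : hammingNorm o' = 8) (s : Finset (Fin 24))
    (hs : s.card = 5) (hso : s ⊆ sp o) (hso' : s ⊆ sp o') : o = o' := by
  by_contra hne
  have h := hmin _ (C.sub_mem ho ho') (sub_ne_zero.2 hne)
  rw [sub_eq_add'] at h
  have h2 := wt_add o o'
  have h3 : s.card ≤ (sp o ∩ sp o').card := Finset.card_le_card (Finset.subset_inter hso hso')
  omega

/-- the code is spanned by its words of weight eight -/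
theorem span_octads (hdim : Module.finrank (ZMod 2) C = 12)
    (hmin : ∀ w ∈ C, w ≠ 0 → 8 ≤ hammingNorm w) :
    Submodule.span (ZMod 2) {w : V24 | w ∈ C ∧ hammingNorm w = 8} = C := by
  apply le_antisymm
  · rw [Submodule.span_le]
    intro w hw
    exact hw.1
  · have key : ∀ n : ℕ, ∀ w ∈ C, hammingNorm w ≤ n →
        w ∈ Submodule.span (ZMod 2) {w : V24 | w ∈ C ∧ hammingNorm w = 8} := by
      intro n
      induction n with
      | zero =>
        intro w _ hw0
        have : w = 0 := by
          rw [← hammingNorm_eq_zero]; omega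
        rw [this]; exact Submodule.zero_mem _
      | succ n ih =>
        intro w hw hwn
        by_cases h0 : w = 0
        · rw [h0]; exact Submodule.zero_mem _
        have h8 := hmin w hw h0
        rw [hammingNorm_eq_card_sp] at h8
        obtain ⟨s, hs, hs5⟩ := Finset.exists_subset_card_eq (s := sp w) (n := 5) (by omega)
        obtain ⟨o, ho, ho8, hso⟩ := exists_octad C hdim hmin s hs5
        have h2 := wt_add w o
        have h3 : s.card ≤ (sp w ∩ sp o).card := Finset.card_le_card (Finset.subset_inter hs hso)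
        have h4 : w + o ∈ Submodule.span (ZMod 2) {w : V24 | w ∈ C ∧ hammingNorm w = 8} :=
          ih (w + o) (C.add_mem hw ho) (by omega)
        have h5 : o ∈ Submodule.span (ZMod 2) {w : V24 | w ∈ C ∧ hammingNorm w = 8} :=
          Submodule.subset_span ⟨ho, ho8⟩
        have h6 : w = (w + o) - o := by simp
        rw [h6]
        exact Submodule.sub_mem _ h4 h5
    intro w hw
    exact key _ w hw le_rfl

/-- a self-orthogonal such code is doubly even -/
theorem doubly_even (hdim : Module.finrank (ZMod 2) C = 12)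
    (horth : ∀ v ∈ C, ∀ w ∈ C, ∑ i, v i * w i = 0)
    (hmin : ∀ w ∈ C, w ≠ 0 → 8 ≤ hammingNorm w) : ∀ w ∈ C, 4 ∣ hammingNorm w := by
  have hinter : ∀ v ∈ C, ∀ w ∈ C, 2 ∣ (sp v ∩ sp w).card := by
    intro v hv w hw
    have h := horth v hv w hw
    have h1 : ∑ i, v i * w i = ((sp v ∩ sp w).card : ZMod 2) := by
      rw [Finset.card_eq_sum_ones, Nat.cast_sum, ← Finset.sum_subset (Finset.subset_univ (sp v ∩ sp w))]
      · apply Finset.sum_congr rfl
        intro i hi
        rw [Finset.mem_inter, mem_sp, mem_sp, zmod2_ne_zero_iff, zmod2_ne_zero_iff] at hi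
        rw [hi.1, hi.2]; simp
      · intro i _ hi
        rw [Finset.mem_inter, mem_sp, mem_sp, not_and_or, not_not, not_not] at hi
        rcases hi with hi | hi <;> rw [hi] <;> simp
    rw [h1] at h
    exact (ZMod.natCast_eq_zero_iff _ _).1 h
  intro w hw
  have hw' : w ∈ Submodule.span (ZMod 2) {w : V24 | w ∈ C ∧ hammingNorm w = 8} := by
    rw [span_octads C hdim hmin]; exact hw
  clear hw
  have : w ∈ C ∧ 4 ∣ hammingNorm w := by
    induction hw' using Submodule.span_induction with
    | mem x hx => exact ⟨hx.1, by rw [hx.2]; decide⟩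
    | zero => exact ⟨C.zero_mem, by simp⟩
    | add x y _ _ hx hy =>
      refine ⟨C.add_mem hx.1 hy.1, ?_⟩
      have h := wt_add x y
      obtain ⟨a, ha⟩ := hx.2
      obtain ⟨b, hb⟩ := hy.2
      obtain ⟨c, hc⟩ := hinter x hx.1 y hy.1
      omega
    | smul a x _ hx =>
      have ha : ∀ a : ZMod 2, a = 0 ∨ a = 1 := by decide
      rcases ha a with rfl | rfl
      · simp [C.zero_mem]
      · simpa using hx
  exact this.2

end code

end Cfsg.Agent.Lib.Helper94
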