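import Mathlib
import Cfsg.Prelude.Def_Sporadic_a
import Cfsg.Prelude.Def_SporadicCombinatorics
import Cfsg.Agent.Lib.Helper94.GolayFixed
import Cfsg.Agent.Lib.Helper94.OrbStab
import Cfsg.Agent.Lib.Helper33.OctData

set_option autoImplicit false
open scoped Pointwise

namespace Cfsg.Agent.Lib.Helper94

open Cfsg.Agent.Lib.Helper33 in
/-- transitivity on pairs with a given relation, from rank data. -/
theorem RankData.pair_trans {G X ι : Type*} [Group G] [MulAction G X] {Ω : Set X} {rel : X → X → ι} {x₀ : X}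
    {sz : ι → ℕ} (D : RankData G Ω rel x₀ sz) {x y x' y' : X} (hx : x ∈ Ω) (hy : y ∈ Ω) (hx' : x' ∈ Ω)
    (hy' : y' ∈ Ω) (h : rel x y = rel x' y') : ∃ g : G, g • x = x' ∧ g • y = y' := by
  obtain ⟨a, ha⟩ := D.trans x hx
  obtain ⟨b, hb⟩ := D.trans x' hx'
  have h1 : rel x₀ (a • y) = rel x₀ (b • y') := by
    rw [← ha, D.rel_smul, h, ← D.rel_smul b x' y', hb, ha]
  obtain ⟨c, hc, hc'⟩ := D.trans₂ _ (D.smul_mem a y hy) _ (D.smul_mem b y' hy') h1
  refine ⟨b⁻¹ * c * a, ?_, ?_⟩
  · rw [mul_smul, mul_smul, ha, hc, ← hb, inv_smul_smul]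
  · rw [mul_smul, mul_smul, hc', inv_smul_smul]

/-- the group of the code is transitive on ordered pairs of octads with given intersection size. -/
theorem octad_pair_trans {o o' p p' : Finset GolayPt} (ho : o ∈ octads) (ho' : o' ∈ octads) (hp : p ∈ octads)
    (hp' : p' ∈ octads) (h : (o ∩ o').card = (p ∩ p').card) : ∃ k ∈ M24, k • o = p ∧ k • o' = p' := by
  obtain ⟨g, h1, h2⟩ := RankData.pair_trans Cfsg.Agent.Lib.Helper33.oct_rank ho ho' hp hp' h
  exact ⟨g, g.2, h1, h2⟩

theorem ncard_octads' : octads.ncard = 759 := by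
  have h := octad_count (fun _ => True) (fun _ => true) (fun _ _ => by simp)
  have e : {x | x ∈ octads ∧ True} = octads := by ext; simp
  rw [e] at h
  rw [h]
  decide +kernel

theorem card_stab_two_octads (o o' : Finset GolayPt) (ho : o ∈ octads) (ho' : o' ∈ octads) :
    244823040 = 759 * (Cfsg.Agent.Lib.Helper33.octSz (o ∩ o').card *
      Nat.card ↥(MulAction.stabilizer M24 o ⊓ MulAction.stabilizer M24 o')) := by
  have h := card_eq_orbit_orbit_mul (G := ↥M24) o o'
  rw [card_M24, Cfsg.Agent.Lib.Helper33.oct_rank.orbit_eq ho, ncard_octads',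
    Cfsg.Agent.Lib.Helper33.oct_rank.ncard_orbit_stabilizer ho ho'] at h
  exact h

theorem chk_pair2 : orL (fun P => Nat.mul (eqN (applyM P 2969648) 2969648) (Nat.sub 1 (eqN P idM))) stab5L = 0 := by
  decide +kernel

theorem o2_mem : unm 2969648 ∈ octads := unm_mem_octads (by decide +kernel)

theorem o2_inter : (unm 8536111 ∩ unm 2969648).card = 2 := by
  rw [← unm_inter, card_unm (by decide)]
  decide +kernel

/-- an element fixing two octads meeting in two points, and each point of the first one outside the second one,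
is trivial. -/
theorem eq_one_of_fix_sdiff {o o' : Finset GolayPt} (ho : o ∈ octads) (ho' : o' ∈ octads)
    (h2 : (o ∩ o').card = 2) {g : Equiv.Perm GolayPt} (hg : g ∈ M24) (hgo' : g • o' = o')
    (hf : ∀ p ∈ o \ o', g p = p) : g = 1 := by
  obtain ⟨k, hk, k1, k2⟩ := octad_pair_trans ho ho' baseOctad_mem o2_mem (h2.trans o2_inter.symm)
  have hfix : ∀ t ∈ [3, 2, 1, 0, 23], (k * g * k⁻¹) (pt t) = pt t := by
    intro t ht
    have hm : pt t ∈ unm 8536111 \ unm 2969648 := by
      simp only [List.mem_cons, List.not_mem_nil, or_false] at ht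
      rw [Finset.mem_sdiff, mem_unm, mem_unm]
      rcases ht with rfl | rfl | rfl | rfl | rfl <;> decide
    rw [← k1, ← k2, ← Finset.smul_finset_sdiff] at hm
    obtain ⟨q, hq, hqt⟩ := Finset.mem_smul_finset.1 hm
    have hqt' : k q = pt t := hqt
    rw [← hqt', conj_apply, hf q hq]
  have hmem : k * g * k⁻¹ ∈ fixG [3, 2, 1, 0, 23] := mem_fixG.2 ⟨conj_mem_M24 hk hg, hfix⟩
  have hc := code_mem_stab5L hmem
  have h0 := (orL_eq_zero_iff _ _).1 chk_pair2 _ hc
  have hinv : applyM (code (k * g * k⁻¹)) 2969648 = 2969648 := by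
    rw [← inv_iff_applyM _ (by norm_num)]
    show (k * g * k⁻¹) • unm 2969648 = unm 2969648
    rw [← k2, mul_smul, mul_smul, inv_smul_smul, hgo']
  have h0' : eqN (applyM (code (k * g * k⁻¹)) 2969648) 2969648 * (1 - eqN (code (k * g * k⁻¹)) idM) = 0 := h0
  rw [hinv, eqN_eq, eqN_eq, if_pos rfl, one_mul] at h0'
  have hid : code (k * g * k⁻¹) = idM := by
    by_contra hne
    rw [if_neg hne] at h0'
    exact absurd h0' (by norm_num)
  have h1 : k * g * k⁻¹ = 1 := code_injective (by rw [hid, code_one])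
  have : g = k⁻¹ * (k * g * k⁻¹) * k := by group
  rw [this, h1]; group

end Cfsg.Agent.Lib.Helper94
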