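import Cfsg.Agent.Lib.Helper94.BlockEval
import Cfsg.Agent.Lib.Helper94.GolayPairs

/-!
# The sum over the involutions fixing an octad pointwise
-/

set_option autoImplicit false
open Cfsg
open Cfsg.Agent.Lib.Helper81
open scoped Pointwise

namespace Cfsg.Agent.Lib.Helper94

variable {M : Ideal AlgInt}

/-- a permutation as an element of a subgroup. -/
noncomputable def mkS (S : Subgroup (Equiv.Perm GolayPt)) (σ : Equiv.Perm GolayPt) : S := by
  classical exact if h : σ ∈ S then ⟨σ, h⟩ else 1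

theorem mkS_coe {S : Subgroup (Equiv.Perm GolayPt)} {σ : Equiv.Perm GolayPt} (h : σ ∈ S) :
    ((mkS S σ : S) : Equiv.Perm GolayPt) = σ := by
  rw [mkS, dif_pos h]

theorem mkS_self {S : Subgroup (Equiv.Perm GolayPt)} (t : S) :
    mkS S (t : Equiv.Perm GolayPt) = t := Subtype.ext (mkS_coe t.2)

theorem sum_map_flatMap {α β : Type*} (f : β → ℂ) (g : α → List β) (l : List α) :
    ((l.flatMap g).map f).sum = (l.map fun a => ((g a).map f).sum).sum := by
  induction l with
  | nil => rfl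
  | cons a l ih =>
    rw [List.flatMap_cons, List.map_append, List.sum_append, ih, List.map_cons, List.sum_cons]

/-- data describing the involutions fixing pointwise a member of a family of sets. -/
structure SumData (S : Subgroup (Equiv.Perm GolayPt)) (O₀ : Finset GolayPt)
    (kL QL : List (Equiv.Perm GolayPt)) : Prop where
  k_mem : ∀ k ∈ kL, k ∈ S
  k_nodup : (kL.map fun k => k • O₀).Nodup
  k_inv : ∀ g ∈ S, ∀ k ∈ kL, ∃ k' ∈ kL, g • k • O₀ = k' • O₀
  q_nodup : QL.Nodup
  q_iff : ∀ t ∈ S, (t ≠ 1 ∧ ∀ p ∈ O₀, t p = p) ↔ t ∈ QL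
  q_mem : ∀ q ∈ QL, q ∈ S
  q_two : ∀ q ∈ QL, orderOf q = 2

theorem fix_conj_iff (k t : Equiv.Perm GolayPt) (O : Finset GolayPt) :
    (∀ p ∈ k • O, (k * t * k⁻¹) p = p) ↔ ∀ p ∈ O, t p = p := by
  constructor
  · intro h p hp
    have h1 := h (k p) (Finset.smul_mem_smul_finset (a := k) hp)
    simp only [Equiv.Perm.mul_apply, Equiv.Perm.inv_def, Equiv.symm_apply_apply] at h1
    exact k.injective h1
  · intro h p hp
    obtain ⟨q, hq, rfl⟩ := Finset.mem_smul_finset.1 hp
    show (k * t * k⁻¹) (k q) = k q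
    simp only [Equiv.Perm.mul_apply, Equiv.Perm.inv_def, Equiv.symm_apply_apply]
    rw [h q hq]

theorem SumData.sum_eq_zero {S : Subgroup (Equiv.Perm GolayPt)} [Fintype S] {O₀ : Finset GolayPt}
    {kL QL : List (Equiv.Perm GolayPt)} (D : SumData S O₀ kL QL) {f : S → ℂ} (hf : DZ M f) (x : S) :
    ((kL.flatMap fun k => QL.map fun q => mkS S (k⁻¹ * x * k * q)).map f).sum = 0 := by
  classical
  set 𝒪 : Finset (Finset GolayPt) := (kL.map fun k => k • O₀).toFinset with h𝒪
  have hmem𝒪 : ∀ O, O ∈ 𝒪 ↔ ∃ k ∈ kL, k • O₀ = O := by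
    intro O
    rw [h𝒪, List.mem_toFinset, List.mem_map]
  have hinv : ∀ g : S, ∀ O ∈ 𝒪, (g : Equiv.Perm GolayPt) • O ∈ 𝒪 := by
    intro g O hO
    obtain ⟨k, hk, rfl⟩ := (hmem𝒪 O).1 hO
    obtain ⟨k', hk', e⟩ := D.k_inv g g.2 k hk
    exact (hmem𝒪 _).2 ⟨k', hk', e.symm⟩
  set fx : S → Finset GolayPt → Prop := fun t O => ∀ p ∈ O, (t : Equiv.Perm GolayPt) p = p with hfx
  set w : S → ℂ := fun t => if t = 1 then 0 else ((𝒪.filter (fx t)).card : ℂ) with hw
  have hfxc : ∀ (k t : S) (O : Finset GolayPt),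
      fx (k * t * k⁻¹) ((k : Equiv.Perm GolayPt) • O) ↔ fx t O := by
    intro k t O
    exact fix_conj_iff (k : Equiv.Perm GolayPt) (t : Equiv.Perm GolayPt) O
  have hw1 : ∀ t k : S, w (k * t * k⁻¹) = w t := by
    intro t k
    simp only [hw]
    by_cases ht : t = 1
    · subst ht; simp
    · have ht' : k * t * k⁻¹ ≠ 1 := by
        intro h
        apply ht
        have : t = k⁻¹ * (k * t * k⁻¹) * k := by group
        rw [this, h]; group
      rw [if_neg ht, if_neg ht']
      congr 1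
      symm
      apply Finset.card_bij (fun O _ => (k : Equiv.Perm GolayPt) • O)
      · intro O hO
        rw [Finset.mem_filter] at hO ⊢
        exact ⟨hinv k O hO.1, (hfxc k t O).2 hO.2⟩
      · intro O _ O' _ h
        exact smul_left_cancel _ h
      · intro O hO
        rw [Finset.mem_filter] at hO
        refine ⟨((k⁻¹ : S) : Equiv.Perm GolayPt) • O, ?_, ?_⟩
        · rw [Finset.mem_filter]
          refine ⟨hinv k⁻¹ O hO.1, ?_⟩
          rw [← hfxc k t]
          have : (k : Equiv.Perm GolayPt) • ((k⁻¹ : S) : Equiv.Perm GolayPt) • O = O := by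
            rw [Subgroup.coe_inv, smul_inv_smul]
          rw [this]
          exact hO.2
        · show (k : Equiv.Perm GolayPt) • ((k⁻¹ : S) : Equiv.Perm GolayPt) • O = O
          rw [Subgroup.coe_inv, smul_inv_smul]
  have hw2 : ∀ t, w t ≠ 0 → 2 ∣ orderOf t := by
    intro t ht
    simp only [hw] at ht
    by_cases h1 : t = 1
    · rw [if_pos h1] at ht; exact absurd rfl ht
    · rw [if_neg h1] at ht
      have hne : (𝒪.filter (fx t)).Nonempty := by
        rw [← Finset.card_pos]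
        exact Nat.pos_of_ne_zero fun h => ht (by rw [h]; simp)
      obtain ⟨O, hO⟩ := hne
      rw [Finset.mem_filter] at hO
      obtain ⟨k, hk, rfl⟩ := (hmem𝒪 O).1 hO.1
      set κ : S := ⟨k, D.k_mem k hk⟩ with hκ
      have e : t = κ * (κ⁻¹ * t * κ) * κ⁻¹ := by group
      have h2 : fx (κ⁻¹ * t * κ) O₀ := by
        rw [← hfxc κ, ← e]; exact hO.2
      have h3 : ((κ⁻¹ * t * κ : S) : Equiv.Perm GolayPt) ∈ QL := by
        rw [← D.q_iff _ (κ⁻¹ * t * κ : S).2]
        refine ⟨?_, h2⟩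
        intro h
        apply h1
        have h4 : κ⁻¹ * t * κ = 1 := Subtype.ext h
        rw [e, h4]; group
      have h5 := D.q_two _ h3
      rw [Subgroup.orderOf_coe] at h5
      have h6 : orderOf t = orderOf (κ⁻¹ * t * κ) := by
        have := (MulAut.conj κ⁻¹).orderOf_eq t
        rw [MulAut.conj_apply, inv_inv] at this
        exact this.symm
      rw [h6, h5]
  have main := hf.sum w hw1 hw2 x
  have e1 : ∀ t : S, w t * f (x * t) =
      ∑ O ∈ 𝒪, if t ≠ 1 ∧ fx t O then f (x * t) else 0 := by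
    intro t
    simp only [hw]
    by_cases h1 : t = 1
    · simp [h1]
    · rw [if_neg h1]
      simp only [ne_eq, h1, not_false_eq_true, true_and]
      rw [← Finset.sum_filter, Finset.sum_const, nsmul_eq_mul]
  rw [Finset.sum_congr rfl fun t _ => e1 t, Finset.sum_comm, h𝒪, List.sum_toFinset _ D.k_nodup,
    List.map_map] at main
  rw [sum_map_flatMap, ← main]
  congr 1
  apply List.map_congr_left
  intro k hk
  set κ : S := ⟨k, D.k_mem k hk⟩ with hκ
  simp only [Function.comp]
  rw [← Equiv.sum_comp (MulAut.conj κ).toEquiv]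
  have e2 : ∀ t : S, (if (MulAut.conj κ).toEquiv t ≠ 1 ∧ fx ((MulAut.conj κ).toEquiv t) (k • O₀) then
      f (x * (MulAut.conj κ).toEquiv t) else 0) =
      if (t : Equiv.Perm GolayPt) ∈ QL then f (κ⁻¹ * x * κ * t) else 0 := by
    intro t
    have c1 : (MulAut.conj κ).toEquiv t = κ * t * κ⁻¹ := rfl
    rw [c1]
    have c2 : (κ * t * κ⁻¹ ≠ 1 ∧ fx (κ * t * κ⁻¹) (k • O₀)) ↔ (t : Equiv.Perm GolayPt) ∈ QL := by
      rw [← D.q_iff _ t.2]
      have c3 : fx (κ * t * κ⁻¹) (k • O₀) ↔ fx t O₀ := hfxc κ t O₀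
      rw [c3]
      apply and_congr_left'
      constructor
      · intro h h'
        apply h
        have : t = 1 := Subtype.ext h'
        rw [this]; group
      · intro h h'
        apply h
        have : t = κ⁻¹ * (κ * t * κ⁻¹) * κ := by group
        rw [this, h']; simp
    have c4 : f (x * (κ * t * κ⁻¹)) = f (κ⁻¹ * x * κ * t) := by
      rw [← hf.conj (x * (κ * t * κ⁻¹)) κ⁻¹]
      congr 1
      group
    rw [c4]
    exact if_congr c2 rfl rfl
  rw [Finset.sum_congr rfl fun t _ => e2 t, ← Finset.sum_filter]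
  have hnd : (QL.map (mkS S)).Nodup := by
    apply List.Nodup.map_on _ D.q_nodup
    intro a ha b hb h
    rw [← mkS_coe (D.q_mem a ha), h, mkS_coe (D.q_mem b hb)]
  have e3 : (Finset.univ.filter fun t : S => (t : Equiv.Perm GolayPt) ∈ QL) =
      (QL.map (mkS S)).toFinset := by
    ext t
    rw [Finset.mem_filter, List.mem_toFinset, List.mem_map]
    constructor
    · intro h
      exact ⟨t, h.2, mkS_self t⟩
    · rintro ⟨q, hq, rfl⟩
      refine ⟨Finset.mem_univ _, ?_⟩
      rw [mkS_coe (D.q_mem q hq)]; exact hq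
  rw [e3, List.sum_toFinset _ hnd, List.map_map, List.map_map]
  congr 1
  apply List.map_congr_left
  intro q hq
  simp only [Function.comp]
  congr 1
  apply Subtype.ext
  have hm : k⁻¹ * (x : Equiv.Perm GolayPt) * k * q ∈ S :=
    S.mul_mem (S.mul_mem (S.mul_mem (S.inv_mem (D.k_mem k hk)) x.2) (D.k_mem k hk)) (D.q_mem q hq)
  rw [mkS_coe hm]
  simp only [Subgroup.coe_mul, Subgroup.coe_inv, mkS_coe (D.q_mem q hq), hκ]

end Cfsg.Agent.Lib.Helper94
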