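import Cfsg.Agent.Lib.Helper94.OType
import Cfsg.Agent.Lib.Helper94.GolayConj
import Cfsg.Agent.Lib.Helper94.BlockSum

/-!
# Checking the classification of elements by certificates
-/

set_option autoImplicit false
open Cfsg

namespace Cfsg.Agent.Lib.Helper94

def anyL (q : ℕ → Bool) : List ℕ → Bool
  | [] => false
  | a :: l => q a || anyL q l

theorem anyL_iff (q : ℕ → Bool) (l : List ℕ) : anyL q l = true ↔ ∃ x ∈ l, q x = true := by
  induction l with
  | nil => simp [anyL]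
  | cons a l ih => rw [anyL, Bool.or_eq_true, ih]; simp

/-- membership in the subgroup of the elements of the group of the code fixing some sets. -/
noncomputable def inSub (fixL : List ℕ) (K : ℕ) : Bool :=
  inM24 K && allL (fun m => Nat.beq (applyM K m) m) fixL

/-- the dichotomy for an element. -/
def CLP (S : Subgroup (Equiv.Perm GolayPt)) (long : List ℕ) (X : ℕ → Equiv.Perm GolayPt)
    (g : Equiv.Perm GolayPt) : Prop :=
  ((∃ z ∈ S, orderOf z = 2 ∧ z * g = g * z) ∧ ∀ l ∈ long, ¬ l ∣ orderOf g) ∨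
  ∃ L ∈ long, orderOf g = L ∧ ∃ k ∈ S, k * g * k⁻¹ = X L ∨ k * g * k⁻¹ = (X L)⁻¹

theorem orderOf_conj' (k g : Equiv.Perm GolayPt) : orderOf (k * g * k⁻¹) = orderOf g :=
  (MulAut.conj k).orderOf_eq g

theorem CLP.of_conj {S : Subgroup (Equiv.Perm GolayPt)} {long : List ℕ} {X : ℕ → Equiv.Perm GolayPt}
    {k g : Equiv.Perm GolayPt} (hk : k ∈ S) (h : CLP S long X (k * g * k⁻¹)) : CLP S long X g := by
  rcases h with ⟨⟨z, hz, hz2, hzc⟩, hl⟩ | ⟨L, hL, ho, k', hk', h⟩
  · left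
    rw [orderOf_conj'] at hl
    refine ⟨⟨k⁻¹ * z * k, S.mul_mem (S.mul_mem (S.inv_mem hk) hz) hk, ?_, ?_⟩, hl⟩
    · have := orderOf_conj' k⁻¹ z
      rw [inv_inv] at this
      rw [this, hz2]
    · calc k⁻¹ * z * k * g = k⁻¹ * (z * (k * g * k⁻¹)) * k := by group
        _ = k⁻¹ * ((k * g * k⁻¹) * z) * k := by rw [hzc]
        _ = g * (k⁻¹ * z * k) := by group
  · right
    rw [orderOf_conj'] at ho
    refine ⟨L, hL, ho, k' * k, S.mul_mem hk' hk, ?_⟩
    rwa [← conj_conj]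

theorem exists_invol_of_even {S : Subgroup (Equiv.Perm GolayPt)} {g : Equiv.Perm GolayPt} (hg : g ∈ S)
    (h : 2 ∣ orderOf g) : ∃ z ∈ S, orderOf z = 2 ∧ z * g = g * z :=
  ⟨g ^ (orderOf g / 2), S.pow_mem hg _, orderOf_pow_orderOf_div (orderOf_pos g).ne' h,
    (Commute.pow_self g _).eq⟩

/-- certificate check. -/
noncomputable def goodCL (fixL nA long : List ℕ) (XS XI : ℕ → ℕ) (K P : ℕ) : Bool :=
  force (toS P) fun Q =>
    (anyL (fun n => powOneS n Q) nA && (Nat.beq (otype [] [] Q) 0 ||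
      (inSub fixL K && force (toS K) fun Z =>
        (Nat.beq (mulS Z Z) idS && (!Nat.beq Z idS && Nat.beq (mulS Z Q) (mulS Q Z)))))) ||
    (inSub fixL K && force (toS K) fun Z => force (mulS (mulS Z Q) (invS Z)) fun C =>
      anyL (fun L => Nat.beq C (XS L) || Nat.beq C (XI L)) long)

theorem toS_of_inM24 {K : ℕ} (h : inM24 K = true) : toS K = codeS (permOf K) := by
  rw [← toS_code, code_permOf (validM_of_inM24 h)]

theorem goodCL_spec {S : Subgroup (Equiv.Perm GolayPt)} {fixL nA long : List ℕ} {XS XI : ℕ → ℕ}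
    {X : ℕ → Equiv.Perm GolayPt} (hS : ∀ K, inSub fixL K = true → permOf K ∈ S)
    (hnA : ∀ l ∈ long, ∀ n ∈ nA, ¬ l ∣ n) (hXS : ∀ L ∈ long, XS L = codeS (X L))
    (hXI : ∀ L ∈ long, XI L = codeS (X L)⁻¹) (hXo : ∀ L ∈ long, orderOf (X L) = L)
    {K : ℕ} {g : Equiv.Perm GolayPt} (hg : g ∈ S)
    (h : goodCL fixL nA long XS XI K (code g) = true) : CLP S long X g := by
  rw [goodCL, force_eq, toS_code, Bool.or_eq_true] at h
  rcases h with h | h
  · left
    rw [Bool.and_eq_true, anyL_iff] at h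
    obtain ⟨⟨n, hn, hp⟩, h⟩ := h
    rw [powOneS_iff] at hp
    refine ⟨?_, fun l hl hd => hnA l hl n hn (hd.trans (orderOf_dvd_of_pow_eq_one hp))⟩
    rw [Bool.or_eq_true] at h
    rcases h with h | h
    · rw [Nat.beq_eq] at h
      apply exists_invol_of_even hg
      rcases otype_spec [] [] (by simp) g with h1 | h1 | h1
      · exact absurd h1.1 (by simp)
      · rcases h1.2 with h2 | ⟨n, hn, _⟩
        · exact h2
        · exact absurd hn (by simp)
      · rw [h] at h1; omega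
    · rw [Bool.and_eq_true, force_eq] at h
      obtain ⟨hK, h⟩ := h
      have hK24 : inM24 K = true := by
        rw [inSub, Bool.and_eq_true] at hK; exact hK.1
      rw [toS_of_inM24 hK24, mulS_codeS, mulS_codeS, mulS_codeS, Bool.and_eq_true, Bool.and_eq_true,
        beq_idS, beq_codeS, Bool.not_eq_true', ← Bool.not_eq_true, beq_idS] at h
      obtain ⟨h1, h2, h3⟩ := h
      refine ⟨permOf K, hS K hK, ?_, h3⟩
      exact orderOf_eq_prime (by rw [pow_two]; exact h1) h2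
  · right
    rw [Bool.and_eq_true, force_eq, force_eq, anyL_iff] at h
    obtain ⟨hK, L, hL, h⟩ := h
    have hK24 : inM24 K = true := by
      rw [inSub, Bool.and_eq_true] at hK; exact hK.1
    rw [toS_of_inM24 hK24, mulS_codeS, invS_codeS, mulS_codeS, hXS L hL, hXI L hL, Bool.or_eq_true,
      beq_codeS, beq_codeS] at h
    refine ⟨L, hL, ?_, permOf K, hS K hK, h⟩
    rw [← orderOf_conj' (permOf K) g]
    rcases h with h | h
    · rw [h, hXo L hL]
    · rw [h, orderOf_inv, hXo L hL]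

/-- passing to the subgroup. -/
theorem clData_of_CLP {S : Subgroup (Equiv.Perm GolayPt)} {long small : List ℕ}
    {X : ℕ → Equiv.Perm GolayPt} (hX : ∀ L ∈ long, X L ∈ S) (h : ∀ g ∈ S, CLP S long X g)
    (ar1 : ∀ l ∈ long, ∀ L ∈ long, l ∣ L → l = L) (ar2 : ∀ L ∈ long, ¬ 2 ∣ L)
    (ar3 : ∀ L ∈ long, ∀ n ∈ small, ¬ L ∣ n) :
    CLData (G := S) long small (fun L => mkS S (X L)) where
  cl := by
    intro g
    rcases h g g.2 with ⟨⟨z, hz, hz2, hzc⟩, hl⟩ | ⟨L, hL, ho, k, hk, h⟩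
    · left
      refine ⟨⟨⟨z, hz⟩, ?_, Subtype.ext hzc⟩, ?_⟩
      · rw [← Subgroup.orderOf_coe]; exact hz2
      · rw [← Subgroup.orderOf_coe]; exact hl
    · right
      refine ⟨L, hL, by rw [← Subgroup.orderOf_coe]; exact ho, ?_⟩
      rcases h with h | h
      · left
        refine ⟨⟨k, hk⟩, Subtype.ext ?_⟩
        rw [mkS_coe (hX L hL)]; exact h
      · right
        refine ⟨⟨k, hk⟩, Subtype.ext ?_⟩
        rw [Subgroup.coe_inv, mkS_coe (hX L hL)]; exact h
  ar1 := ar1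
  ar2 := ar2
  ar3 := ar3

end Cfsg.Agent.Lib.Helper94
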