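import Cfsg.Agent.Lib.Helper94.Cent2B
import Cfsg.Agent.Lib.Helper94.SextetStab
import Cfsg.Agent.Lib.Helper94.ConjSub
import Cfsg.Agent.Lib.Helper94.BlockCL

/-!
# The centraliser of a fixed-point-free involution is 2-constrained
-/

set_option autoImplicit false
open Cfsg
open scoped Pointwise

namespace Cfsg.Agent.Lib.Helper94

/-- the local hypothesis. -/
def HLoc {G : Type*} [Group G] (z : G) : Prop :=
  ∃ Q : Subgroup G, IsPGroup 2 Q ∧ (∀ q ∈ Q, Commute z q) ∧
    (∀ h, Commute z h → ∀ q ∈ Q, h * q * h⁻¹ ∈ Q) ∧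
    (∀ h, Commute z h → (∀ q ∈ Q, Commute h q) → h ∈ Q)

theorem commute_conj_iff {G : Type*} [Group G] (k a b : G) :
    Commute (k * a * k⁻¹) b ↔ Commute a (k⁻¹ * b * k) := by
  constructor
  · intro h
    have h1 : k * a * k⁻¹ * b = b * (k * a * k⁻¹) := h
    show a * (k⁻¹ * b * k) = k⁻¹ * b * k * a
    calc a * (k⁻¹ * b * k) = k⁻¹ * (k * a * k⁻¹ * b) * k := by group
      _ = k⁻¹ * (b * (k * a * k⁻¹)) * k := by rw [h1]
      _ = k⁻¹ * b * k * a := by group
  · intro h
    have h1 : a * (k⁻¹ * b * k) = k⁻¹ * b * k * a := h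
    show k * a * k⁻¹ * b = b * (k * a * k⁻¹)
    calc k * a * k⁻¹ * b = k * (a * (k⁻¹ * b * k)) * k⁻¹ := by group
      _ = k * (k⁻¹ * b * k * a) * k⁻¹ := by rw [h1]
      _ = b * (k * a * k⁻¹) := by group

theorem HLoc.conj {G : Type*} [Group G] {z : G} (h : HLoc z) (k : G) : HLoc (k * z * k⁻¹) := by
  obtain ⟨Q, h1, h2, h3, h4⟩ := h
  refine ⟨Q.map (MulAut.conj k).toMonoidHom, h1.map _, ?_, ?_, ?_⟩
  · intro q hq
    rw [commute_conj_iff]
    exact h2 _ (mem_map_conj.1 hq)
  · intro h hh q hq
    rw [commute_conj_iff] at hh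
    rw [mem_map_conj]
    have := h3 _ hh _ (mem_map_conj.1 hq)
    have e : k⁻¹ * (h * q * h⁻¹) * k = k⁻¹ * h * k * (k⁻¹ * q * k) * (k⁻¹ * h * k)⁻¹ := by group
    rw [e]; exact this
  · intro h hh hc
    rw [commute_conj_iff] at hh
    rw [mem_map_conj]
    apply h4 _ hh
    intro q hq
    have h5 := hc (k * q * k⁻¹) (by
      rw [mem_map_conj]
      have e : k⁻¹ * (k * q * k⁻¹) * k = q := by group
      rw [e]; exact hq)
    exact ((commute_conj_iff k q h).1 h5.symm).symm

theorem mul_comm_of_sq {G : Type*} [Group G] {a b : G} (ha : a * a = 1) (hb : b * b = 1)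
    (hab : (a * b) * (a * b) = 1) : a * b = b * a := by
  calc a * b = b * b * (a * b) * (a * a) := by rw [ha, hb, one_mul, mul_one]
    _ = b * (b * a) * (b * a) * a := by group
    _ = b * ((a * a) * b * a * (b * (b * b)) * a) * a := by rw [ha, hb]; group
    _ = b * (a * ((a * b) * (a * b)) * (b * b) * a) * a := by group
    _ = b * a := by rw [hab, hb, mul_one, mul_one, ha, mul_one]

def K1 : ℕ := 0x400000000800001000000002008000000040000000800800000000021000000020000000800000200000000804000000020000008001000000000202000000000400010000000010000001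
def t1 : ℕ := 0x804000000010000020000002000020000000404000000002000000020000020000100020000002000020000000100010000002000000400000020000020000000008000008800000
def qa : ℕ := 0x900000010000000020010000000040000400000100000002000010000004000040000000080002000020000000080000002000002000000400000100000040000008000008800000
def qb : ℕ := 0x1100000000010000800000002000020000400000100000800000010000004000000100020000000080000080000100010000002000000000400000100000040000005000000000004
def qc : ℕ := 0x2000800040000000800004000000040000400000000100800000010000800000040000000080000080000080000080000004000001000000400100000000042000000000002000002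
def qaS : ℕ := 0x480000008000000010008000000020000200000080000001000008000002000020000000040001000010000000040000001000001000000200000080000020000004000004400000007c600e1ab199be30b
def qbS : ℕ := 0x88000000000800040000000100001000020000008000040000000800000200000008001000000004000004000008000800000100000000020000008000002000000280000000000200c4dd92a8e0fa23c0b
def qcS : ℕ := 0x100040002000000040000200000002000020000000008040000000800040000002000000004000004000004000004000000200000080000020008000000002100000000000100000100720dd1a9cc8034bc1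

theorem K1_in : inM24 K1 = true := by decide +kernel
theorem t1_in : inM24 t1 = true := by decide +kernel
theorem qa_in : inM24 qa = true := by decide +kernel
theorem qb_in : inM24 qb = true := by decide +kernel
theorem qc_in : inM24 qc = true := by decide +kernel
theorem t1_eq : conjM K1 t0 = t1 := by decide +kernel
theorem K1_tet : applyM K1 8422401 = 8388615 := by decide +kernel
theorem qaS_eq : toS qa = qaS := by decide +kernel
theorem qbS_eq : toS qb = qbS := by decide +kernel
theorem qcS_eq : toS qc = qcS := by decide +kernel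

theorem t1_eq_conj : permOf t1 = permOf K1 * permOf t0 * (permOf K1)⁻¹ := by
  rw [← t1_eq, permOf_conjM (validM_of_inM24 K1_in) (validM_of_inM24 t0_in)]

theorem K1_S0 : permOf K1 • S0 = Sx0 := by
  have e : permOf K1 • unm 8422401 = unm 8388615 := by
    rw [← unm_msk (permOf K1 • unm 8422401), applyM_permOf (validM_of_inM24 K1_in),
      msk_unm (by norm_num), K1_tet]
  rw [S0, Sx0, smul_sextetOf (permOf_mem_M24 K1_in) m0_card, e]

theorem comm_Sx0 {c : Equiv.Perm GolayPt} (hc : c ∈ M24) (h : c * permOf t1 = permOf t1 * c) :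
    c • Sx0 = Sx0 := by
  have hK := permOf_mem_M24 K1_in
  have h1 : ((permOf K1)⁻¹ * c * permOf K1) • S0 = S0 := by
    apply comm_S0 (M24.mul_mem (M24.mul_mem (M24.inv_mem hK) hc) hK)
    rw [t1_eq_conj] at h
    calc (permOf K1)⁻¹ * c * permOf K1 * permOf t0
        = (permOf K1)⁻¹ * (c * (permOf K1 * permOf t0 * (permOf K1)⁻¹)) * permOf K1 := by group
      _ = (permOf K1)⁻¹ * ((permOf K1 * permOf t0 * (permOf K1)⁻¹) * c) * permOf K1 := by rw [h]
      _ = permOf t0 * ((permOf K1)⁻¹ * c * permOf K1) := by group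
  rw [← K1_S0]
  rw [mul_smul, mul_smul, inv_smul_eq_iff] at h1
  exact h1

theorem PhiN_of_code {q : ℕ} (hq : inM24 q = true) (h : psiN idS (toS q) = true) :
    PhiN (permOf q) := by
  rw [← codeS_one, toS_of_inM24 hq, psiN_iff, one_mul] at h
  exact h

theorem PhiN_t1 : PhiN (permOf t1) := PhiN_of_code t1_in (by decide +kernel)
theorem PhiN_qa : PhiN (permOf qa) := PhiN_of_code qa_in (by decide +kernel)
theorem PhiN_qb : PhiN (permOf qb) := PhiN_of_code qb_in (by decide +kernel)
theorem PhiN_qc : PhiN (permOf qc) := PhiN_of_code qc_in (by decide +kernel)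

/-- commuting with three elements of the normal subgroup. -/
def PhiC (h : Equiv.Perm GolayPt) : Prop :=
  h * permOf qa = permOf qa * h ∧ h * permOf qb = permOf qb * h ∧ h * permOf qc = permOf qc * h

def TC : List ℕ :=
  ((List.range 24).flatMap fun a => (List.range 24).map fun e =>
    pack5 a (imgN qa a) (imgN qb a) (imgN qc a) e).filter validB

def TCL : List ℕ := [755747, 755748, 755749, 755750, 755751, 755752, 755753, 755754, 755755, 755756, 755757, 755758, 755759, 755760, 755761, 755762, 755763, 755764, 755765, 755766, 1137667, 1137668, 1137669, 1137670, 1137671, 1137672, 1137673, 1137674, 1137675, 1137676, 1137677, 1137678, 1137679, 1137680, 1137681, 1137682, 1137683, 1137684, 1137685, 1137686, 2130659, 2130660, 2130661, 2130662, 2130663, 2130664, 2130665, 2130666, 2130667, 2130668, 2130669, 2130670, 2130671, 2130672, 2130673, 2130674, 2130675, 2130676, 2130677, 2130678, 24118339, 24118340, 24118341, 24118342, 24118343, 24118344, 24118345, 24118346, 24118347, 24118348, 24118349, 24118350,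 24118351, 24118352, 24118353, 24118354, 24118355, 24118356, 24118357, 24118358]

theorem TC_eq : TC = TCL := by decide +kernel

theorem qa_23 : permOf qa (pt 23) = pt 0 := by
  rw [permOf_apply_eq_iff (validM_of_inM24 qa_in)]; decide +kernel
theorem qb_23 : permOf qb (pt 23) = pt 1 := by
  rw [permOf_apply_eq_iff (validM_of_inM24 qb_in)]; decide +kernel
theorem qc_23 : permOf qc (pt 23) = pt 2 := by
  rw [permOf_apply_eq_iff (validM_of_inM24 qc_in)]; decide +kernel

theorem PhiC_img : ∀ g ∈ M24, PhiC g → imgU g ∈ TCL := by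
  rintro g _ ⟨ha, hb, hc⟩
  have hp : ∀ {q : Equiv.Perm GolayPt}, g * q = q * g → ∀ p, g (q p) = q (g p) := by
    intro q hq p
    have := congrArg (fun f : Equiv.Perm GolayPt => f p) hq
    simpa using this
  have e0 : enc (g (pt 0)) = imgN qa (enc (g (pt 23))) := by
    rw [← qa_23, hp ha, imgN_spec (validM_of_inM24 qa_in)]
  have e1 : enc (g (pt 1)) = imgN qb (enc (g (pt 23))) := by
    rw [← qb_23, hp hb, imgN_spec (validM_of_inM24 qb_in)]
  have e2 : enc (g (pt 2)) = imgN qc (enc (g (pt 23))) := by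
    rw [← qc_23, hp hc, imgN_spec (validM_of_inM24 qc_in)]
  rw [← TC_eq, TC, List.mem_filter]
  refine ⟨?_, (validB_iff _).2 (validU_imgU g)⟩
  simp only [List.mem_flatMap, List.mem_map, List.mem_range]
  refine ⟨enc (g (pt 23)), enc_lt _, enc (g (pt 3)), enc_lt _, ?_⟩
  rw [imgU, e0, e1, e2]

def psiC (A s : ℕ) : Bool := intertw qaS qaS A s && (intertw qbS qbS A s && intertw qcS qcS A s)

theorem psiC_iff (a s : Equiv.Perm GolayPt) : psiC (codeS a) (codeS s) = true ↔ PhiC (a * s) := by
  rw [psiC, ← qaS_eq, ← qbS_eq, ← qcS_eq, toS_of_inM24 qa_in, toS_of_inM24 qb_in,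
    toS_of_inM24 qc_in, Bool.and_eq_true, Bool.and_eq_true, intertw_iff, intertw_iff, intertw_iff,
    PhiC]

theorem fail_psiC : fail2 (fun A s => !psiC A s || psiN A s) TCL = 0 := by decide +kernel

theorem PhiC_PhiN : ∀ g ∈ M24, PhiC g → PhiN g := by
  apply forall_by_enum2 PhiC PhiN TCL PhiC_img _ _ fail_psiC
  intro a _ s _ hΦ h
  rw [Bool.or_eq_true, (psiC_iff a s).2 hΦ] at h
  rcases h with h | h
  · exact absurd h (by simp)
  · exact (psiN_iff a s).1 h

theorem PhiN_sq {g : Equiv.Perm GolayPt} (hg : g ∈ M24) (h : PhiN g) : g * g = 1 :=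
  (PhiK_sq g hg h.1).2 h.2

/-- the normal subgroup of order 64 of the stabiliser of the base sextet. -/
def QN : Subgroup M24 where
  carrier := {g | PhiN (g : Equiv.Perm GolayPt)}
  mul_mem' := by
    rintro a b ⟨a1, a2, a3⟩ ⟨b1, b2, b3⟩
    refine ⟨?_, ?_, ?_⟩
    · intro t ht
      show ((a : Equiv.Perm GolayPt) * b) • t = t
      rw [mul_smul, b1 t ht, a1 t ht]
    · show ((a : Equiv.Perm GolayPt) * b) • famOf F1 = famOf F1
      rw [mul_smul, b2, a2]
    · show ((a : Equiv.Perm GolayPt) * b) • famOf F2 = famOf F2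
      rw [mul_smul, b3, a3]
  one_mem' := ⟨fun t _ => one_smul _ t, one_smul _ _, one_smul _ _⟩
  inv_mem' := by
    rintro a ⟨a1, a2, a3⟩
    refine ⟨?_, ?_, ?_⟩
    · intro t ht
      show (a : Equiv.Perm GolayPt)⁻¹ • t = t
      rw [inv_smul_eq_iff, a1 t ht]
    · show (a : Equiv.Perm GolayPt)⁻¹ • famOf F1 = famOf F1
      rw [inv_smul_eq_iff, a2]
    · show (a : Equiv.Perm GolayPt)⁻¹ • famOf F2 = famOf F2
      rw [inv_smul_eq_iff, a3]

theorem mem_QN {g : M24} : g ∈ QN ↔ PhiN (g : Equiv.Perm GolayPt) := Iff.rfl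

theorem QN_sq {g : M24} (h : g ∈ QN) : g * g = 1 := Subtype.ext (PhiN_sq g.2 h)

theorem hloc_t1 : HLoc (⟨permOf t1, permOf_mem_M24 t1_in⟩ : M24) := by
  set z : M24 := ⟨permOf t1, permOf_mem_M24 t1_in⟩ with hz
  have hzQ : z ∈ QN := PhiN_t1
  refine ⟨QN, ?_, ?_, ?_, ?_⟩
  · intro t
    refine ⟨1, ?_⟩
    apply Subtype.ext
    rw [pow_one, pow_two]
    exact QN_sq t.2
  · intro q hq
    exact mul_comm_of_sq (QN_sq hzQ) (QN_sq hq) (QN_sq (QN.mul_mem hzQ hq))
  · intro h hzh q hq
    have h1 : (h : Equiv.Perm GolayPt) • Sx0 = Sx0 :=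
      comm_Sx0 h.2 (congrArg Subtype.val hzh.eq).symm
    have h2 : (h : Equiv.Perm GolayPt)⁻¹ • Sx0 = Sx0 := by rw [inv_smul_eq_iff, h1]
    have hK : PhiK ((h * q * h⁻¹ : M24) : Equiv.Perm GolayPt) := by
      intro t ht
      have h3 : (h : Equiv.Perm GolayPt)⁻¹ • t ∈ Sx0 := by
        rw [← h2]; exact Finset.smul_mem_smul_finset ht
      show ((h : Equiv.Perm GolayPt) * q * (h : Equiv.Perm GolayPt)⁻¹) • t = t
      rw [mul_smul, mul_smul, hq.1 _ h3, smul_inv_smul]
    have hs : (h * q * h⁻¹) * (h * q * h⁻¹) = 1 := by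
      calc (h * q * h⁻¹) * (h * q * h⁻¹) = h * (q * q) * h⁻¹ := by group
        _ = 1 := by rw [QN_sq hq]; group
    exact ⟨hK, (PhiK_sq _ (h * q * h⁻¹ : M24).2 hK).1 (congrArg Subtype.val hs)⟩
  · intro h _ hc
    apply PhiC_PhiN _ h.2
    refine ⟨?_, ?_, ?_⟩
    · exact congrArg Subtype.val
        (hc ⟨permOf qa, permOf_mem_M24 qa_in⟩ PhiN_qa).eq
    · exact congrArg Subtype.val
        (hc ⟨permOf qb, permOf_mem_M24 qb_in⟩ PhiN_qb).eq
    · exact congrArg Subtype.val
        (hc ⟨permOf qc, permOf_mem_M24 qc_in⟩ PhiN_qc).eq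

/-- the local hypothesis for the fixed-point-free involutions. -/
theorem hloc_2B (z : M24) (hz : orderOf z = 2) (h0 : ∀ p, (z : Equiv.Perm GolayPt) p ≠ p) :
    HLoc z := by
  have hz' : orderOf (z : Equiv.Perm GolayPt) = 2 := by rw [Subgroup.orderOf_coe]; exact hz
  obtain ⟨k, hk, e⟩ := conj_to_t0 z.2 hz' h0
  set κ : M24 := ⟨permOf K1 * k, M24.mul_mem (permOf_mem_M24 K1_in) hk⟩ with hκ
  have h1 := hloc_t1.conj κ⁻¹
  have e2 : κ⁻¹ * (⟨permOf t1, permOf_mem_M24 t1_in⟩ : M24) * κ⁻¹⁻¹ = z := by
    apply Subtype.ext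
    show (permOf K1 * k)⁻¹ * permOf t1 * (permOf K1 * k)⁻¹⁻¹ = z
    rw [t1_eq_conj, ← e]
    group
  rw [e2] at h1
  exact h1

end Cfsg.Agent.Lib.Helper94
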