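import Cfsg.Agent.Lib.Helper94.BlockOne

/-!
# Excluding characters of 2-defect zero by counting
-/

set_option autoImplicit false
open Cfsg
open Cfsg.Agent.Lib.Helper81

namespace Cfsg.Agent.Lib.Helper94

variable {M : Ideal AlgInt} {G : Type*} [Group G] [Fintype G]

theorem memLocalIdeal_two_mul (hM : IsPModular 2 M) {z : ℂ} (hz : MemLocalRing M z) :
    MemLocalIdeal M (2 * z) := by
  have h2 : MemLocalIdeal M ((2 : ℕ) : ℂ) := memLocalIdeal_p hM
  exact memLocalIdeal_mul_right hM (by simpa using h2) hz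

theorem memLocalIdeal_even_mul (hM : IsPModular 2 M) {z : ℂ} (hz : MemLocalRing M z) {n : ℕ}
    (hn : n % 2 = 0) : MemLocalIdeal M ((n : ℂ) * z) :=
  memLocalIdeal_mul_right hM ((memLocalIdeal_natCast_iff hM n).2 (Nat.dvd_of_mod_eq_zero hn)) hz

theorem memLocalIdeal_odd_mul_sub (hM : IsPModular 2 M) {z : ℂ} (hz : MemLocalRing M z) {n : ℕ}
    (hn : n % 2 = 1) : MemLocalIdeal M ((n : ℂ) * z - z) := by
  obtain ⟨k, rfl⟩ : ∃ k, n = k + 1 := ⟨n - 1, by omega⟩
  have : ((k + 1 : ℕ) : ℂ) * z - z = (k : ℂ) * z := by push_cast; ring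
  rw [this]
  exact memLocalIdeal_even_mul hM hz (by omega)

/-- it is enough to treat functions which are symmetric modulo the ideal. -/
theorem dz_all_of_symm (hM : IsPModular 2 M)
    (hsym : ∀ f : G → ℂ, DZ M f → (∀ g, MemLocalIdeal M (f g⁻¹ - f g)) →
      ∀ g, MemLocalIdeal M (f g)) :
    ∀ f : G → ℂ, DZ M f → ∀ g, MemLocalIdeal M (f g) := by
  intro f hf
  have hc : DZ M (fun g => f g + f g⁻¹) := by
    refine ⟨?_, ?_, ?_, ?_⟩
    · intro g k
      have e : (k * g * k⁻¹)⁻¹ = k * g⁻¹ * k⁻¹ := by group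
      simp only [e, hf.conj]
    · intro g
      exact memLocalRing_add hM (hf.loc g) (hf.loc g⁻¹)
    · intro g z hz hzg
      exact memLocalIdeal_add hM (hf.inv g z hz hzg) (hf.inv g⁻¹ z hz hzg.inv_right)
    · intro w hw hw2 x
      simp only [mul_add, Finset.sum_add_distrib]
      rw [hf.sum w hw hw2 x, zero_add]
      have h1 := hf.sum (fun t => w t⁻¹) (by
        intro t k
        have e : (k * t * k⁻¹)⁻¹ = k * t⁻¹ * k⁻¹ := by group
        simp only [e, hw]) (by
        intro t ht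
        rw [← orderOf_inv]
        exact hw2 _ ht) x⁻¹
      rw [← Equiv.sum_comp (Equiv.inv G)] at h1
      rw [← h1]
      apply Finset.sum_congr rfl
      intro t _
      simp only [Equiv.inv_apply, inv_inv]
      congr 1
      have e : x⁻¹ * t⁻¹ = x⁻¹ * (x * t)⁻¹ * x⁻¹⁻¹ := by group
      rw [e, hf.conj]
  have h1 := hsym _ hc (by
    intro g
    simp only [inv_inv]
    rw [add_comm, sub_self]
    exact memLocalIdeal_zero hM)
  apply hsym f hf
  intro g
  have e : f g⁻¹ - f g = (f g + f g⁻¹) - 2 * f g := by ring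
  rw [e]
  exact memLocalIdeal_sub hM (h1 g) (memLocalIdeal_two_mul hM (hf.loc g))

/-- the classification of the elements needed for the count. -/
structure CLData (long small : List ℕ) (X : ℕ → G) : Prop where
  cl : ∀ g : G, ((∃ z : G, orderOf z = 2 ∧ Commute z g) ∧ ∀ l ∈ long, ¬ l ∣ orderOf g) ∨
    ∃ L ∈ long, orderOf g = L ∧ ((∃ k, k * g * k⁻¹ = X L) ∨ ∃ k, k * g * k⁻¹ = (X L)⁻¹)
  ar1 : ∀ l ∈ long, ∀ L ∈ long, l ∣ L → l = L
  ar2 : ∀ L ∈ long, ¬ 2 ∣ L
  ar3 : ∀ L ∈ long, ∀ n ∈ small, ¬ L ∣ n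

theorem sum_types (hM : IsPModular 2 M) (a : ℕ → ℂ) (ha : ∀ t, MemLocalRing M (a t)) (T : List ℕ)
    (K : ℕ) (hpar : ∀ t ∈ T, MemLocalIdeal M (a t) ∨ T.count t % 2 = if t = K then 1 else 0)
    (hK : T.count K % 2 = 1) : MemLocalIdeal M ((T.map a).sum - a K) := by
  classical
  rw [Finset.sum_list_map_count]
  have hKT : K ∈ T.toFinset := by
    rw [List.mem_toFinset]
    by_contra h
    rw [List.count_eq_zero_of_not_mem h] at hK
    omega
  have e : a K = ∑ m ∈ T.toFinset, if m = K then a K else 0 := by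
    rw [Finset.sum_ite_eq' T.toFinset K (fun _ => a K), if_pos hKT]
  rw [e, ← Finset.sum_sub_distrib]
  apply memLocalIdeal_sum hM
  intro m hm
  rw [List.mem_toFinset] at hm
  rw [nsmul_eq_mul]
  by_cases hmK : m = K
  · subst hmK
    rw [if_pos rfl]
    exact memLocalIdeal_odd_mul_sub hM (ha m) hK
  · rw [if_neg hmK, sub_zero]
    rcases hpar m hm with h | h
    · exact memLocalIdeal_mul_left hM (memLocalRing_natCast hM _) h
    · rw [if_neg hmK] at h
      exact memLocalIdeal_even_mul hM (ha m) h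

theorem sum_map_sub (hM : IsPModular 2 M) {α : Type*} (f g : α → ℂ) (E : List α)
    (h : ∀ e ∈ E, MemLocalIdeal M (f e - g e)) :
    MemLocalIdeal M ((E.map f).sum - (E.map g).sum) := by
  induction E with
  | nil => simpa using memLocalIdeal_zero hM
  | cons x E ih =>
    rw [List.map_cons, List.map_cons, List.sum_cons, List.sum_cons]
    have e : f x + (E.map f).sum - (g x + (E.map g).sum) =
      (f x - g x) + ((E.map f).sum - (E.map g).sum) := by ring
    rw [e]
    exact memLocalIdeal_add hM (h x (by simp)) (ih fun e he => h e (by simp [he]))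

/-- exclusion of defect zero from tables of orders. -/
theorem dz_all_of_tables (hM : IsPModular 2 M) (long small : List ℕ) (X : ℕ → G)
    (D : CLData long small X) (τ : G → ℕ)
    (hτ : ∀ e, (τ e ∈ long ∧ τ e ∣ orderOf e) ∨
      (τ e = 0 ∧ (2 ∣ orderOf e ∨ ∃ n ∈ small, e ^ n = 1)) ∨ τ e = 99)
    (tab : ∀ K ∈ long, ∃ E : List G, (∀ f : G → ℂ, DZ M f → (E.map f).sum = 0) ∧
      (E.map τ).count 99 = 0 ∧ ∀ L ∈ long, (E.map τ).count L % 2 = if L = K then 1 else 0) :
    ∀ f : G → ℂ, DZ M f → ∀ g, MemLocalIdeal M (f g) := by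
  classical
  apply dz_all_of_symm hM
  intro f hf hs
  have h0 : (0 : ℕ) ∉ long := fun h => D.ar2 0 h (dvd_zero 2)
  set a : ℕ → ℂ := fun t => if t ∈ long then f (X t) else 0 with ha
  have haR : ∀ t, MemLocalRing M (a t) := by
    intro t
    simp only [ha]
    split_ifs
    · exact hf.loc _
    · exact memLocalRing_zero hM
  have hrep : ∀ g L, L ∈ long → ((∃ k, k * g * k⁻¹ = X L) ∨ ∃ k, k * g * k⁻¹ = (X L)⁻¹) →
      MemLocalIdeal M (f g - f (X L)) := by
    intro g L _ h
    rcases h with ⟨k, hk⟩ | ⟨k, hk⟩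
    · rw [← hk, hf.conj, sub_self]
      exact memLocalIdeal_zero hM
    · rw [← hf.conj g k, hk]
      exact hs _
  have hev : ∀ e, τ e ≠ 99 → MemLocalIdeal M (f e - a (τ e)) := by
    intro e he
    rcases hτ e with ⟨h1, h2⟩ | ⟨h1, h2⟩ | h1
    · simp only [ha]
      rw [if_pos h1]
      rcases D.cl e with ⟨_, h3⟩ | ⟨L, hL, h3, h4⟩
      · exact absurd h2 (h3 _ h1)
      · have : τ e = L := D.ar1 _ h1 L hL (h3 ▸ h2)
        rw [this]
        exact hrep e L hL h4
    · simp only [ha]
      rw [h1, if_neg h0, sub_zero]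
      rcases D.cl e with ⟨⟨z, hz, hze⟩, _⟩ | ⟨L, hL, h3, _⟩
      · exact hf.inv e z hz hze
      · exfalso
        rcases h2 with h2 | ⟨n, hn, h2⟩
        · exact D.ar2 L hL (h3 ▸ h2)
        · exact D.ar3 L hL n hn (h3 ▸ orderOf_dvd_of_pow_eq_one h2)
    · exact absurd h1 he
  have hK : ∀ K ∈ long, MemLocalIdeal M (f (X K)) := by
    intro K hKl
    obtain ⟨E, hE, h99, hpar⟩ := tab K hKl
    have h1 : MemLocalIdeal M ((E.map f).sum - (E.map fun e => a (τ e)).sum) := by
      apply sum_map_sub hM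
      intro e he
      apply hev
      intro h
      have : 99 ∈ E.map τ := List.mem_map.2 ⟨e, he, h⟩
      rw [List.count_eq_zero] at h99
      exact h99 this
    have h2 : MemLocalIdeal M (((E.map τ).map a).sum - a K) := by
      apply sum_types hM a haR
      · intro t _
        by_cases ht : t ∈ long
        · right; exact hpar t ht
        · left
          simp only [ha]
          rw [if_neg ht]
          exact memLocalIdeal_zero hM
      · rw [hpar K hKl, if_pos rfl]
    rw [hE f hf, zero_sub] at h1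
    rw [List.map_map] at h2
    have h3 := memLocalIdeal_add hM h1 h2
    have e : -(E.map fun e => a (τ e)).sum + ((E.map (a ∘ τ)).sum - a K) = - a K := by
      have : (fun e => a (τ e)) = a ∘ τ := rfl
      rw [this]; ring
    rw [e] at h3
    have h4 := memLocalIdeal_neg h3
    rw [neg_neg] at h4
    simpa only [ha, if_pos hKl] using h4
  intro g
  rcases D.cl g with ⟨⟨z, hz, hzg⟩, _⟩ | ⟨L, hL, _, h4⟩
  · exact hf.inv g z hz hzg
  · have := memLocalIdeal_add hM (hrep g L hL h4) (hK L hL)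
    simpa using this

end Cfsg.Agent.Lib.Helper94
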