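import Cfsg.Agent.Lib.Helper94.BlockSum
import Cfsg.Agent.Lib.Helper94.Fam

/-!
# The centraliser of an involution fixing an octad pointwise is 2-constrained
-/

set_option autoImplicit false
open Cfsg
open scoped Pointwise

namespace Cfsg.Agent.Lib.Helper94

/-- additional data for the local analysis. -/
structure LocData (S : Subgroup (Equiv.Perm GolayPt)) (O₀ : Finset GolayPt)
    (kL QL : List (Equiv.Perm GolayPt)) : Prop extends SumData S O₀ kL QL where
  le : S ≤ M24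
  oct : O₀ ∈ octads
  fix_exact : ∀ q ∈ QL, ∀ p, q p = p → p ∈ O₀
  reg : ∃ p₀, p₀ ∉ O₀ ∧ ∀ p, p ∉ O₀ → p = p₀ ∨ ∃ q ∈ QL, q p₀ = p
  two : ∃ o ∈ octads, (o ∩ O₀).card = 2

variable {S : Subgroup (Equiv.Perm GolayPt)} {O₀ : Finset GolayPt}
  {kL QL : List (Equiv.Perm GolayPt)}

theorem LocData.sq (D : LocData S O₀ kL QL) {t : Equiv.Perm GolayPt} (ht : t ∈ S)
    (h : ∀ p ∈ O₀, t p = p) : t * t = 1 := by
  by_cases h1 : t = 1
  · rw [h1, one_mul]
  · have h2 := D.q_two t ((D.q_iff t ht).1 ⟨h1, h⟩)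
    rw [← pow_two, ← h2, pow_orderOf_eq_one]

theorem LocData.comm (D : LocData S O₀ kL QL) {t u : Equiv.Perm GolayPt} (ht : t ∈ S) (hu : u ∈ S)
    (h : ∀ p ∈ O₀, t p = p) (h' : ∀ p ∈ O₀, u p = p) : t * u = u * t := by
  have h1 := D.sq ht h
  have h2 := D.sq hu h'
  have h3 := D.sq (S.mul_mem ht hu) (fun p hp => by
    rw [Equiv.Perm.mul_apply, h' p hp, h p hp])
  calc t * u = u * u * (t * u) * (t * t) := by rw [h1, h2, one_mul, mul_one]
    _ = u * (u * t) * (u * t) * t := by group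
    _ = u * ((t * t) * u * t * (u * (u * u)) * t) * t := by rw [h1, h2]; group
    _ = u * (t * ((t * u) * (t * u)) * (u * u) * t) * t := by group
    _ = u * t := by rw [h3, h2, mul_one, mul_one, h1, mul_one]

/-- an element commuting with all the involutions fixing the octad pointwise fixes it pointwise. -/
theorem LocData.self_cent (D : LocData S O₀ kL QL) {h : Equiv.Perm GolayPt} (hh : h ∈ S)
    (hne : QL ≠ []) (hc : ∀ q ∈ QL, h * q = q * h) : ∀ p ∈ O₀, h p = p := by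
  classical
  obtain ⟨q₁, hq₁⟩ := List.exists_mem_of_ne_nil QL hne
  have hQfix : ∀ q ∈ QL, ∀ p ∈ O₀, q p = p := fun q hq => ((D.q_iff q (D.q_mem q hq)).2 hq).2
  have hcp : ∀ q ∈ QL, ∀ p, h (q p) = q (h p) := by
    intro q hq p
    have := congrArg (fun f : Equiv.Perm GolayPt => f p) (hc q hq)
    simpa [Equiv.Perm.mul_apply] using this
  -- h preserves the octad
  have hO : ∀ p ∈ O₀, h p ∈ O₀ := by
    intro p hp
    apply D.fix_exact q₁ hq₁
    rw [← hcp q₁ hq₁, hQfix q₁ hq₁ p hp]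
  have hOs : h • O₀ = O₀ := (smul_eq_iff_forall h O₀).2 hO
  have hO' : ∀ p, p ∉ O₀ → h p ∉ O₀ := by
    intro p hp hp'
    apply hp
    rw [← hOs] at hp'
    obtain ⟨y, hy, e⟩ := Finset.mem_smul_finset.1 hp'
    have : y = p := h.injective e
    rw [← this]; exact hy
  obtain ⟨p₀, hp₀, hreg⟩ := D.reg
  -- correct h by an element of the group
  obtain ⟨u, hu, hufix, hucomm, hup⟩ : ∃ u ∈ S, (∀ p ∈ O₀, u p = p) ∧
      (∀ q ∈ QL, u * q = q * u) ∧ u p₀ = h p₀ := by
    rcases hreg (h p₀) (hO' p₀ hp₀) with e | ⟨q, hq, e⟩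
    · exact ⟨1, S.one_mem, fun _ _ => rfl, fun q _ => by rw [one_mul, mul_one], e.symm⟩
    · exact ⟨q, D.q_mem q hq, hQfix q hq,
        fun q' hq' => D.comm (D.q_mem q hq) (D.q_mem q' hq') (hQfix q hq) (hQfix q' hq'), e⟩
  have hucp : ∀ q ∈ QL, ∀ p, u (q p) = q (u p) := by
    intro q hq p
    have := congrArg (fun f : Equiv.Perm GolayPt => f p) (hucomm q hq)
    simpa [Equiv.Perm.mul_apply] using this
  have hout : ∀ p, p ∉ O₀ → h p = u p := by
    intro p hp
    rcases hreg p hp with e | ⟨q, hq, e⟩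
    · rw [e, hup]
    · rw [← e, hcp q hq, hucp q hq, hup]
  have h1 : u⁻¹ * h = 1 := by
    obtain ⟨o, ho, h2⟩ := D.two
    apply eq_one_of_fix_sdiff ho D.oct h2 (D.le (S.mul_mem (S.inv_mem hu) hh))
    · rw [mul_smul, hOs, inv_smul_eq_iff]
      exact ((smul_eq_iff_forall u O₀).2 fun p hp => by
        show u p ∈ O₀
        rw [hufix p hp]; exact hp).symm
    · intro p hp
      rw [Finset.mem_sdiff] at hp
      rw [Equiv.Perm.mul_apply, hout p hp.2]
      simp
  have h2 : h = u := by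
    have := congrArg (fun f => u * f) h1
    simpa using this
  rw [h2]
  exact hufix

/-- the pointwise stabiliser of a set. -/
def ptStab (S : Subgroup (Equiv.Perm GolayPt)) (O : Finset GolayPt) : Subgroup S where
  carrier := {t | ∀ p ∈ O, (t : Equiv.Perm GolayPt) p = p}
  mul_mem' := by
    intro a b ha hb p hp
    show (a : Equiv.Perm GolayPt) ((b : Equiv.Perm GolayPt) p) = p
    rw [hb p hp, ha p hp]
  one_mem' := fun _ _ => rfl
  inv_mem' := by
    intro a ha p hp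
    show (a : Equiv.Perm GolayPt)⁻¹ p = p
    rw [Equiv.Perm.inv_eq_iff_eq, ha p hp]

theorem mem_ptStab {O : Finset GolayPt} {t : S} :
    t ∈ ptStab S O ↔ ∀ p ∈ O, (t : Equiv.Perm GolayPt) p = p := Iff.rfl

theorem fix_conj_iff' (k t : Equiv.Perm GolayPt) (O : Finset GolayPt) :
    (∀ p ∈ O, (k⁻¹ * t * k) p = p) ↔ ∀ p ∈ k • O, t p = p := by
  rw [← fix_conj_iff k (k⁻¹ * t * k) O]
  have : k * (k⁻¹ * t * k) * k⁻¹ = t := by group
  rw [this]

/-- the local hypothesis for an involution fixing pointwise a member of the family. -/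
theorem LocData.hloc (D : LocData S O₀ kL QL) (z : S) (hz : orderOf z = 2)
    {k : Equiv.Perm GolayPt} (hk : k ∈ kL) (hfix : ∀ p ∈ k • O₀, (z : Equiv.Perm GolayPt) p = p) :
    ∃ Q : Subgroup S, IsPGroup 2 Q ∧ (∀ q ∈ Q, Commute z q) ∧
      (∀ h, Commute z h → ∀ q ∈ Q, h * q * h⁻¹ ∈ Q) ∧
      (∀ h, Commute z h → (∀ q ∈ Q, Commute h q) → h ∈ Q) := by
  have hkS := D.k_mem k hk
  have hcj : ∀ t : S, k⁻¹ * (t : Equiv.Perm GolayPt) * k ∈ S := fun t =>
    S.mul_mem (S.mul_mem (S.inv_mem hkS) t.2) hkS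
  have hz1 : (z : Equiv.Perm GolayPt) ≠ 1 := by
    intro h
    have : z = 1 := Subtype.ext h
    rw [this, orderOf_one] at hz
    omega
  have hsq : ∀ t ∈ ptStab S (k • O₀), t * t = 1 := by
    intro t ht
    have h1 := D.sq (hcj t) ((fix_conj_iff' k t O₀).2 ht)
    apply Subtype.ext
    show (t : Equiv.Perm GolayPt) * t = 1
    have e : (t : Equiv.Perm GolayPt) * t = k * ((k⁻¹ * t * k) * (k⁻¹ * t * k)) * k⁻¹ := by group
    rw [e, h1]; group
  have hzQ : z ∈ ptStab S (k • O₀) := hfix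
  have hz'QL : k⁻¹ * (z : Equiv.Perm GolayPt) * k ∈ QL := by
    rw [← D.q_iff _ (hcj z)]
    refine ⟨?_, (fix_conj_iff' k z O₀).2 hfix⟩
    intro h
    apply hz1
    have e : (z : Equiv.Perm GolayPt) = k * (k⁻¹ * z * k) * k⁻¹ := by group
    rw [e, h]; group
  have hexact : ∀ p, (z : Equiv.Perm GolayPt) p = p → p ∈ k • O₀ := by
    intro p hp
    have h1 := D.fix_exact _ hz'QL (k⁻¹ p) (by
      simp only [Equiv.Perm.mul_apply, Equiv.Perm.inv_def, Equiv.apply_symm_apply]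
      rw [hp])
    rw [← Finset.inv_smul_mem_iff]
    exact h1
  refine ⟨ptStab S (k • O₀), ?_, ?_, ?_, ?_⟩
  · intro t
    refine ⟨1, ?_⟩
    apply Subtype.ext
    rw [pow_one, pow_two]
    exact hsq t t.2
  · intro q hq
    have h1 := hsq z hzQ
    have h2 := hsq q hq
    have h3 := hsq (z * q) ((ptStab S (k • O₀)).mul_mem hzQ hq)
    show z * q = q * z
    calc z * q = q * q * (z * q) * (z * z) := by rw [h1, h2, one_mul, mul_one]
      _ = q * (q * z) * (q * z) * z := by group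
      _ = q * ((z * z) * q * z * (q * (q * q)) * z) * z := by rw [h1, h2]; group
      _ = q * (z * ((z * q) * (z * q)) * (q * q) * z) * z := by group
      _ = q * z := by rw [h3, h2, mul_one, mul_one, h1, mul_one]
  · intro h hzh q hq p hp
    have hzh' : ∀ y, (z : Equiv.Perm GolayPt) ((h : Equiv.Perm GolayPt)⁻¹ y) =
        (h : Equiv.Perm GolayPt)⁻¹ ((z : Equiv.Perm GolayPt) y) := by
      intro y
      have h1 : z * h⁻¹ = h⁻¹ * z := hzh.inv_right.eq
      have h2 := congrArg (fun f : S => (f : Equiv.Perm GolayPt) y) h1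
      simpa [Equiv.Perm.mul_apply] using h2
    have h1 : (h : Equiv.Perm GolayPt)⁻¹ p ∈ k • O₀ := by
      apply hexact
      rw [hzh', hfix p hp]
    show ((h * q * h⁻¹ : S) : Equiv.Perm GolayPt) p = p
    simp only [Subgroup.coe_mul, Subgroup.coe_inv, Equiv.Perm.mul_apply]
    rw [hq _ h1]
    simp
  · intro h _ hc
    rw [mem_ptStab, ← fix_conj_iff' k h O₀]
    apply D.self_cent (hcj h) (List.ne_nil_of_mem hz'QL)
    intro q hq
    have hqS := D.q_mem q hq
    set q' : S := ⟨k * q * k⁻¹, S.mul_mem (S.mul_mem hkS hqS) (S.inv_mem hkS)⟩ with hq'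
    have hq'Q : q' ∈ ptStab S (k • O₀) := by
      rw [mem_ptStab]
      exact (fix_conj_iff k q O₀).2 ((D.q_iff q hqS).2 hq).2
    have h1 : h * q' = q' * h := (hc q' hq'Q).eq
    have h2 : (h : Equiv.Perm GolayPt) * (k * q * k⁻¹) = (k * q * k⁻¹) * h :=
      congrArg Subtype.val h1
    calc k⁻¹ * (h : Equiv.Perm GolayPt) * k * q = k⁻¹ * (h * (k * q * k⁻¹)) * k := by group
      _ = k⁻¹ * ((k * q * k⁻¹) * h) * k := by rw [h2]
      _ = q * (k⁻¹ * h * k) := by group

end Cfsg.Agent.Lib.Helper94
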