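import Cfsg.Agent.Lib.Helper94.BlockLoc
import Cfsg.Agent.Lib.Helper94.BlockCL
import Cfsg.Agent.Lib.Helper94.GolayClassFacts

/-!
# The involutions fixing the base octad pointwise
-/

set_option autoImplicit false
open Cfsg
open scoped Pointwise

namespace Cfsg.Agent.Lib.Helper94

/-- codes of the involutions fixing the base octad pointwise. -/
def QC : List ℕ := [0x400000000020002000000010000100000200000400002000000200000010000100000000200000200000200000200010000020000000000400000400000400000040000010000004000001, 0x400000000010000400004000000800004000000400000800000000800010000400000000400000100000400000100000800000000810000000000400000800000040000010000004000001, 0x400000010000000040000004000020010000000400000010000000400010000001000010000001000020000040000000001000400004000000000400001000000040000010000004000001, 0x400000000100000020001000002000002000000400001000000010000010000010000000040000040100000000002020000000040000040000000400002000000040000010000004000001, 0x400000000080008000000200000008008000000400000080000080000010000200000000080000020000004080000008000000080000020000000400004000000040000010000004000001, 0x400000000400001000008000008000000400000400000400001000000010000000200400000000008000010000010000200000010000010000000400008000000040000010000004000001,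 0x400000000200020000020000000400000080000400000001000400000010000080000000010200000000020000008001000000020000008000000400010000000040000010000004000001, 0x400000004000000010000040000002000040000400004000000001000010000000020040000000080040000001000000080010000002000000000400020000000040000010000004000001, 0x400000040000000100040000000080000001000400000004000000080010000000400080000100000004000000400000008000008001000000000400080000000040000010000004000001, 0x400000000800000008000020000004000020000400000000100002000010000800000000100020000002000020000000100004000008000000000400100000000040000010000004000001, 0x400000000040000080000008000010000000400400000008000000200010000002000002000008000080000010000040000008000000200000000400400000000040000010000004000001, 0x400000080000080000000080000000800008000400000000800008000010000000080008000080000000040008000000040000800000080000000400800000000040000010000004000001, 0x400000002000000200000001000040000002000400000002002000000010000000800200000040000000800002000000004002000000004000000401000000000040000010000004000001, 0x400000020000000002000100020000000010000400000000400004000010000000100100000004000010000000020000020000100000400000000402000000000040000010000004000001,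 0x400000000004010000000800010000000004000400000020000800000010000020000000800000800000080000080004000000002000002000000404000000000040000010000004000001]

theorem QC_ok : allL (fun q => inM24 q && (Nat.beq (mulM q q) idM && (!Nat.beq q idM &&
    Nat.beq (fixMask q) 8536111))) QC = true := by decide +kernel

theorem QC_nodup : QC.Nodup := by decide +kernel

theorem QC_stab : allL (fun s => !(Nat.beq (applyM s 32) 32 && (Nat.beq (applyM s 16384) 16384 &&
    Nat.beq (applyM s 131072) 131072)) || (Nat.beq s idM || memL s QC)) stab5L = true := by
  decide +kernel

theorem QC_reg : all24 (fun i => Nat.testBit 8536111 i || (Nat.beq i 4 ||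
    anyL (fun q => Nat.beq (applyM q 16) (Nat.pow 2 i)) QC)) = true := by decide +kernel

theorem QC_spec {q : ℕ} (hq : q ∈ QC) : inM24 q = true ∧ orderOf (permOf q) = 2 ∧
    ∀ p, permOf q p = p ↔ p ∈ unm 8536111 := by
  have h := (allL_iff _ _).1 QC_ok q hq
  simp only [Bool.and_eq_true, Bool.not_eq_true'] at h
  obtain ⟨h1, h2, h3, h4⟩ := h
  refine ⟨h1, orderOf_permOf_two (validM_of_inM24 h1) h2 h3, ?_⟩
  intro p
  have h5 := fixed_eq (permOf q)
  rw [code_permOf (validM_of_inM24 h1), Nat.eq_of_beq_eq_true h4] at h5
  rw [← h5]
  simp

theorem mem_QC_of {t : Equiv.Perm GolayPt} (ht : t ∈ M24) (h1 : t ≠ 1)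
    (hf : ∀ p ∈ unm 8536111, t p = p) : t ∈ QC.map permOf := by
  have hm : ∀ i, i < 24 → Nat.testBit 8536111 i = true → t (pt i) = pt i := by
    intro i hi hb
    apply hf
    rw [mem_unm, enc_pt hi]; exact hb
  have hfix : t ∈ fixG [3, 2, 1, 0, 23] := by
    rw [mem_fixG]
    refine ⟨ht, ?_⟩
    intro i hi
    simp only [List.mem_cons, List.not_mem_nil, or_false] at hi
    rcases hi with rfl | rfl | rfl | rfl | rfl <;> exact hm _ (by norm_num) (by decide)
  have h := (allL_iff _ _).1 QC_stab _ (code_mem_stab5L hfix)
  have e : ∀ i, i < 24 → Nat.testBit 8536111 i = true → applyM (code t) (2 ^ i) = 2 ^ i := by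
    intro i hi hb
    have := applyM_code_pt t (pt i)
    rw [enc_pt hi, hm i hi hb, enc_pt hi] at this
    exact this
  have e5 := e 5 (by norm_num) (by decide)
  have e14 := e 14 (by norm_num) (by decide)
  have e17 := e 17 (by norm_num) (by decide)
  norm_num at e5 e14 e17
  rw [e5, e14, e17] at h
  simp only [Nat.beq_refl, Bool.and_self, Bool.not_true, Bool.false_or, Bool.or_eq_true] at h
  rcases h with h | h
  · exfalso
    apply h1
    rw [← permOf_code t, Nat.eq_of_beq_eq_true h, permOf_idM]
  · rw [memL_iff] at h
    exact List.mem_map.2 ⟨_, h, permOf_code t⟩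

theorem smul_base {m : ℕ} (hm : validM m = true) :
    permOf m • unm 8536111 = unm (applyM m 8536111) := by
  rw [← unm_msk (permOf m • unm 8536111), applyM_permOf hm, msk_unm (by norm_num)]

/-- construction of the local data. -/
theorem locData_of (S : Subgroup (Equiv.Perm GolayPt)) (hle : S ≤ M24) (kC OL : List ℕ)
    (hQ : ∀ q ∈ QC, permOf q ∈ S) (hk : ∀ m ∈ kC, inM24 m = true ∧ permOf m ∈ S)
    (hOL : kC.map (fun m => applyM m 8536111) = OL) (hnd : OL.Nodup) (hlt : ∀ m ∈ OL, m < 2 ^ 24)
    (hinv : ∀ g ∈ S, ∀ m ∈ OL, msk (g • unm m) ∈ OL) :
    LocData S (unm 8536111) (kC.map permOf) (QC.map permOf) where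
  k_mem := by
    intro k hk'
    obtain ⟨m, hm, rfl⟩ := List.mem_map.1 hk'
    exact (hk m hm).2
  k_nodup := by
    have e : ((kC.map permOf).map fun k => k • unm 8536111) = OL.map unm := by
      rw [← hOL, List.map_map, List.map_map]
      apply List.map_congr_left
      intro m hm
      exact smul_base (validM_of_inM24 (hk m hm).1)
    rw [e]
    exact List.Nodup.map_on (fun a ha b hb h => unm_injOn (hlt a ha) (hlt b hb) h) hnd
  k_inv := by
    intro g hg k hk'
    obtain ⟨m, hm, rfl⟩ := List.mem_map.1 hk'
    rw [smul_base (validM_of_inM24 (hk m hm).1)]
    have h1 : applyM m 8536111 ∈ OL := by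
      rw [← hOL]; exact List.mem_map.2 ⟨m, hm, rfl⟩
    have h2 := hinv g hg _ h1
    rw [← hOL] at h2
    obtain ⟨m', hm', e⟩ := List.mem_map.1 h2
    refine ⟨permOf m', List.mem_map.2 ⟨m', hm', rfl⟩, ?_⟩
    rw [smul_base (validM_of_inM24 (hk m' hm').1), e, unm_msk]
  q_nodup := by
    apply List.Nodup.map_on _ QC_nodup
    intro a ha b hb h
    rw [← code_permOf (validM_of_inM24 (QC_spec ha).1), h,
      code_permOf (validM_of_inM24 (QC_spec hb).1)]
  q_iff := by
    intro t ht
    constructor
    · rintro ⟨h1, h2⟩
      exact mem_QC_of (hle ht) h1 h2
    · intro h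
      obtain ⟨q, hq, rfl⟩ := List.mem_map.1 h
      obtain ⟨_, h2, h3⟩ := QC_spec hq
      refine ⟨?_, fun p hp => (h3 p).2 hp⟩
      intro h1
      rw [h1, orderOf_one] at h2
      omega
  q_mem := by
    intro q hq
    obtain ⟨c, hc, rfl⟩ := List.mem_map.1 hq
    exact hQ c hc
  q_two := by
    intro q hq
    obtain ⟨c, hc, rfl⟩ := List.mem_map.1 hq
    exact (QC_spec hc).2.1
  le := hle
  oct := baseOctad_mem
  fix_exact := by
    intro q hq p hp
    obtain ⟨c, hc, rfl⟩ := List.mem_map.1 hq
    exact ((QC_spec hc).2.2 p).1 hp
  reg := by
    refine ⟨pt 4, ?_, ?_⟩
    · rw [mem_unm, enc_pt (by norm_num)]; decide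
    · intro p hp
      have h := (all24_iff _).1 QC_reg (enc p) (enc_lt p)
      rw [mem_unm] at hp
      simp only [Bool.or_eq_true] at h
      rcases h with h | h | h
      · exact absurd h hp
      · left
        rw [Nat.beq_eq] at h
        rw [← pt_enc p, h]
      · right
        obtain ⟨q, hq, e⟩ := (anyL_iff _ _).1 h
        refine ⟨permOf q, List.mem_map.2 ⟨q, hq, rfl⟩, ?_⟩
        rw [permOf_apply_eq_iff (validM_of_inM24 (QC_spec hq).1), enc_pt (by norm_num)]
        exact Nat.eq_of_beq_eq_true e
  two := ⟨unm 2969648, o2_mem, by rw [Finset.inter_comm]; exact o2_inter⟩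

end Cfsg.Agent.Lib.Helper94
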