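import Cfsg.Agent.S0936
import Cfsg.Agent.Lib.Helper21.Regular
import Cfsg.Agent.Lib.Helper21.FirstMain
import Cfsg.Agent.Lib.Helper21.DefectCard
import Cfsg.Agent.Lib.Helper78.DefectZero
import Cfsg.Agent.Lib.Helper80.BlockBasic
import Cfsg.Agent.Lib.Helper20.FongReynolds

/-!
# A criterion for a finite group to have exactly one 2-block
-/

set_option autoImplicit false
open Cfsg
open Cfsg.Agent.Lib.Helper20 Cfsg.Agent.Lib.Helper81 Cfsg.Agent.Lib.Helper21
  Cfsg.Agent.Lib.Helper78 Cfsg.Agent.Lib.Helper80 Cfsg.Agent.Lib.Helper82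

namespace Cfsg.Agent.Lib.Helper94

variable {p : ℕ} {M : Ideal AlgInt}

/-- A group with a self-centralising normal `p`-subgroup has one block. -/
theorem sameBlock_of_constrained {H : Type*} [Group H] [Fintype H] (hM : IsPModular p M)
    (Q : Subgroup H) [Q.Normal] (hQ : IsPGroup p Q)
    (hC : Subgroup.centralizer (Q : Set H) ≤ Q) (ξ ξ' : IrrCharacter H) :
    SameBlock M (ξ : H → ℂ) (ξ' : H → ℂ) := by
  apply sameBlock_of_agree_on_regular hM
  intro g hg
  by_cases h1 : g = 1
  · subst h1
    rw [centralChar_one, centralChar_one, sub_self]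
    exact memLocalIdeal_zero hM
  · have hgC : g ∉ Subgroup.centralizer (Q : Set H) := by
      intro h
      have hgQ : g ∈ Q := hC h
      obtain ⟨k, hk⟩ := hQ ⟨g, hgQ⟩
      have hk' : g ^ p ^ k = 1 := by
        have := congrArg Subtype.val hk
        simpa using this
      have hd : orderOf g ∣ p ^ k := orderOf_dvd_of_pow_eq_one hk'
      obtain ⟨j, _, hj⟩ := (Nat.dvd_prime_pow hM.1).1 hd
      rcases Nat.eq_zero_or_pos j with rfl | hj0
      · rw [pow_zero, orderOf_eq_one_iff] at hj
        exact h1 hj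
      · exact hg (hj ▸ dvd_pow_self p hj0.ne')
    exact memLocalIdeal_sub hM
      (centralChar_memLocalIdeal_of_not_mem_centralizer hM Q hQ ξ' g hgC)
      (centralChar_memLocalIdeal_of_not_mem_centralizer hM Q hQ ξ g hgC)

/-- The properties of a character of 2-defect zero used to exclude it. -/
structure DZ {G : Type*} [Group G] [Fintype G] (M : Ideal AlgInt) (f : G → ℂ) : Prop where
  conj : ∀ g k : G, f (k * g * k⁻¹) = f g
  loc : ∀ g, MemLocalRing M (f g)
  inv : ∀ g z : G, orderOf z = 2 → Commute z g → MemLocalIdeal M (f g)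
  sum : ∀ w : G → ℂ, (∀ t k : G, w (k * t * k⁻¹) = w t) → (∀ t, w t ≠ 0 → 2 ∣ orderOf t) →
    ∀ x, ∑ t, w t * f (x * t) = 0

section
variable {G : Type*} [Group G] [Fintype G]

theorem char_mul_eq (χ : IrrCharacter G) {m : ℕ}
    (hm : Nat.card G = charDegree (χ : G → ℂ) * m) (g : G) :
    (χ : G → ℂ) g * (m : ℂ) = centralChar (χ : G → ℂ) g *
      (Nat.card (Subgroup.centralizer ({g} : Set G)) : ℂ) := by
  have h1 : Nat.card (Subgroup.centralizer ({g} : Set G)) *
      (Subgroup.centralizer ({g} : Set G)).index = Nat.card G := Subgroup.card_mul_index _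
  have h0 : (χ : G → ℂ) 1 ≠ 0 := irr_one_ne_zero χ.2
  have h2 : ((Nat.card (Subgroup.centralizer ({g} : Set G)) : ℕ) : ℂ) *
      ((Subgroup.centralizer ({g} : Set G)).index : ℂ) = (χ : G → ℂ) 1 * (m : ℂ) := by
    rw [irr_one_eq_charDegree]
    exact_mod_cast h1.trans hm
  rw [centralChar]
  field_simp
  linear_combination (-(χ : G → ℂ) g) * h2

theorem dz_of_defect_zero (hM : IsPModular 2 M) (χ : IrrCharacter G) {m : ℕ}
    (hm : Nat.card G = charDegree (χ : G → ℂ) * m) (hpm : ¬ 2 ∣ m) :
    DZ M (χ : G → ℂ) where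
  conj := irr_classFunction χ
  loc := fun g => memLocalRing_of_isIntegral hM
    (isCharacter_isIntegral (isCharacter_of_isIrrCharacter χ.2) g)
  inv := by
    intro g z hz hzg
    have h1 := char_mul_eq χ hm g
    have hmI : ¬ MemLocalIdeal M (m : ℂ) := fun h => hpm ((memLocalIdeal_natCast_iff hM m).1 h)
    have hm0 : (m : ℂ) ≠ 0 := ne_zero_of_not_memLocalIdeal hM hmI
    have h2 : (χ : G → ℂ) g = centralChar (χ : G → ℂ) g *
      (Nat.card (Subgroup.centralizer ({g} : Set G)) : ℂ) / (m : ℂ) := by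
      rw [← h1]; field_simp
    rw [h2]
    apply memLocalIdeal_div hM _ (memLocalRing_natCast hM m) hmI
    apply memLocalIdeal_mul_left hM (centralChar_memLocalRing hM χ g)
    rw [memLocalIdeal_natCast_iff hM]
    have hzC : z ∈ Subgroup.centralizer ({g} : Set G) := by
      rw [Subgroup.mem_centralizer_singleton_iff]
      exact hzg.eq
    have := orderOf_dvd_natCard (⟨z, hzC⟩ : Subgroup.centralizer ({g} : Set G))
    rwa [← Subgroup.orderOf_coe, hz] at this
  sum := by
    intro w hw hw2 x
    rw [sum_mul_char_mul χ.2 hw x]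
    have : omega (χ : G → ℂ) w = 0 := by
      rw [omega]
      apply Finset.sum_eq_zero
      intro t _
      by_cases ht : w t = 0
      · rw [ht]; simp
      · rw [vanish_of_defect_zero hM.1 χ hm hpm (hw2 t ht)]; simp
    rw [this, zero_mul]

/-- Criterion for one 2-block. -/
theorem sameBlock_triv_of (hM : IsPModular 2 M)
    (hloc : ∀ z : G, orderOf z = 2 → ∃ Q : Subgroup G, IsPGroup 2 Q ∧ (∀ q ∈ Q, Commute z q) ∧
      (∀ h, Commute z h → ∀ q ∈ Q, h * q * h⁻¹ ∈ Q) ∧
      (∀ h, Commute z h → (∀ q ∈ Q, Commute h q) → h ∈ Q))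
    (hdz : ∀ f : G → ℂ, DZ M f → ∀ g, MemLocalIdeal M (f g))
    (χ : IrrCharacter G) : SameBlock M (χ : G → ℂ) (Helper80.trivIrr G : G → ℂ) := by
  classical
  have : Fact (Nat.Prime 2) := ⟨Nat.prime_two⟩
  set B := blockOf M (χ : G → ℂ) with hBdef
  have hB : IsPBlock M B := ⟨χ, rfl⟩
  have hχB : χ ∈ B := mem_blockOf_self hM χ
  obtain ⟨g, hg1, hg2, hg3⟩ := exists_defectClass hM B hB
  by_cases hz : ∃ z : G, orderOf z = 2 ∧ Commute z g
  · obtain ⟨z, hz2, hzg⟩ := hz
    obtain ⟨Q, hQ2, hQz, hQn, hQc⟩ := hloc z hz2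
    set P : Subgroup G := Subgroup.zpowers z with hP
    set H : Subgroup G := Subgroup.centralizer (P : Set G) with hH
    have hmemH : ∀ h : G, h ∈ H ↔ Commute z h := by
      intro h
      rw [hH, hP, Subgroup.mem_centralizer_iff]
      constructor
      · intro hh
        exact (hh z (Subgroup.mem_zpowers z))
      · intro hh y hy
        obtain ⟨k, rfl⟩ := Subgroup.mem_zpowers_iff.1 hy
        exact (hh.zpow_left k).eq
    have hPp : IsPGroup 2 P := by
      apply IsPGroup.of_card (n := 1)
      rw [hP, Nat.card_zpowers, hz2, pow_one]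
    have hPH : P ≤ H := by
      intro y hy
      rw [hmemH]
      obtain ⟨k, rfl⟩ := Subgroup.mem_zpowers_iff.1 hy
      exact (Commute.refl z).zpow_right k
    obtain ⟨b, hb⟩ := exists_induced_of_unit_coeff hM hPp hPH le_rfl
      (Subgroup.centralizer_le_normalizer _) B hB g ((hmemH g).2 hzg) hg2
    -- H has one block
    haveI : Fintype H := Fintype.ofFinite _
    have hone : ∀ ξ ξ' : IrrCharacter H, SameBlock M (ξ : H → ℂ) (ξ' : H → ℂ) := by
      have : (Q.subgroupOf H).Normal := by
        constructor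
        intro q hq h
        rw [Subgroup.mem_subgroupOf] at hq ⊢
        simpa using hQn h ((hmemH h).1 h.2) q hq
      apply sameBlock_of_constrained hM (Q.subgroupOf H)
      · exact hQ2.comap_of_injective H.subtype H.subtype_injective
      · intro h hh
        rw [Subgroup.mem_subgroupOf]
        apply hQc h ((hmemH h).1 h.2)
        intro q hq
        rw [Subgroup.mem_centralizer_iff] at hh
        have hqH : q ∈ H := (hmemH q).2 (hQz q hq)
        have := hh ⟨q, hqH⟩ (by
          show (⟨q, hqH⟩ : H) ∈ Q.subgroupOf H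
          rw [Subgroup.mem_subgroupOf]; exact hq)
        have h3 := congrArg Subtype.val this
        simp only [Subgroup.coe_mul] at h3
        exact h3.symm
    have hbp : b = principalBlock M H := by
      obtain ⟨ξ, hξ⟩ := hb.1
      rw [hξ]
      ext ψ
      constructor
      · intro _
        exact hone (Helper80.trivIrr H) ψ
      · intro _
        exact hone ξ ψ
    have h3 := (Cfsg.Agent.S0936.result 2 M hM H b ⟨B, hb⟩).2 hbp
    obtain ⟨ξ, hξ⟩ := isPBlock_nonempty hM hb.1
    intro g'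
    have e1 := hb.2.2 ξ hξ χ hχB g'
    have e2 := h3.2.2 ξ hξ (Helper80.trivIrr G) (Helper80.trivIrr_mem_principalBlock hM) g'
    have := memLocalIdeal_sub hM e2 e1
    rwa [sub_sub_sub_cancel_left] at this
  · exfalso
    -- the centraliser of g has odd order
    have hodd : ¬ 2 ∣ Nat.card (Subgroup.centralizer ({g} : Set G)) := by
      intro h2
      obtain ⟨z, hz'⟩ := exists_prime_orderOf_dvd_card' (G := Subgroup.centralizer ({g} : Set G)) 2 h2
      apply hz
      refine ⟨z, by rw [Subgroup.orderOf_coe]; exact hz', ?_⟩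
      have := z.2
      rw [Subgroup.mem_centralizer_singleton_iff] at this
      exact this
    have hle := factorization_card_le_of_centralChar_unit hM χ g (hg3 χ hχB)
    rw [Nat.factorization_eq_zero_of_not_dvd hodd, add_zero] at hle
    obtain ⟨m, hm⟩ := isIrr_charDegree_dvd_card χ.2
    have hG0 : Nat.card G ≠ 0 := Nat.card_pos.ne'
    have hd0 : charDegree (χ : G → ℂ) ≠ 0 := by
      rintro h; rw [h, zero_mul] at hm; exact hG0 hm
    have hm0 : m ≠ 0 := by
      rintro rfl; rw [mul_zero] at hm; exact hG0 hm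
    have hpm : ¬ 2 ∣ m := by
      intro h2
      have h4 : 1 ≤ m.factorization 2 :=
        (Nat.prime_two.dvd_iff_one_le_factorization hm0).1 h2
      rw [hm, Nat.factorization_mul hd0 hm0] at hle
      simp only [Finsupp.coe_add, Pi.add_apply] at hle
      omega
    have hI := hdz _ (dz_of_defect_zero hM χ hm hpm) g
    apply hg3 χ hχB
    have h1 := char_mul_eq χ hm g
    have hcI : ¬ MemLocalIdeal M (Nat.card (Subgroup.centralizer ({g} : Set G)) : ℂ) :=
      fun h => hodd ((memLocalIdeal_natCast_iff hM _).1 h)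
    have hc0 := ne_zero_of_not_memLocalIdeal hM hcI
    have h2 : centralChar (χ : G → ℂ) g = (χ : G → ℂ) g * (m : ℂ) /
        (Nat.card (Subgroup.centralizer ({g} : Set G)) : ℂ) := by
      rw [h1]; field_simp
    rw [h2]
    exact memLocalIdeal_div hM (memLocalIdeal_mul_right hM hI (memLocalRing_natCast hM m))
      (memLocalRing_natCast hM _) hcI

theorem sameBlock_of (hM : IsPModular 2 M)
    (hloc : ∀ z : G, orderOf z = 2 → ∃ Q : Subgroup G, IsPGroup 2 Q ∧ (∀ q ∈ Q, Commute z q) ∧
      (∀ h, Commute z h → ∀ q ∈ Q, h * q * h⁻¹ ∈ Q) ∧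
      (∀ h, Commute z h → (∀ q ∈ Q, Commute h q) → h ∈ Q))
    (hdz : ∀ f : G → ℂ, DZ M f → ∀ g, MemLocalIdeal M (f g))
    (χ ψ : IrrCharacter G) : SameBlock M (χ : G → ℂ) (ψ : G → ℂ) :=
  sameBlock_trans hM (sameBlock_triv_of hM hloc hdz χ)
    (sameBlock_symm (sameBlock_triv_of hM hloc hdz ψ))

end

end Cfsg.Agent.Lib.Helper94
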