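import Cfsg.Agent.Lib.Helper94.BlockOct

/-!
# Tables of orders of products
-/

set_option autoImplicit false
open Cfsg
open Cfsg.Agent.Lib.Helper81
open scoped Pointwise

namespace Cfsg.Agent.Lib.Helper94

/-- salted codes of the involutions fixing the base octad pointwise. -/
def QSL : List ℕ := [0x20000000001000100000000800008000010000020000100000010000000800008000000010000010000010000010000800001000000000020000020000020000002000000800000200000080881f94647c2915239, 0x2000000000080002000020000004000020000002000004000000004000080002000000002000000800002000000800004000000004080000000002000004000000200000080000020000008083fa856467e04a6b9, 0x2000000080000000200000020000100080000002000000080000002000080000008000080000008000100000200000000008002000020000000002000008000000200000080000020000008091c82940dee78e8b9, 0x2000000000800000100008000010000010000002000008000000080000080000080000000200000200800000000010100000000200000200000002000010000000200000080000020000008078aed3fafbff6ba79, 0x200000000040004000000100000004004000000200000040000040000008000100000000040000010000002040000004000000040000010000000200002000000020000008000002000000808cf281a97853c76b9,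 0x200000000200000800004000004000000200000200000200000800000008000000100200000000004000008000008000100000008000008000000200004000000020000008000002000000806e9be54d47e5d2879, 0x200000000100010000010000000200000040000200000000800200000008000040000000008100000000010000004000800000010000004000000200008000000020000008000002000000807d5888fe5fdf2f1f9, 0x200000002000000008000020000001000020000200002000000000800008000000010020000000040020000000800000040008000001000000000200010000000020000008000002000000808b269e13efe6659d9, 0x200000020000000080020000000040000000800200000002000000040008000000200040000080000002000000200000004000004000800000000200040000000020000008000002000000807a912d42441060839, 0x2000000004000000040000100000020000100002000000000800010000080004000000000800100000010000100000000800020000040000000002000800000000200000080000020000008093bf85fc181d8e0f9, 0x200000000020000040000004000008000000200200000004000000100008000001000001000004000040000008000020000004000000100000000200200000000020000008000002000000806eafcbc37dd7c47d9, 0x2000000400000400000000400000004000040002000000004000040000080000000400040000400000000200040000000200004000000400000002004000000000200000080000020000008076b39c7c396d48959,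 0x200000001000000100000000800020000001000200000001001000000008000000400100000020000000400001000000002001000000002000000200800000000020000008000002000000806b2c5168299b36899, 0x2000000100000000010000800100000000080002000000002000020000080000000800800000020000080000000100000100000800002000000002010000000000200000080000020000008098c320c1d32a74e39, 0x200000000002008000000400008000000002000200000010000400000008000010000000400000400000040000040002000000001000001000000202000000000020000008000002000000808aab6942c2a334819]

theorem QSL_eq : QC.map toS = QSL := by decide +kernel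

/-- types of the products for one conjugator. -/
def rowG (QS long small : List ℕ) (XS : ℕ) (m : ℕ) : List ℕ :=
  force (toS m) fun A => force (mulS (mulS (invS A) XS) A) fun Y =>
    QS.map fun q => force (mulS Y q) (otype long small)

/-- types of the products for one conjugator. -/
def rowT (long small : List ℕ) (XS : ℕ) (m : ℕ) : List ℕ := rowG QSL long small XS m

theorem flatMap_congr' {α β : Type*} {f g : α → List β} {l : List α} (h : ∀ a ∈ l, f a = g a) :
    l.flatMap f = l.flatMap g := by
  induction l with
  | nil => rfl
  | cons a l ih =>
    rw [List.flatMap_cons, List.flatMap_cons, h a (by simp), ih fun b hb => h b (by simp [hb])]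

theorem map_tau_aux {S : Subgroup (Equiv.Perm GolayPt)} (long small : List ℕ)
    {x : Equiv.Perm GolayPt} (hx : x ∈ S) {kC Qc : List ℕ}
    (hk : ∀ m ∈ kC, inM24 m = true ∧ permOf m ∈ S)
    (hQ : ∀ q ∈ Qc, inM24 q = true ∧ permOf q ∈ S) :
    (((kC.map permOf).flatMap fun k => (Qc.map permOf).map fun q => mkS S (k⁻¹ * x * k * q)).map
      fun e : S => otype long small (codeS (e : Equiv.Perm GolayPt))) =
    kC.flatMap (rowG (Qc.map toS) long small (codeS x)) := by
  rw [List.map_flatMap, List.flatMap_map]
  apply flatMap_congr'
  intro m hm
  rw [rowG, force_eq, force_eq, List.map_map, List.map_map, List.map_map]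
  apply List.map_congr_left
  intro q hq
  have hmem : (permOf m)⁻¹ * x * permOf m * permOf q ∈ S :=
    S.mul_mem (S.mul_mem (S.mul_mem (S.inv_mem (hk m hm).2) hx) (hk m hm).2) (hQ q hq).2
  rw [Function.comp_apply, Function.comp_apply, Function.comp_apply]
  rw [mkS_coe hmem, force_eq, toS_of_inM24 (hk m hm).1, toS_of_inM24 (hQ q hq).1, invS_codeS,
    mulS_codeS, mulS_codeS, mulS_codeS]

theorem map_tau_eq {S : Subgroup (Equiv.Perm GolayPt)} (long small : List ℕ)
    {x : Equiv.Perm GolayPt} (hx : x ∈ S) {kC : List ℕ}
    (hk : ∀ m ∈ kC, inM24 m = true ∧ permOf m ∈ S) (hQ : ∀ q ∈ QC, permOf q ∈ S) :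
    (((kC.map permOf).flatMap fun k => (QC.map permOf).map fun q => mkS S (k⁻¹ * x * k * q)).map
      fun e : S => otype long small (codeS (e : Equiv.Perm GolayPt))) =
    kC.flatMap (rowT long small (codeS x)) := by
  rw [map_tau_aux long small hx hk (fun q hq => ⟨(QC_spec hq).1, hQ q hq⟩), QSL_eq]
  rfl

/-- exclusion of defect zero for a subgroup of the group of the code. -/
theorem dz_all_of_golay {M : Ideal AlgInt} {S : Subgroup (Equiv.Perm GolayPt)} [Fintype S]
    (hM : IsPModular 2 M) (long small : List ℕ) (xc : ℕ → ℕ) (kC : List ℕ)
    (D : LocData S (unm 8536111) (kC.map permOf) (QC.map permOf))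
    (hk : ∀ m ∈ kC, inM24 m = true ∧ permOf m ∈ S)
    (hx : ∀ L ∈ long, inM24 (xc L) = true ∧ permOf (xc L) ∈ S)
    (hcl : ∀ g ∈ S, CLP S long (fun L => permOf (xc L)) g)
    (ar1 : ∀ l ∈ long, ∀ L ∈ long, l ∣ L → l = L) (ar2 : ∀ L ∈ long, ¬ 2 ∣ L)
    (ar3 : ∀ L ∈ long, ∀ n ∈ small, ¬ L ∣ n)
    (T : ℕ → List ℕ) (hT : ∀ K ∈ long, kC.flatMap (rowT long small (toS (xc K))) = T K)
    (h99 : ∀ K ∈ long, (T K).count 99 = 0)
    (hpar : ∀ K ∈ long, ∀ L ∈ long, (T K).count L % 2 = if L = K then 1 else 0) :
    ∀ f : S → ℂ, DZ M f → ∀ g, MemLocalIdeal M (f g) := by
  have h0 : (0 : ℕ) ∉ long := fun h => ar2 0 h (dvd_zero 2)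
  have hQ : ∀ q ∈ QC, permOf q ∈ S := fun q hq => D.q_mem _ (List.mem_map.2 ⟨q, hq, rfl⟩)
  apply dz_all_of_tables hM long small (fun L => mkS S (permOf (xc L)))
    (clData_of_CLP (fun L hL => (hx L hL).2) hcl ar1 ar2 ar3)
    (fun e : S => otype long small (codeS (e : Equiv.Perm GolayPt)))
  · intro e
    have h := otype_spec long small h0 (e : Equiv.Perm GolayPt)
    rw [Subgroup.orderOf_coe] at h
    rcases h with h | ⟨h1, h2⟩ | h
    · exact Or.inl h
    · refine Or.inr (Or.inl ⟨h1, ?_⟩)
      rcases h2 with h2 | ⟨n, hn, h2⟩
      · exact Or.inl h2
      · exact Or.inr ⟨n, hn, Subtype.ext h2⟩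
    · exact Or.inr (Or.inr h)
  · intro K hK
    refine ⟨_, fun f hf => D.toSumData.sum_eq_zero hf (mkS S (permOf (xc K))), ?_⟩
    rw [mkS_coe (hx K hK).2, map_tau_eq long small (hx K hK).2 hk hQ,
      ← toS_of_inM24 (hx K hK).1, hT K hK]
    exact ⟨h99 K hK, hpar K hK⟩

end Cfsg.Agent.Lib.Helper94
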