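import Cfsg.Agent.Lib.Helper94.CocK

set_option autoImplicit false
namespace Cfsg.Agent.Lib.Helper94.Coc
open Cfsg Cfsg.Agent.Lib.Helper94

/-- the supports of the code words. -/
abbrev Sup : Set (Finset GolayPt) := supports (golayCode : Set (GolayPt → ZMod 2))

/-- the functional attached to a set of points. -/
def phi (T : Finset GolayPt) (w : GolayPt → ZMod 2) : ZMod 2 := ∑ p ∈ T, w p

theorem phi_eq_sum (T : Finset GolayPt) (w : GolayPt → ZMod 2) :
    phi T w = ∑ p, if p ∈ T then w p else 0 := by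
  rw [phi, Finset.sum_ite_mem, Finset.univ_inter]

theorem phi_symmDiff (A B : Finset GolayPt) (w : GolayPt → ZMod 2) :
    phi (symmDiff A B) w = phi A w + phi B w := by
  rw [phi_eq_sum, phi_eq_sum, phi_eq_sum, ← Finset.sum_add_distrib]
  apply Finset.sum_congr rfl
  intro p _
  by_cases hA : p ∈ A <;> by_cases hB : p ∈ B <;> simp [Finset.mem_symmDiff, hA, hB, CharTwo.add_self_eq_zero]

theorem zmod2_ite : ∀ z : ZMod 2, z = if z ≠ 0 then 1 else 0 := by decide

theorem phi_eq_card (T : Finset GolayPt) (w : GolayPt → ZMod 2) :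
    phi T w = ((support₂ w ∩ T).card : ZMod 2) := by
  rw [phi]
  have h1 : ∀ p ∈ T, w p = if p ∈ support₂ w then (1 : ZMod 2) else 0 := by
    intro p _
    have : (p ∈ support₂ w) ↔ w p ≠ 0 := by simp [support₂]
    simp only [this]
    exact zmod2_ite (w p)
  rw [Finset.sum_congr rfl h1, Finset.sum_boole, Finset.filter_mem_eq_inter, Finset.inter_comm]

theorem phi_eq_zero_iff (T : Finset GolayPt) (w : GolayPt → ZMod 2) :
    phi T w = 0 ↔ Even (support₂ w ∩ T).card := by
  rw [phi_eq_card, ZMod.natCast_eq_zero_iff_even]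

theorem phi_pair {a b : GolayPt} (h : a ≠ b) (w : GolayPt → ZMod 2) : phi {a, b} w = w a + w b := by
  rw [phi, Finset.sum_pair h]

theorem phi_singleton (a : GolayPt) (w : GolayPt → ZMod 2) : phi {a} w = w a := by
  rw [phi, Finset.sum_singleton]

theorem card_symmDiff_add (s t : Finset GolayPt) :
    (symmDiff s t).card + 2 * (s ∩ t).card = s.card + t.card := by
  have h1 : symmDiff s t = (s \ t) ∪ (t \ s) := rfl
  rw [h1, Finset.card_union_of_disjoint disjoint_sdiff_sdiff]
  have h2 := Finset.card_sdiff_add_card_inter s t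
  have h3 := Finset.card_sdiff_add_card_inter t s
  rw [Finset.inter_comm t s] at h3
  omega

theorem even_inter {s t : Finset GolayPt} (hs : s ∈ Sup) (ht : t ∈ Sup) : Even (s ∩ t).card := by
  have h1 := card_symmDiff_add s t
  have a := card_of_mem_supports hs
  have b := card_of_mem_supports ht
  have c := card_of_mem_supports (symmDiff_mem_supports hs ht)
  rw [Nat.even_iff]
  omega

theorem support_mem {w : GolayPt → ZMod 2} (hw : w ∈ golayCode) : support₂ w ∈ Sup := ⟨w, hw, rfl⟩

/-- the code is self-orthogonal. -/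
theorem phi_of_mem {T : Finset GolayPt} (hT : T ∈ Sup) {w : GolayPt → ZMod 2} (hw : w ∈ golayCode) :
    phi T w = 0 := by
  rw [phi_eq_zero_iff]
  exact even_inter (support_mem hw) hT

/-! ### counting octads meeting a set evenly -/

/-- the octads meeting `S` evenly. -/
def EvS (S : Finset GolayPt) : Set (Finset GolayPt) := {O | O ∈ octads ∧ Even (O ∩ S).card}

/-- the octads meeting `S` oddly. -/
def OdS (S : Finset GolayPt) : Set (Finset GolayPt) := {O | O ∈ octads ∧ ¬ Even (O ∩ S).card}

theorem qE_iff (S : Finset GolayPt) {a : ℕ} (ha : a < 2 ^ 24) :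
    qE (msk S) a = true ↔ Even (unm a ∩ S).card := by
  rw [qE, Nat.beq_eq, card_eq_popc, msk_inter, msk_unm ha, Nat.even_iff]
  show popc (a &&& msk S) &&& 1 = 0 ↔ _
  rw [Nat.and_one_is_mod]

theorem ncard_EvS (S : Finset GolayPt) : (EvS S).ncard = cntL (qE (msk S)) octadL :=
  octad_count _ _ fun a ha => qE_iff S (octadL_lt a ha)

theorem ncard_OdS (S : Finset GolayPt) : (OdS S).ncard = cntL (fun a => !(qE (msk S) a)) octadL :=
  octad_count _ _ fun a ha => by
    rw [Bool.not_eq_true', ← qE_iff S (octadL_lt a ha), Bool.not_eq_true]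

theorem cntL_not (q : ℕ → Bool) (l : List ℕ) : cntL q l + cntL (fun a => !(q a)) l = l.length := by
  induction l with
  | nil => rfl
  | cons x l ih =>
    have e1 : cntL q (x :: l) = (q x).toNat + cntL q l := rfl
    have e2 : cntL (fun a => !(q a)) (x :: l) = (!(q x)).toNat + cntL (fun a => !(q a)) l := rfl
    rw [e1, e2, List.length_cons]
    cases q x <;> simp <;> omega

theorem ncard_add (S : Finset GolayPt) : (EvS S).ncard + (OdS S).ncard = 759 := by
  rw [ncard_EvS, ncard_OdS, cntL_not, octadL_length]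

theorem even_inter_symmDiff (A B C : Finset GolayPt) (hC : Even (A ∩ C).card) :
    Even (A ∩ symmDiff B C).card ↔ Even (A ∩ B).card := by
  have h1 : A ∩ symmDiff B C = symmDiff (A ∩ B) (A ∩ C) := inf_symmDiff_distrib_left A B C
  have h2 := card_symmDiff_add (A ∩ B) (A ∩ C)
  rw [h1]
  rw [Nat.even_iff] at hC ⊢
  rw [Nat.even_iff]
  omega

theorem EvS_symmDiff (S : Finset GolayPt) {c : Finset GolayPt} (hc : c ∈ Sup) :
    EvS (symmDiff S c) = EvS S := by
  ext O
  constructor
  · rintro ⟨h1, h2⟩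
    exact ⟨h1, (even_inter_symmDiff O S c (even_inter (octads_subset_supports h1) hc)).1 h2⟩
  · rintro ⟨h1, h2⟩
    exact ⟨h1, (even_inter_symmDiff O S c (even_inter (octads_subset_supports h1) hc)).2 h2⟩

theorem unm_two_pow {a : ℕ} (ha : a < 24) : unm (2 ^ a) = {pt a} := by
  have := msk_singleton (pt a)
  rw [enc_pt ha] at this
  rw [← this, unm_msk]

theorem ncard_EvS_pair {a b : GolayPt} (h : a ≠ b) : (EvS {a, b}).ncard = 407 := by
  have h1 := (List.all_eq_true.1 ((List.all_eq_true.1 chk_pairs) (enc a)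
    (List.mem_range.2 (enc_lt a)))) (enc b) (List.mem_range.2 (enc_lt b))
  rw [Bool.or_eq_true, Nat.beq_eq, Nat.beq_eq] at h1
  rcases h1 with h1 | h1
  · exact absurd (enc_injective h1) h
  · rw [ncard_EvS]
    have h2 : msk ({a, b} : Finset GolayPt) = Nat.xor (Nat.pow 2 (enc a)) (Nat.pow 2 (enc b)) := by
      have h3 : ({a, b} : Finset GolayPt) = symmDiff {a} {b} := by
        ext p
        simp only [Finset.mem_insert, Finset.mem_singleton, Finset.mem_symmDiff]
        constructor
        · rintro (rfl | rfl)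
          · exact Or.inl ⟨rfl, h⟩
          · exact Or.inr ⟨rfl, fun h' => h h'.symm⟩
        · rintro (⟨h', _⟩ | ⟨h', _⟩)
          · exact Or.inl h'
          · exact Or.inr h'
      rw [h3, msk_symmDiff, msk_singleton, msk_singleton]
      rfl
    rw [h2]
    exact h1

/-- the main dichotomy, from the kernel check over the cosets. -/
theorem main1 (S : Finset GolayPt) :
    ((EvS S).ncard = 759 → S ∈ Sup) ∧
    ((EvS S).ncard = 407 → ∃ a b : GolayPt, a ≠ b ∧
      ∀ w ∈ golayCode, phi S w = w a + w b) := by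
  have hm := msk_lt S
  have hc0 := cw_lt (and_4095_lt (msk S))
  have hm' : msk S ^^^ cw (msk S &&& 4095) < 2 ^ 24 := Nat.xor_lt_two_pow hm hc0
  have hlow : (msk S ^^^ cw (msk S &&& 4095)) &&& 4095 = 0 := by
    rw [Nat.and_xor_distrib_right, cw_mod (and_4095_lt _), Nat.xor_self]
  obtain ⟨s, hs, hsm⟩ : ∃ s < 4096, Nat.shiftLeft s 12 = msk S ^^^ cw (msk S &&& 4095) := by
    refine ⟨(msk S ^^^ cw (msk S &&& 4095)) / 4096, by omega, ?_⟩
    show ((msk S ^^^ cw (msk S &&& 4095)) / 4096) <<< 12 = _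
    have h1 : (msk S ^^^ cw (msk S &&& 4095)) % 4096 = 0 := by
      rw [← hlow]
      exact (Nat.and_two_pow_sub_one_eq_mod _ 12).symm
    rw [Nat.shiftLeft_eq]
    omega
  have hC0 : unm (cw (msk S &&& 4095)) ∈ Sup := unm_cw_mem_supports _
  have hS' : unm (msk S ^^^ cw (msk S &&& 4095)) = symmDiff S (unm (cw (msk S &&& 4095))) := by
    rw [unm_xor, unm_msk]
  have hcount : (EvS S).ncard = cntL (qE (Nat.shiftLeft s 12)) octadL := by
    rw [← EvS_symmDiff S hC0, ← hS', ncard_EvS, msk_unm hm', hsm]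
  have hchk := (List.all_eq_true.1 chk_all) s (List.mem_range.2 hs)
  rw [chkS, ← hcount] at hchk
  constructor
  · intro h
    rw [h] at hchk
    have h2 : chkE s 759 = ((!(Nat.beq 758 758) || Nat.beq s 0) &&
      (!(Nat.beq 758 406) || isDuad (Nat.shiftLeft s 12))) := rfl
    rw [h2, Bool.and_eq_true, Bool.or_eq_true] at hchk
    have h3 : s = 0 := by
      rcases hchk.1 with h4 | h4
      · exact absurd h4 (by decide)
      · exact (Nat.beq_eq ▸ h4 : s = 0)
    rw [h3] at hsm
    have h5 : msk S ^^^ cw (msk S &&& 4095) = 0 := by rw [← hsm]; rfl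
    have h6 : msk S = cw (msk S &&& 4095) := Nat.xor_eq_zero_iff.1 h5
    rw [← unm_msk S, h6]
    exact hC0
  · intro h
    rw [h] at hchk
    have h2 : chkE s 407 = ((!(Nat.beq 406 758) || Nat.beq s 0) &&
      (!(Nat.beq 406 406) || isDuad (Nat.shiftLeft s 12))) := rfl
    rw [h2, Bool.and_eq_true, Bool.or_eq_true, Bool.or_eq_true] at hchk
    have h3 : isDuad (Nat.shiftLeft s 12) = true := by
      rcases hchk.2 with h4 | h4
      · exact absurd h4 (by decide)
      · exact h4
    rw [isDuad, List.any_eq_true] at h3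
    obtain ⟨a, ha, h3⟩ := h3
    rw [List.any_eq_true] at h3
    obtain ⟨b, hb, h3⟩ := h3
    rw [Bool.and_eq_true, Nat.blt_eq] at h3
    obtain ⟨hab, h3⟩ := h3
    rw [List.mem_range] at ha hb
    refine ⟨pt a, pt b, fun he => ?_, ?_⟩
    · have := congrArg enc he
      rw [enc_pt ha, enc_pt hb] at this
      omega
    · intro w hw
      have h4 : unm ((msk S ^^^ cw (msk S &&& 4095)) ^^^ 2 ^ a ^^^ 2 ^ b) ∈ Sup := by
        rw [mem_supports_iff, msk_unm (Nat.xor_lt_two_pow (Nat.xor_lt_two_pow hm'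
          (Nat.pow_lt_pow_right (by norm_num) ha)) (Nat.pow_lt_pow_right (by norm_num) hb)), ← hsm]
        exact h3
      have h5 := phi_of_mem h4 hw
      rw [unm_xor, unm_xor, hS', unm_two_pow ha, unm_two_pow hb, phi_symmDiff, phi_symmDiff,
        phi_symmDiff, phi_of_mem hC0 hw, phi_singleton, phi_singleton, add_zero] at h5
      have h6 : ∀ x y z : ZMod 2, x + y + z = 0 → x = y + z := by decide
      exact h6 _ _ _ h5

/-- a small set orthogonal to the code is empty. -/
theorem eq_empty_of_perp {T : Finset GolayPt} (hT : T.card ≤ 7)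
    (h : ∀ w ∈ golayCode, phi T w = 0) : T = ∅ := by
  have h1 : EvS T = EvS ∅ := by
    ext O
    constructor
    · rintro ⟨h1, _⟩
      exact ⟨h1, by simp⟩
    · rintro ⟨h1, _⟩
      refine ⟨h1, ?_⟩
      obtain ⟨w, hw, hwO⟩ := octads_subset_supports h1
      rw [← hwO, ← phi_eq_zero_iff]
      exact h w hw
  have h2 : (OdS ∅).ncard = 0 := by
    have : OdS ∅ = ∅ := by
      ext O
      simp [OdS]
    rw [this, Set.ncard_empty]
  have h3 := ncard_add ∅
  have h4 : (EvS T).ncard = 759 := by rw [h1]; omega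
  have h5 := card_of_mem_supports ((main1 T).1 h4)
  rw [← Finset.card_eq_zero]
  omega

end Cfsg.Agent.Lib.Helper94.Coc
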