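import Mathlib

/-!
# Additive maps on pairs come from permutations

A map from pairs of points to pairs of points which is additive for symmetric differences and
injective on disjoint pairs is induced by an injective map on points.
-/

set_option autoImplicit false

namespace Cfsg.Agent.Lib.Helper94.Duad

variable {α : Type*} [Fintype α] [DecidableEq α]

omit [Fintype α] in
theorem card_symmDiff_add' (s t : Finset α) :
    (symmDiff s t).card + 2 * (s ∩ t).card = s.card + t.card := by
  have h1 : symmDiff s t = (s \ t) ∪ (t \ s) := rfl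
  rw [h1, Finset.card_union_of_disjoint disjoint_sdiff_sdiff]
  have h2 := Finset.card_sdiff_add_card_inter s t
  have h3 := Finset.card_sdiff_add_card_inter t s
  rw [Finset.inter_comm t s] at h3
  omega

omit [Fintype α] in
theorem card_inter_of_symmDiff {A B : Finset α} (hA : A.card = 2) (hB : B.card = 2)
    (h : (symmDiff A B).card = 2) : (A ∩ B).card = 1 := by
  have := card_symmDiff_add' A B
  omega

theorem exists_notMem (s : Finset α) (h : s.card < Fintype.card α) : ∃ v, v ∉ s := by
  by_contra hc
  simp only [not_exists, not_not] at hc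
  have : s = Finset.univ := Finset.eq_univ_iff_forall.2 hc
  rw [this, Finset.card_univ] at h
  exact lt_irrefl _ h

theorem exists_perm (hcard : 4 ≤ Fintype.card α) (D : α → α → Finset α)
    (H1 : ∀ a b, a ≠ b → (D a b).card = 2)
    (H2 : ∀ a b c, a ≠ b → a ≠ c → b ≠ c → D b c = symmDiff (D a b) (D a c))
    (H3 : ∀ a b c d, a ≠ b → a ≠ c → a ≠ d → b ≠ c → b ≠ d → c ≠ d → D b c ≠ D a d)
    (H4 : ∀ a b, D a b = D b a) :
    ∃ σ : α → α, Function.Injective σ ∧ ∀ a b, a ≠ b → D a b = {σ a, σ b} := by
  have hI : ∀ a b c, a ≠ b → a ≠ c → b ≠ c → (D a b ∩ D a c).card = 1 := by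
    intro a b c hab hac hbc
    apply card_inter_of_symmDiff (H1 a b hab) (H1 a c hac)
    rw [← H2 a b c hab hac hbc]
    exact H1 b c hbc
  have star : ∀ a, ∃ u, ∀ b, b ≠ a → u ∈ D a b := by
    intro a
    obtain ⟨b1, hb1⟩ := exists_notMem ({a} : Finset α) (by rw [Finset.card_singleton]; omega)
    obtain ⟨b2, hb2⟩ := exists_notMem ({a, b1} : Finset α)
      (lt_of_le_of_lt Finset.card_le_two (by omega))
    simp only [Finset.mem_singleton] at hb1
    simp only [Finset.mem_insert, Finset.mem_singleton, not_or] at hb2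
    obtain ⟨hb2a, hb21⟩ := hb2
    have hab1 : a ≠ b1 := fun h => hb1 h.symm
    have hab2 : a ≠ b2 := fun h => hb2a h.symm
    have hb12 : b1 ≠ b2 := fun h => hb21 h.symm
    obtain ⟨u, hu⟩ := Finset.card_eq_one.1 (hI a b1 b2 hab1 hab2 hb12)
    have hu' : u ∈ D a b1 ∩ D a b2 := by rw [hu]; exact Finset.mem_singleton_self u
    refine ⟨u, fun b hb => ?_⟩
    by_cases e1 : b = b1
    · rw [e1]; exact (Finset.mem_inter.1 hu').1
    by_cases e2 : b = b2
    · rw [e2]; exact (Finset.mem_inter.1 hu').2
    by_contra hun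
    have hab : a ≠ b := fun h => hb h.symm
    apply H3 a b1 b2 b hab1 hab2 hab hb12 (fun h => e1 h.symm) (fun h => e2 h.symm)
    rw [H2 a b1 b2 hab1 hab2 hb12]
    symm
    have c1 := hI a b b1 hab hab1 e1
    have c2 := hI a b b2 hab hab2 e2
    have hdisj : Disjoint (D a b ∩ D a b1) (D a b ∩ D a b2) := by
      rw [Finset.disjoint_left]
      intro p hp1 hp2
      have hp : p ∈ D a b1 ∩ D a b2 :=
        Finset.mem_inter.2 ⟨(Finset.mem_inter.1 hp1).2, (Finset.mem_inter.1 hp2).2⟩
      rw [hu, Finset.mem_singleton] at hp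
      rw [hp] at hp1
      exact hun (Finset.mem_inter.1 hp1).1
    have hunion : (D a b ∩ D a b1) ∪ (D a b ∩ D a b2) = D a b := by
      apply Finset.eq_of_subset_of_card_le
        (Finset.union_subset Finset.inter_subset_left Finset.inter_subset_left)
      rw [Finset.card_union_of_disjoint hdisj, c1, c2, H1 a b hab]
    apply Finset.eq_of_subset_of_card_le
    · intro p hp
      rw [← hunion] at hp
      rw [Finset.mem_symmDiff]
      rcases Finset.mem_union.1 hp with h | h
      · left
        refine ⟨(Finset.mem_inter.1 h).2, fun h2 => ?_⟩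
        exact Finset.disjoint_left.1 hdisj h (Finset.mem_inter.2 ⟨(Finset.mem_inter.1 h).1, h2⟩)
      · right
        refine ⟨(Finset.mem_inter.1 h).2, fun h2 => ?_⟩
        exact Finset.disjoint_left.1 hdisj (Finset.mem_inter.2 ⟨(Finset.mem_inter.1 h).1, h2⟩) h
    · rw [← H2 a b1 b2 hab1 hab2 hb12, H1 b1 b2 hb12, H1 a b hab]
  choose σ hσ using star
  have hne : ∀ a b, a ≠ b → σ a ≠ σ b := by
    intro a b hab he
    obtain ⟨c, hc⟩ := exists_notMem ({a, b} : Finset α)
      (lt_of_le_of_lt Finset.card_le_two (by omega))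
    simp only [Finset.mem_insert, Finset.mem_singleton, not_or] at hc
    obtain ⟨hca, hcb⟩ := hc
    have h1 : σ a ∈ D a b := hσ a b hab.symm
    have h2 : σ a ∈ D a c := hσ a c hca
    have h3 : σ a ∈ D b c := by rw [he]; exact hσ b c hcb
    rw [H2 a b c hab (fun h => hca h.symm) (fun h => hcb h.symm), Finset.mem_symmDiff] at h3
    rcases h3 with h3 | h3
    · exact h3.2 h2
    · exact h3.2 h1
  refine ⟨σ, ?_, ?_⟩
  · intro a b hab
    by_contra hne'
    exact hne a b hne' hab
  · intro a b hab
    symm
    apply Finset.eq_of_subset_of_card_le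
    · intro p hp
      rcases Finset.mem_insert.1 hp with rfl | hp
      · exact hσ a b hab.symm
      · rw [Finset.mem_singleton.1 hp, H4 a b]
        exact hσ b a hab
    · rw [H1 a b hab, Finset.card_pair (hne a b hab)]

end Cfsg.Agent.Lib.Helper94.Duad
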