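import Cfsg.Agent.Lib.Helper94.Coc1
import Cfsg.Agent.Lib.Helper94.DuadPerm
import Cfsg.Agent.Lib.Helper94.GolayPerm

/-!
# Linear maps of the Golay code preserving weights up to complements
-/

set_option autoImplicit false
open scoped Pointwise

namespace Cfsg.Agent.Lib.Helper94.Coc
open Cfsg Cfsg.Agent.Lib.Helper94

/-- the ambient space. -/
abbrev W : Type := GolayPt → ZMod 2

theorem card_pt : Fintype.card GolayPt = 24 := by decide

theorem univ_mem : (Finset.univ : Finset GolayPt) ∈ Sup := by
  rw [mem_supports_iff, msk_univ]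
  decide +kernel

theorem compl_mem {s : Finset GolayPt} (hs : s ∈ Sup) : sᶜ ∈ Sup := by
  have h : sᶜ = symmDiff s Finset.univ := (symmDiff_top s).symm
  rw [h]
  exact symmDiff_mem_supports hs univ_mem

theorem support_add_one (w : W) : support₂ (w + fun _ => (1 : ZMod 2)) = (support₂ w)ᶜ := by
  ext p
  simp only [support₂, Finset.mem_filter, Finset.mem_univ, true_and, Finset.mem_compl, Pi.add_apply]
  generalize w p = z
  revert z
  decide

theorem card_support_perm (c : W) (σ : Equiv.Perm GolayPt) :
    (support₂ (fun p => c (σ.symm p))).card = (support₂ c).card := by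
  apply Finset.card_bij (fun p _ => σ.symm p)
  · intro p hp
    simpa [support₂] using hp
  · intro p _ q _ h
    exact σ.symm.injective h
  · intro q hq
    refine ⟨σ q, ?_, by simp⟩
    simpa [support₂] using hq

theorem mem_M24_of_maps (g : Equiv.Perm GolayPt)
    (h : ∀ w ∈ golayCode, (fun p => w (g.symm p)) ∈ golayCode) : g ∈ M24 := by
  have hT : ∀ w : W, support₂ (fun p => w (g.symm p)) = g • support₂ w := by
    intro w
    ext p
    rw [Finset.mem_smul_finset]
    simp only [support₂, Finset.mem_filter, Finset.mem_univ, true_and]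
    constructor
    · intro hp
      exact ⟨g.symm p, hp, by simp⟩
    · rintro ⟨q, hq, rfl⟩
      simpa using hq
  show g ∈ MulAction.stabilizer _ _
  rw [MulAction.mem_stabilizer_set_iff_smul_set_subset (Set.toFinite _)]
  rintro _ ⟨s, ⟨w, hw, rfl⟩, rfl⟩
  exact ⟨_, h w hw, hT w⟩

/-- the code word with a given support. -/
def wd (O : Finset GolayPt) : ↥golayCode := ⟨vec (cw (msk O &&& 4095)), vec_cw_mem _⟩

theorem support_wd {O : Finset GolayPt} (h : O ∈ Sup) : support₂ (wd O : W) = O := by
  show support₂ (vec (cw (msk O &&& 4095))) = O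
  rw [support₂_vec, (inCode_iff _).1 ((mem_supports_iff O).1 h), unm_msk]

theorem supp_inj {u v : ↥golayCode} (h : support₂ (u : W) = support₂ (v : W)) : u = v := by
  apply Subtype.ext
  rw [← vec_msk_support₂ (u : W), h, vec_msk_support₂]

/-- the all-ones word. -/
def one : ↥golayCode := ⟨fun _ => 1, by
  have h := vec_cw_mem 4095
  have e : vec (cw 4095) = fun _ => (1 : ZMod 2) := by
    have h1 : cw 4095 = 16777215 := by decide +kernel
    rw [h1, vec_gen_one]; rfl
  rw [e] at h; exact h⟩

section

variable (x : ↥golayCode ≃ₗ[ZMod 2] ↥golayCode)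

theorem exists_S (a b : GolayPt) : ∃ S : Finset GolayPt, ∀ w : ↥golayCode,
    (x w : W) a + (x w : W) b = phi S (w : W) := by
  classical
  let ψ : ↥golayCode →ₗ[ZMod 2] ZMod 2 :=
    (((LinearMap.proj a : W →ₗ[ZMod 2] ZMod 2) + (LinearMap.proj b : W →ₗ[ZMod 2] ZMod 2)).comp
      golayCode.subtype).comp x.toLinearMap
  obtain ⟨g, hg⟩ := LinearMap.exists_extend ψ
  refine ⟨Finset.univ.filter (fun p => g (fun j => if p = j then 1 else 0) = 1), fun w => ?_⟩
  have h1 : ψ w = g (w : W) := by rw [← hg]; rfl
  have h2 : ψ w = (x w : W) a + (x w : W) b := rfl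
  rw [← h2, h1, LinearMap.pi_apply_eq_sum_univ g (w : W), phi, Finset.sum_filter]
  apply Finset.sum_congr rfl
  intro p _
  have h3 : ∀ y z : ZMod 2, y • z = if z = 1 then y else 0 := by decide
  exact h3 _ _

/-- the map induced on octads. -/
def beta (O : Finset GolayPt) : Finset GolayPt :=
  if (support₂ (x (wd O) : W)).card = 8 then support₂ (x (wd O) : W)
  else (support₂ (x (wd O) : W))ᶜ

variable (h1 : x one = one)
  (h8 : ∀ c : ↥golayCode, (support₂ (c : W)).card = 8 →
    (support₂ (x c : W)).card = 8 ∨ (support₂ (x c : W)).card = 16)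

include h8 in
theorem beta_mem {O : Finset GolayPt} (hO : O ∈ octads) : beta x O ∈ octads := by
  have hy : support₂ (x (wd O) : W) ∈ Sup := support_mem (x (wd O)).2
  rcases h8 (wd O) (by rw [support_wd hO.1]; exact hO.2) with h | h
  · rw [beta, if_pos h]; exact ⟨hy, h⟩
  · rw [beta, if_neg (by omega)]
    exact ⟨compl_mem hy, by rw [Finset.card_compl, card_pt, h]⟩

theorem beta_cases (O : Finset GolayPt) :
    beta x O = support₂ (x (wd O) : W) ∨ beta x O = (support₂ (x (wd O) : W))ᶜ := by
  unfold beta
  split
  · exact Or.inl rfl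
  · exact Or.inr rfl

include h1 in
theorem beta_inj {O1 O2 : Finset GolayPt} (hO1 : O1 ∈ octads) (hO2 : O2 ∈ octads)
    (h : beta x O1 = beta x O2) : O1 = O2 := by
  have key : support₂ (x (wd O1) : W) = support₂ (x (wd O2) : W) ∨
      support₂ (x (wd O1) : W) = (support₂ (x (wd O2) : W))ᶜ := by
    rcases beta_cases x O1 with e1 | e1 <;> rcases beta_cases x O2 with e2 | e2
    · left; rw [← e1, ← e2, h]
    · right; rw [← e1, ← e2, h]
    · right; rw [← compl_compl (support₂ (x (wd O1) : W)), ← e1, ← e2, h]
    · left; apply compl_injective; rw [← e1, ← e2, h]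
  rcases key with k | k
  · have := x.injective (supp_inj k)
    rw [← support_wd hO1.1, this, support_wd hO2.1]
  · exfalso
    have e : support₂ (x (wd O1) : W) = support₂ ((x (wd O2 + one) : ↥golayCode) : W) := by
      rw [k, map_add, h1]
      exact (support_add_one _).symm
    have h2 := x.injective (supp_inj e)
    have h3 : O1 = O2ᶜ := by
      rw [← support_wd hO1.1, h2, ← support_wd hO2.1]
      have := support_add_one (wd O2 : W)
      rw [support_wd hO2.1] at this ⊢
      exact this
    have h4 := hO1.2
    rw [h3, Finset.card_compl, card_pt, hO2.2] at h4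
    omega

theorem beta_parity {a b : GolayPt} (hab : a ≠ b) {S : Finset GolayPt}
    (hS : ∀ w : ↥golayCode, (x w : W) a + (x w : W) b = phi S (w : W))
    {O : Finset GolayPt} (hO : O ∈ octads) :
    Even (beta x O ∩ {a, b}).card ↔ Even (O ∩ S).card := by
  have e1 : Even (O ∩ S).card ↔ Even (support₂ (x (wd O) : W) ∩ {a, b}).card := by
    rw [← phi_eq_zero_iff, phi_pair hab, hS, phi_eq_zero_iff, support_wd hO.1]
  rw [e1]
  rcases beta_cases x O with e | e
  · rw [e]
  · rw [e]
    have h : (support₂ (x (wd O) : W))ᶜ = symmDiff (support₂ (x (wd O) : W)) Finset.univ :=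
      (symmDiff_top _).symm
    rw [h, Finset.inter_comm, Finset.inter_comm _ {a, b}]
    apply even_inter_symmDiff
    rw [Finset.inter_univ, Finset.card_pair hab]
    exact ⟨1, rfl⟩

include h1 h8 in
theorem exists_pair (a b : GolayPt) : ∃ T : Finset GolayPt, a ≠ b → (T.card = 2 ∧
    ∀ w : ↥golayCode, (x w : W) a + (x w : W) b = phi T (w : W)) := by
  by_cases hab : a = b
  · exact ⟨∅, fun h => absurd hab h⟩
  obtain ⟨S, hS⟩ := exists_S x a b
  have i1 : (EvS S).ncard ≤ (EvS {a, b}).ncard :=
    Set.ncard_le_ncard_of_injOn (beta x)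
      (fun O hO => ⟨beta_mem x h8 hO.1, (beta_parity x hab hS hO.1).2 hO.2⟩)
      (fun O1 hO1 O2 hO2 h => beta_inj x h1 hO1.1 hO2.1 h) (Set.toFinite _)
  have i2 : (OdS S).ncard ≤ (OdS {a, b}).ncard :=
    Set.ncard_le_ncard_of_injOn (beta x)
      (fun O hO => ⟨beta_mem x h8 hO.1, fun h => hO.2 ((beta_parity x hab hS hO.1).1 h)⟩)
      (fun O1 hO1 O2 hO2 h => beta_inj x h1 hO1.1 hO2.1 h) (Set.toFinite _)
  have i3 := ncard_add S
  have i4 := ncard_add {a, b}
  have i5 := ncard_EvS_pair hab
  obtain ⟨a', b', hab', hw⟩ := (main1 S).2 (by omega)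
  refine ⟨{a', b'}, fun _ => ⟨Finset.card_pair hab', fun w => ?_⟩⟩
  rw [hS, hw _ w.2, phi_pair hab']

theorem card_symmDiff_le (s t : Finset GolayPt) : (symmDiff s t).card ≤ s.card + t.card := by
  have := card_symmDiff_add s t
  omega

include h1 h8 in
/-- the main theorem: such a map is induced by a permutation, up to complements. -/
theorem main2 : ∃ τ ∈ M24, ∀ c : ↥golayCode,
    (x c : W) = (fun p => (c : W) (τ.symm p)) ∨
    (x c : W) = (fun p => (c : W) (τ.symm p)) + fun _ => (1 : ZMod 2) := by
  choose D hD using exists_pair x h1 h8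
  have eqD : ∀ A B : Finset GolayPt, A.card + B.card ≤ 7 →
      (∀ w : ↥golayCode, phi A (w : W) = phi B (w : W)) → A = B := by
    intro A B hc h
    have : symmDiff A B = ∅ := by
      apply eq_empty_of_perp (le_trans (card_symmDiff_le A B) hc)
      intro w hw
      rw [phi_symmDiff, h ⟨w, hw⟩, CharTwo.add_self_eq_zero]
    exact symmDiff_eq_bot.1 this
  obtain ⟨σ, hinj, hσ⟩ := Duad.exists_perm (by rw [card_pt]; norm_num) D
    (fun a b hab => (hD a b hab).1)
    (by
      intro a b c hab hac hbc
      apply eqD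
      · have := card_symmDiff_le (D a b) (D a c)
        rw [(hD a b hab).1, (hD a c hac).1] at this
        rw [(hD b c hbc).1]
        omega
      · intro w
        rw [phi_symmDiff, ← (hD b c hbc).2, ← (hD a b hab).2, ← (hD a c hac).2]
        have z : ∀ p q r : ZMod 2, q + r = p + q + (p + r) := by decide
        exact z _ _ _)
    (by
      intro a b c d hab hac had hbc hbd hcd he
      have h2 : ({b, c} : Finset GolayPt) = {a, d} := by
        apply eqD
        · rw [Finset.card_pair hbc, Finset.card_pair had]; norm_num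
        · intro w
          obtain ⟨v, rfl⟩ := x.surjective w
          rw [phi_pair hbc, phi_pair had, (hD b c hbc).2, (hD a d had).2, he]
      have h3 : b ∈ ({a, d} : Finset GolayPt) := by rw [← h2]; simp
      rcases Finset.mem_insert.1 h3 with h4 | h4
      · exact hab h4.symm
      · exact hbd (Finset.mem_singleton.1 h4))
    (by
      intro a b
      by_cases hab : a = b
      · rw [hab]
      · apply eqD
        · rw [(hD a b hab).1, (hD b a (fun h => hab h.symm)).1]; norm_num
        · intro w
          rw [← (hD a b hab).2, ← (hD b a (fun h => hab h.symm)).2, add_comm])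
  have hpair : ∀ a b, a ≠ b → ∀ w : ↥golayCode,
      (x w : W) a + (x w : W) b = (w : W) (σ a) + (w : W) (σ b) := by
    intro a b hab w
    rw [(hD a b hab).2, hσ a b hab, phi_pair (fun h => hab (hinj h))]
  have hcases : ∀ c : ↥golayCode, (x c : W) = (fun p => (c : W) (σ p)) ∨
      (x c : W) = (fun p => (c : W) (σ p)) + fun _ => (1 : ZMod 2) := by
    intro c
    have hconst : ∀ p, (x c : W) p + (c : W) (σ p) = (x c : W) none + (c : W) (σ none) := by
      intro p
      by_cases hp : p = none
      · rw [hp]
      · have := hpair p none hp c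
        have z : ∀ p q r s : ZMod 2, p + q = r + s → p + r = q + s := by decide
        exact z _ _ _ _ this
    have z2 : ∀ t : ZMod 2, t = 0 ∨ t = 1 := by decide
    rcases z2 ((x c : W) none + (c : W) (σ none)) with h0 | h0
    · left
      funext p
      have := hconst p
      rw [h0] at this
      have z : ∀ p q : ZMod 2, p + q = 0 → p = q := by decide
      exact z _ _ this
    · right
      funext p
      have := hconst p
      rw [h0] at this
      have z : ∀ p q : ZMod 2, p + q = 1 → p = q + 1 := by decide
      exact z _ _ this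
  let s : Equiv.Perm GolayPt := Equiv.ofBijective σ (Finite.injective_iff_bijective.1 hinj)
  have hs : ∀ p, (s.symm).symm p = σ p := fun p => rfl
  refine ⟨s.symm, ?_, ?_⟩
  · apply mem_M24_of_maps
    intro w hw
    have e : (fun p => w ((s.symm).symm p)) = fun p => w (σ p) := rfl
    rw [e]
    rcases hcases ⟨w, hw⟩ with h | h
    · have : (fun p => w (σ p)) = (x ⟨w, hw⟩ : W) := h.symm
      rw [this]; exact (x ⟨w, hw⟩).2
    · have : (fun p => w (σ p)) = ((x ⟨w, hw⟩ + one : ↥golayCode) : W) := by
        show _ = (x ⟨w, hw⟩ : W) + fun _ => (1 : ZMod 2)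
        rw [h, add_assoc]
        funext p
        have z : ∀ q : ZMod 2, q = q + (1 + 1) := by decide
        exact z _
      rw [this]; exact (x ⟨w, hw⟩ + one).2
  · intro c
    exact hcases c

end

end Cfsg.Agent.Lib.Helper94.Coc
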