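import Cfsg.Agent.Lib.Helper94.GolayCount

/-!
# Kernel checks for the cosets of the Golay code

For each of the 4096 cosets (represented by masks supported on the last twelve points) the number
of octads meeting the representative evenly is computed.
-/

set_option autoImplicit false
namespace Cfsg.Agent.Lib.Helper94.Coc
open Cfsg Cfsg.Agent.Lib.Helper94

/-- the octad with mask `a` meets the set with mask `m` evenly. -/
def qE (m a : ℕ) : Bool := Nat.beq (Nat.land (popc (Nat.land a m)) 1) 0

/-- the mask differs from a code word by a pair of points. -/
def isDuad (m : ℕ) : Bool :=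
  (List.range 24).any fun a => (List.range 24).any fun b =>
    Nat.blt a b && inCode (Nat.xor (Nat.xor m (Nat.pow 2 a)) (Nat.pow 2 b))

def chkE (s : ℕ) : ℕ → Bool
  | 0 => false
  | n + 1 => (!(Nat.beq n 758) || Nat.beq s 0) && (!(Nat.beq n 406) || isDuad (Nat.shiftLeft s 12))

noncomputable def chkS (s : ℕ) : Bool := chkE s (cntL (qE (Nat.shiftLeft s 12)) octadL)

theorem chk_all : (List.range 4096).all chkS = true := by decide +kernel

/-- every pair of points is met evenly by 407 octads. -/
theorem chk_pairs : (List.range 24).all (fun a => (List.range 24).all fun b =>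
    Nat.beq a b || Nat.beq (cntL (qE (Nat.xor (Nat.pow 2 a) (Nat.pow 2 b))) octadL) 407) = true := by
  decide +kernel

theorem octadL_length : octadL.length = 759 := by decide +kernel

end Cfsg.Agent.Lib.Helper94.Coc
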