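import Mathlib

/-!
# Four-groups are self-centralizing in dihedral and quasi-dihedral groups

An abstract criterion: a cyclic subgroup `C` with at most two cosets such that an element outside
`C` only centralizes the elements `c` of `C` with `c ^ 2 = 1`.
-/

set_option autoImplicit false

namespace Cfsg.Agent.Lib.Helper94.FSC

/-- the abstract hypothesis. -/
def Good (D : Type*) [Group D] : Prop :=
  ∃ C : Subgroup D, IsCyclic C ∧ (∀ g h : D, g ∉ C → h ∉ C → g⁻¹ * h ∈ C) ∧
    ∀ s : D, s ∉ C → ∀ c ∈ C, s * c = c * s → c ^ 2 = 1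

theorem Good.of_equiv {D D' : Type*} [Group D] [Group D'] (e : D ≃* D') (h : Good D') : Good D := by
  obtain ⟨C, hC, h1, h2⟩ := h
  have hmem : ∀ g : D, g ∈ C.map e.symm.toMonoidHom ↔ e g ∈ C := by
    intro g
    rw [Subgroup.mem_map_equiv]
    rfl
  refine ⟨C.map e.symm.toMonoidHom, ?_, ?_, ?_⟩
  · exact isCyclic_of_surjective (e.symm.subgroupMap C) (e.symm.subgroupMap C).surjective
  · intro g h' hg hh
    rw [hmem] at hg hh ⊢
    rw [map_mul, map_inv]
    exact h1 _ _ hg hh
  · intro s hs c hc hsc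
    rw [hmem] at hs hc
    have := h2 (e s) hs (e c) hc (by rw [← map_mul, hsc, map_mul])
    apply e.injective
    rw [map_pow, this, map_one]

theorem main {D : Type*} [Group D] [Finite D] (hD : Good D) (V : Subgroup D)
    (h4 : 4 ≤ Nat.card V) (hcomm : ∀ a ∈ V, ∀ b ∈ V, a * b = b * a) (h2 : ∀ v ∈ V, v ^ 2 = 1)
    (g : D) (hg : ∀ v ∈ V, g * v = v * g) : g ∈ V := by
  classical
  obtain ⟨C, hC, hidx, hcen⟩ := hD
  have := Fintype.ofFinite ↥C
  obtain ⟨Tf, hTf, hTc⟩ : ∃ Tf : Finset D, (∀ c, c ∈ Tf ↔ c ∈ C ∧ c ^ 2 = 1) ∧ Tf.card ≤ 2 := by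
    refine ⟨Finset.image (fun a : ↥C => a.1) (Finset.univ.filter (fun a : ↥C => a ^ 2 = 1)), ?_, ?_⟩
    · intro c
      simp only [Finset.mem_image, Finset.mem_filter, Finset.mem_univ, true_and]
      constructor
      · rintro ⟨a, ha, rfl⟩
        refine ⟨a.2, ?_⟩
        have := congrArg (fun z : ↥C => (z : D)) ha
        simpa using this
      · rintro ⟨hc, hc2⟩
        exact ⟨⟨c, hc⟩, Subtype.ext (by simpa using hc2), rfl⟩
    · exact le_trans Finset.card_image_le (IsCyclic.card_pow_eq_one_le (α := ↥C) two_pos)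
  -- an element of `V` outside `C`
  obtain ⟨s, hsV, hsC⟩ : ∃ s ∈ V, s ∉ C := by
    by_contra hcon
    push Not at hcon
    have hsub : (V : Set D) ⊆ (Tf : Set D) := by
      intro v hv
      exact Finset.mem_coe.2 ((hTf v).2 ⟨hcon v hv, h2 v hv⟩)
    have h5 := Set.ncard_le_ncard hsub (Finset.finite_toSet _)
    rw [Set.ncard_coe_finset] at h5
    have h6 : (V : Set D).ncard = Nat.card V := (Nat.card_coe_set_eq _).symm
    omega
  -- the centralizer of `s` has at most four elements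
  have hZsub : ((Subgroup.centralizer {s} : Subgroup D) : Set D) ⊆
      ((Tf ∪ Tf.image (fun c => s * c) : Finset D) : Set D) := by
    intro z hz
    have hz' : s * z = z * s := by
      have := Subgroup.mem_centralizer_iff.1 hz s (Set.mem_singleton s)
      exact this
    rw [Finset.mem_coe, Finset.mem_union]
    by_cases hzC : z ∈ C
    · left
      exact (hTf z).2 ⟨hzC, hcen s hsC z hzC hz'⟩
    · right
      rw [Finset.mem_image]
      refine ⟨s⁻¹ * z, (hTf _).2 ⟨hidx s z hsC hzC, ?_⟩, by group⟩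
      apply hcen s hsC _ (hidx s z hsC hzC)
      rw [mul_inv_cancel_left, mul_assoc, ← hz', inv_mul_cancel_left]
  have hZc : Nat.card (Subgroup.centralizer {s} : Subgroup D) ≤ 4 := by
    have h5 := Set.ncard_le_ncard hZsub (Finset.finite_toSet _)
    rw [Set.ncard_coe_finset] at h5
    have h6 : ((Subgroup.centralizer {s} : Subgroup D) : Set D).ncard =
        Nat.card (Subgroup.centralizer {s} : Subgroup D) := (Nat.card_coe_set_eq _).symm
    have h7 : (Tf ∪ Tf.image (fun c => s * c)).card ≤ Tf.card + Tf.card :=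
      le_trans (Finset.card_union_le _ _) (Nat.add_le_add_left Finset.card_image_le _)
    omega
  have hVZ : V ≤ Subgroup.centralizer {s} := by
    intro v hv
    rw [Subgroup.mem_centralizer_iff]
    intro h hh
    rw [Set.mem_singleton_iff.1 hh]
    exact hcomm s hsV v hv
  have hEq : V = Subgroup.centralizer {s} :=
    Subgroup.eq_of_le_of_card_ge hVZ (le_trans hZc h4)
  rw [hEq, Subgroup.mem_centralizer_iff]
  intro h hh
  rw [Set.mem_singleton_iff.1 hh]
  exact (hg s hsV).symm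

theorem good_dihedral (m : ℕ) : Good (DihedralGroup m) := by
  have hmem : ∀ g : DihedralGroup m, g ∈ Subgroup.zpowers (DihedralGroup.r (1 : ZMod m)) ↔
      ∃ i, g = DihedralGroup.r i := by
    intro g
    rw [Subgroup.mem_zpowers_iff]
    constructor
    · rintro ⟨k, rfl⟩
      exact ⟨_, DihedralGroup.r_one_zpow k⟩
    · rintro ⟨i, rfl⟩
      obtain ⟨k, rfl⟩ := ZMod.intCast_surjective i
      exact ⟨k, DihedralGroup.r_one_zpow k⟩
  refine ⟨Subgroup.zpowers (DihedralGroup.r (1 : ZMod m)), inferInstance, ?_, ?_⟩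
  · intro g h hg hh
    rw [hmem] at hg hh ⊢
    cases g with
    | r i => exact absurd ⟨i, rfl⟩ hg
    | sr i =>
      cases h with
      | r j => exact absurd ⟨j, rfl⟩ hh
      | sr j => exact ⟨j - i, by rw [DihedralGroup.inv_sr, DihedralGroup.sr_mul_sr]⟩
  · intro s hs c hc hsc
    rw [hmem] at hs hc
    obtain ⟨j, rfl⟩ := hc
    cases s with
    | r i => exact absurd ⟨i, rfl⟩ hs
    | sr i =>
      rw [DihedralGroup.sr_mul_r, DihedralGroup.r_mul_sr] at hsc
      have h1 : i + j = i - j := by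
        injection hsc
      have h2 : j + j = 0 := by
        have : j = -j := by
          have h3 := congrArg (fun z => z - i) h1
          simpa [sub_eq_add_neg, add_comm, add_left_comm] using h3
        calc j + j = j + -j := by rw [← this]
          _ = 0 := add_neg_cancel j
      rw [pow_two, DihedralGroup.r_mul_r, h2]
      rfl

theorem good_qd {D : Type*} [Group D] [Finite D] {n : ℕ} (hn : 3 ≤ n)
    (hcard : Nat.card D = 2 ^ (n + 1)) {x y : D} (hx : orderOf x = 2 ^ n)
    (hxy : y * x * y⁻¹ = x ^ (2 ^ (n - 1) - 1)) : Good D := by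
  obtain ⟨m, rfl⟩ : ∃ m, n = m + 3 := ⟨n - 3, by omega⟩
  have he : 2 ^ (m + 3 - 1) - 1 + 1 = 2 ^ (m + 2) := by
    have : m + 3 - 1 = m + 2 := by omega
    rw [this]
    have : 1 ≤ 2 ^ (m + 2) := Nat.one_le_two_pow
    omega
  have hidx : (Subgroup.zpowers x).index = 2 := by
    have h1 := Subgroup.card_mul_index (Subgroup.zpowers x)
    rw [Nat.card_zpowers, hx, hcard, pow_succ] at h1
    exact Nat.eq_of_mul_eq_mul_left (by positivity) h1
  -- conjugation by `y` on the cyclic subgroup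
  have hconj : ∀ c ∈ Subgroup.zpowers x, y * c * y⁻¹ = c ^ (2 ^ (m + 3 - 1) - 1) := by
    intro c hc
    obtain ⟨k, rfl⟩ := Subgroup.mem_zpowers_iff.1 hc
    have h1 : y * x ^ k * y⁻¹ = (y * x * y⁻¹) ^ k := (conj_zpow).symm
    rw [h1, hxy, ← zpow_natCast, ← zpow_natCast, ← zpow_mul, ← zpow_mul, mul_comm]
  have hkey : ∀ c ∈ Subgroup.zpowers x, y * c * y⁻¹ = c → c ^ 2 = 1 := by
    intro c hc h
    rw [hconj c hc] at h
    have h1 : c ^ (2 ^ (m + 2)) = c ^ 2 := by
      rw [← he, pow_succ, h, pow_two]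
    have h2 : c ^ (2 ^ (m + 3)) = 1 := by
      obtain ⟨k, rfl⟩ := Subgroup.mem_zpowers_iff.1 hc
      rw [← zpow_natCast, ← zpow_mul, mul_comm, zpow_mul, zpow_natCast, ← hx, pow_orderOf_eq_one,
        one_zpow]
    have h3 : c ^ 4 = 1 := by
      calc c ^ 4 = (c ^ 2) ^ 2 := by rw [← pow_mul]
        _ = (c ^ (2 ^ (m + 2))) ^ 2 := by rw [h1]
        _ = c ^ (2 ^ (m + 3)) := by rw [← pow_mul, ← pow_succ]
        _ = 1 := h2
    rw [← h1, show 2 ^ (m + 2) = 4 * 2 ^ m by ring, pow_mul, h3, one_pow]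
  have hy : y ∉ Subgroup.zpowers x := by
    intro hy
    have hcomm : y * x * y⁻¹ = x := by
      obtain ⟨k, rfl⟩ := Subgroup.mem_zpowers_iff.1 hy
      rw [← zpow_add_one, ← zpow_neg, ← zpow_add]
      simp
    have h1 := hkey x (Subgroup.mem_zpowers x) hcomm
    have h2 := orderOf_dvd_of_pow_eq_one h1
    rw [hx] at h2
    have h3 := Nat.le_of_dvd two_pos h2
    have h4 : 2 ^ 3 ≤ 2 ^ (m + 3) := Nat.pow_le_pow_right two_pos (by omega)
    omega
  refine ⟨Subgroup.zpowers x, inferInstance, ?_, ?_⟩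
  · intro g h hg hh
    rw [Subgroup.mul_mem_iff_of_index_two hidx, Subgroup.inv_mem_iff]
    exact ⟨fun h' => absurd h' hg, fun h' => absurd h' hh⟩
  · intro s hs c hc hsc
    have hd : y⁻¹ * s ∈ Subgroup.zpowers x := by
      rw [Subgroup.mul_mem_iff_of_index_two hidx, Subgroup.inv_mem_iff]
      exact ⟨fun h' => absurd h' hy, fun h' => absurd h' hs⟩
    apply hkey c hc
    -- `d = y⁻¹ s` commutes with `c`
    have hdc : (y⁻¹ * s) * c = c * (y⁻¹ * s) := by
      obtain ⟨k, hk⟩ := Subgroup.mem_zpowers_iff.1 hd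
      obtain ⟨l, hl⟩ := Subgroup.mem_zpowers_iff.1 hc
      rw [← hk, ← hl, ← zpow_add, ← zpow_add, add_comm]
    have h1 : y⁻¹ * (c * s) = c * (y⁻¹ * s) := by rw [← hsc, ← mul_assoc]; exact hdc
    have h2 : y⁻¹ * c = c * y⁻¹ := by
      have := congrArg (fun z => z * s⁻¹) h1
      simpa [mul_assoc] using this
    calc y * c * y⁻¹ = y * (c * y⁻¹) := by rw [mul_assoc]
      _ = y * (y⁻¹ * c) := by rw [h2]
      _ = c := by rw [mul_inv_cancel_left]

end Cfsg.Agent.Lib.Helper94.FSC
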