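import Mathlib

set_option autoImplicit false
open scoped Pointwise

namespace Cfsg.Agent.Lib.Helper94

/-- restriction of a permutation action to an invariant finite set. -/
def restrictHom {G α : Type*} [Group G] (ι : G →* Equiv.Perm α) (A : Finset α)
    (hA : ∀ g x, ι g x ∈ A ↔ x ∈ A) : G →* Equiv.Perm ↥A where
  toFun g := (ι g).subtypePerm (hA g)
  map_one' := by
    ext x
    simp
  map_mul' g h := by
    ext x
    simp only [Equiv.Perm.subtypePerm_apply, Equiv.Perm.mul_apply, map_mul]

theorem restrictHom_apply {G α : Type*} [Group G] (ι : G →* Equiv.Perm α) (A : Finset α)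
    (hA : ∀ g x, ι g x ∈ A ↔ x ∈ A) (g : G) (x : ↥A) : ((restrictHom ι A hA g x : ↥A) : α) = ι g x := rfl

theorem restrictHom_injective {G α : Type*} [Group G] (ι : G →* Equiv.Perm α) (A : Finset α)
    (hA : ∀ g x, ι g x ∈ A ↔ x ∈ A) (hf : ∀ g, (∀ x ∈ A, ι g x = x) → g = 1) :
    Function.Injective (restrictHom ι A hA) := by
  rw [injective_iff_map_eq_one]
  intro g hg
  apply hf
  intro x hx
  have := congrArg (fun σ : Equiv.Perm ↥A => ((σ ⟨x, hx⟩ : ↥A) : α)) hg
  simpa [restrictHom_apply] using this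

/-- a group acting faithfully on an `n`-set and inducing all permutations is the symmetric group. -/
theorem mulEquiv_perm_of_surj {G α : Type*} [Group G] (ι : G →* Equiv.Perm α)
    (A : Finset α) {n : ℕ} (hn : A.card = n) (hA : ∀ g x, ι g x ∈ A ↔ x ∈ A)
    (hf : ∀ g, (∀ x ∈ A, ι g x = x) → g = 1)
    (hs : ∀ σ : Equiv.Perm ↥A, ∃ g, ∀ x : ↥A, ι g x = σ x) : Nonempty (G ≃* Equiv.Perm (Fin n)) := by
  have hb : Function.Bijective (restrictHom ι A hA) := by
    refine ⟨restrictHom_injective ι A hA hf, ?_⟩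
    intro σ
    obtain ⟨g, hg⟩ := hs σ
    refine ⟨g, ?_⟩
    ext x
    rw [restrictHom_apply, hg]
  exact ⟨(MulEquiv.ofBijective _ hb).trans (A.equivFinOfCardEq hn).permCongrHom⟩

/-- a group of order `n!` acting faithfully on an `n`-set is the symmetric group. -/
theorem mulEquiv_perm_of_card {G α : Type*} [Group G] (ι : G →* Equiv.Perm α)
    (A : Finset α) {n : ℕ} (hn : A.card = n) (hA : ∀ g x, ι g x ∈ A ↔ x ∈ A)
    (hf : ∀ g, (∀ x ∈ A, ι g x = x) → g = 1)
    (hc : Nat.card G = n.factorial) : Nonempty (G ≃* Equiv.Perm (Fin n)) := by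
  classical
  have hb : Function.Bijective (restrictHom ι A hA) := by
    apply (restrictHom_injective ι A hA hf).bijective_of_nat_card_le
    rw [hc, Nat.card_eq_fintype_card, Fintype.card_perm, Fintype.card_coe, hn]
  exact ⟨(MulEquiv.ofBijective _ hb).trans (A.equivFinOfCardEq hn).permCongrHom⟩

end Cfsg.Agent.Lib.Helper94
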