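import Mathlib
import Cfsg.Prelude.Def_Sporadic_a
import Cfsg.Prelude.Def_SporadicCombinatorics
import Cfsg.Agent.Lib.Helper94.GolayBase
import Cfsg.Agent.Lib.Helper94.PermIso
import Cfsg.Agent.Lib.Helper9.M12Gen

set_option autoImplicit false
open scoped Pointwise

namespace Cfsg.Agent.Lib.Helper94

theorem exists_emb5 {α : Type*} (B : Finset α) (h : 5 ≤ B.card) : ∃ x : Fin 5 ↪ α, ∀ i, x i ∈ B := by
  have : Fintype.card (Fin 5) ≤ Fintype.card ↥B := by simpa using h
  obtain ⟨e⟩ := Function.Embedding.nonempty_of_card_le this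
  exact ⟨e.trans (Function.Embedding.subtype _), fun i => (e i).2⟩

/-- an element of the stabiliser of a dodecad fixing five of its points is trivial. -/
theorem m12_fix5 {d : Finset GolayPt} (hd : d ∈ dodecads) {B : Finset GolayPt} (hB : B ⊆ d) (h5 : 5 ≤ B.card)
    {g : ↥M24} (hg : g ∈ MulAction.stabilizer M24 d) (hf : ∀ p ∈ B, (g : Equiv.Perm GolayPt) p = p) : g = 1 := by
  obtain ⟨x, hx⟩ := exists_emb5 B h5
  obtain ⟨g0, _, huniq⟩ := Cfsg.Agent.Lib.Helper9.m12_sharp d hd x x (fun i => hB (hx i)) (fun i => hB (hx i))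
  have h1 := huniq ⟨g, hg⟩ (fun i => hf _ (hx i))
  have h2 := huniq 1 (fun i => rfl)
  have h3 : (⟨g, hg⟩ : MulAction.stabilizer M24 d) = 1 := h1.trans h2.symm
  exact congrArg Subtype.val h3

/-- two permutations of a 6-set agreeing on five points are equal. -/
theorem perm_eq_of_agree5 {β : Type*} [Fintype β] [DecidableEq β] (hc : Fintype.card β = 6) (σ τ : Equiv.Perm β)
    (x : Fin 5 ↪ β) (h : ∀ i, τ (x i) = σ (x i)) : τ = σ := by
  have hR : (Finset.univ.map x).card = 5 := by simp
  have hcompl : ((Finset.univ.map x)ᶜ).card = 1 := by rw [Finset.card_compl, hc, hR]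
  obtain ⟨z, hz⟩ := Finset.card_eq_one.1 hcompl
  have hmem : ∀ u, u ∉ Finset.univ.map x → u = z := by
    intro u hu
    have : u ∈ (Finset.univ.map x)ᶜ := Finset.mem_compl.2 hu
    rw [hz, Finset.mem_singleton] at this
    exact this
  ext u
  by_cases hu : u ∈ Finset.univ.map x
  · obtain ⟨i, _, rfl⟩ := Finset.mem_map.1 hu
    exact h i
  · -- both images avoid the images of the five points
    have key : ∀ ρ : Equiv.Perm β, (∀ i, ρ (x i) = σ (x i)) → σ⁻¹ (ρ u) = z := by
      intro ρ hρ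
      apply hmem
      intro hm
      obtain ⟨i, _, hi⟩ := Finset.mem_map.1 hm
      apply hu
      have : ρ u = ρ (x i) := by rw [hρ i, hi]; simp
      rw [ρ.injective this]
      exact Finset.mem_map.2 ⟨i, Finset.mem_univ _, rfl⟩
    have h1 := key τ h
    have h2 := key σ (fun _ => rfl)
    exact σ⁻¹.injective (h1.trans h2.symm)

theorem smul_mem_iff_of_smul_eq {g : Equiv.Perm GolayPt} {A : Finset GolayPt} (h : g • A = A) (x : GolayPt) :
    g x ∈ A ↔ x ∈ A := by
  conv_lhs => rw [← h]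
  exact Finset.smul_mem_smul_finset_iff g

end Cfsg.Agent.Lib.Helper94
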