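import Cfsg.Agent.Lib.Helper94.M24Idx1
import Cfsg.Agent.Lib.Helper94.SextetStab

set_option autoImplicit false
open scoped Pointwise

namespace Cfsg.Agent.Lib.Helper94.M24I

open Cfsg Cfsg.Agent.Lib.Helper94 Cfsg.Agent.Lib.Helper94.M23S

/-! ### the orbit containing the complement of the octad -/

theorem smul_eq_of_inv (k : Equiv.Perm GolayPt) (Y : Finset GolayPt) (h : ∀ y ∈ Y, k y ∈ Y) :
    k • Y = Y := (smul_eq_iff_forall k Y).2 h

theorem orbit_analysis (K : Subgroup (Equiv.Perm GolayPt)) (hK : K ≤ M24) {o : Finset GolayPt}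
    (ho : o ∈ octads) (hE : EP K o) :
    ∃ Y : Finset GolayPt, Y ⊆ o ∧ (∀ k ∈ K, ∀ y ∈ Y, k y ∈ Y) ∧
      (∀ z z', z ∉ Y → z' ∉ Y → ∃ k ∈ K, k z = z') ∧ (24 - Y.card) ∣ Nat.card K ∧
      (Y = o ∨ Y.card ≤ 4) := by
  classical
  obtain ⟨z0, hz0⟩ : ∃ z0, z0 ∉ o := exists_not_mem o (by rw [octad_card ho]; norm_num)
  obtain ⟨Y, memY⟩ : ∃ Y : Finset GolayPt, ∀ y, y ∈ Y ↔ y ∉ MulAction.orbit K z0 :=
    ⟨Finset.univ.filter (fun y => y ∉ MulAction.orbit K z0), by intro y; simp⟩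
  have hYo : Y ⊆ o := by
    intro y hy
    by_contra hyo
    obtain ⟨k, hk, _, e⟩ := hE z0 y hz0 hyo
    exact (memY y).1 hy ⟨⟨k, hk⟩, e⟩
  have hYinv : ∀ k ∈ K, ∀ y ∈ Y, k y ∈ Y := by
    intro k hk y hy
    rw [memY] at hy ⊢
    rintro ⟨⟨k', hk'⟩, e⟩
    apply hy
    refine ⟨⟨k⁻¹ * k', K.mul_mem (K.inv_mem hk) hk'⟩, ?_⟩
    show (k⁻¹ * k') z0 = y
    have e' : k' z0 = k y := e
    rw [Equiv.Perm.mul_apply, e']
    exact k.symm_apply_apply y
  have hcardY : Y.card + (MulAction.orbit K z0).ncard = 24 := by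
    have h1 : (MulAction.orbit K z0) = ((Yᶜ : Finset GolayPt) : Set GolayPt) := by
      ext y
      rw [Finset.mem_coe, Finset.mem_compl, memY, not_not]
    rw [h1, Set.ncard_coe_finset, Finset.card_add_card_compl, card_golayPt]
  refine ⟨Y, hYo, hYinv, ?_, ?_, ?_⟩
  · intro z z' hz hz'
    rw [memY, not_not] at hz hz'
    obtain ⟨⟨a, ha⟩, ea⟩ := hz
    obtain ⟨⟨b, hb⟩, eb⟩ := hz'
    have ea' : a z0 = z := ea
    have eb' : b z0 = z' := eb
    refine ⟨b * a⁻¹, K.mul_mem hb (K.inv_mem ha), ?_⟩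
    rw [Equiv.Perm.mul_apply, ← ea']
    have : a⁻¹ (a z0) = z0 := a.symm_apply_apply _
    rw [this, eb']
  · have : 24 - Y.card = (MulAction.orbit K z0).ncard := by omega
    rw [this]; exact ⟨_, card_eq_orbit_mul K z0⟩
  · by_cases h4 : Y.card ≤ 4
    · right; exact h4
    · left
      have hKo : ∀ k ∈ K, k • o = o := by
        intro k hk
        apply octad_eq_of_inter ((smul_mem_octads_iff (hK hk) o).2 ho) ho
        have hsub : Y ⊆ k • o ∩ o := by
          intro y hy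
          rw [Finset.mem_inter]
          refine ⟨?_, hYo hy⟩
          have hy' : k⁻¹ y ∈ Y := hYinv _ (K.inv_mem hk) y hy
          have := Finset.smul_mem_smul_finset (a := k) (hYo hy')
          have e : k • (k⁻¹ y) = y := k.apply_symm_apply y
          rwa [e] at this
        have := Finset.card_le_card hsub
        omega
      apply Finset.Subset.antisymm hYo
      intro w hw
      by_contra hwY
      rw [memY, not_not] at hwY
      obtain ⟨⟨k, hk⟩, e⟩ := hwY
      have e' : k z0 = w := e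
      apply hz0
      have h1 := smul_mem_of_smul_eq (hKo _ (K.inv_mem hk)) w hw
      rw [← e'] at h1
      have : k⁻¹ (k z0) = z0 := k.symm_apply_apply _
      rwa [this] at h1

/-! ### invariant sets of point stabilisers in a transitive group -/

/-- `T` contains `v` and is invariant under the stabiliser of `v`. -/
def Good (H : Subgroup (Equiv.Perm GolayPt)) (v : GolayPt) (T : Finset GolayPt) : Prop :=
  v ∈ T ∧ ∀ k ∈ St H v, ∀ y ∈ T, k y ∈ T

theorem Good.smul {H : Subgroup (Equiv.Perm GolayPt)} {x : GolayPt} {T : Finset GolayPt}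
    (hT : Good H x T) {h : Equiv.Perm GolayPt} (hh : h ∈ H) : Good H (h x) (h • T) := by
  refine ⟨Finset.smul_mem_smul_finset hT.1, ?_⟩
  intro k hk y hy
  obtain ⟨y', hy', rfl⟩ := Finset.mem_smul_finset.1 hy
  have h1 := hT.2 _ ((conj_mem_St hh).1 hk) y' hy'
  have h2 := Finset.smul_mem_smul_finset (a := h) h1
  have e : h • ((h⁻¹ * k * h) y') = k (h • y') := by
    show h ((h⁻¹ * k * h) y') = k (h y')
    rw [Equiv.Perm.mul_apply, Equiv.Perm.mul_apply]
    exact h.apply_symm_apply _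
  rwa [e] at h2

theorem EP.smul {H : Subgroup (Equiv.Perm GolayPt)} {o : Finset GolayPt} (hE : EP H o)
    {h : Equiv.Perm GolayPt} (hh : h ∈ H) : EP H (h • o) := by
  have mem_o : ∀ z, z ∈ h • o ↔ h⁻¹ z ∈ o := by
    intro z
    rw [← Finset.inv_smul_mem_iff]; rfl
  intro z z' hz hz'
  rw [mem_o] at hz hz'
  obtain ⟨e, he, h1, h2⟩ := hE _ _ hz hz'
  refine ⟨h * e * h⁻¹, H.mul_mem (H.mul_mem hh he) (H.inv_mem hh), ?_, ?_⟩
  · intro v hv
    rw [mem_o] at hv
    rw [Equiv.Perm.mul_apply, Equiv.Perm.mul_apply, h1 _ hv]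
    exact h.apply_symm_apply v
  · rw [Equiv.Perm.mul_apply, Equiv.Perm.mul_apply, h2]
    exact h.apply_symm_apply z'

/-- transitivity on the points. -/
def Tr (H : Subgroup (Equiv.Perm GolayPt)) : Prop := ∀ x y : GolayPt, ∃ h ∈ H, h x = y

theorem card_St_of_Tr {H : Subgroup (Equiv.Perm GolayPt)} (htr : Tr H) (x : GolayPt) :
    Nat.card H = 24 * Nat.card (St H x) := by
  have h := card_St H x
  have horb : MulAction.orbit H x = Set.univ := by
    ext y
    simp only [Set.mem_univ, iff_true]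
    obtain ⟨h, hh, e⟩ := htr x y
    exact ⟨⟨h, hh⟩, e⟩
  have h24 : Nat.card GolayPt = 24 := by rw [Nat.card_eq_fintype_card, card_golayPt]
  rwa [horb, Set.ncard_univ, h24] at h

theorem good_exists {H : Subgroup (Equiv.Perm GolayPt)} (htr : Tr H) {x : GolayPt}
    {T : Finset GolayPt} (hT : Good H x T) (v : GolayPt) :
    ∃ h ∈ H, h x = v ∧ Good H v (h • T) := by
  obtain ⟨h, hh, e⟩ := htr x v
  refine ⟨h, hh, e, ?_⟩
  have := hT.smul hh
  rwa [e] at this

/-- the block property: sets with fewer than `p` points which fill the fixed point set of the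
elements of order `p`. -/
theorem block {H : Subgroup (Equiv.Perm GolayPt)} {p n : ℕ} [Fact p.Prime] (hnp : n < p)
    (hFx : ∀ t ∈ H, orderOf t = p → (Fx t).card = n) {x v : GolayPt} {T T' : Finset GolayPt}
    (hp : p ∣ Nat.card (St H x)) (hT : Good H x T) (hTc : T.card = n) (hv : v ∈ T)
    (hT' : Good H v T') (hTc' : T'.card = n) : T' = T := by
  obtain ⟨t, ht, hto⟩ := exists_order _ p hp
  have hf1 := fix_of_prime t (Fact.out) hto T (hT.2 t ht) (by omega)
  have htv : t ∈ St H v := mem_St.2 ⟨(mem_St.1 ht).1, hf1 v hv⟩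
  have hf2 := fix_of_prime t (Fact.out) hto T' (hT'.2 t htv) (by omega)
  have hc := hFx t (mem_St.1 ht).1 hto
  have e1 : T = Fx t := Finset.eq_of_subset_of_card_le (fun y hy => mem_Fx.2 (hf1 y hy))
    (by rw [hc, hTc])
  have e2 : T' = Fx t := Finset.eq_of_subset_of_card_le (fun y hy => mem_Fx.2 (hf2 y hy))
    (by rw [hc, hTc'])
  rw [e1, e2]

/-! ### no invariant triple -/

theorem no_tri {H : Subgroup (Equiv.Perm GolayPt)} (hH : H ≤ M24) (htr : Tr H) {x : GolayPt}
    {T : Finset GolayPt} (hT : Good H x T) (hT3 : T.card = 3)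
    (h5 : 5 ∣ Nat.card (St H x)) (h7 : ∀ v, 7 ∣ Nat.card (St H v)) : False := by
  have f5 : Fact (Nat.Prime 5) := ⟨by norm_num⟩
  have f7 : Fact (Nat.Prime 7) := ⟨by norm_num⟩
  have hFx : ∀ t ∈ H, orderOf t = 7 → (Fx t).card = 3 := fun t ht h => card_Fx7 (hH ht) h
  obtain ⟨t, ht, hto⟩ := exists_order _ 5 h5
  have hc := card_Fx5 (hH (mem_St.1 ht).1) hto
  have hf1 := fix_of_prime t (by norm_num) hto T (hT.2 t ht) (by omega)
  have hs1 : T ⊆ Fx t := fun y hy => mem_Fx.2 (hf1 y hy)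
  obtain ⟨u, hu, huT⟩ := Finset.exists_mem_notMem_of_card_lt_card
    (by rw [hT3, hc]; norm_num : T.card < (Fx t).card)
  obtain ⟨h, hh, _, hTu⟩ := good_exists htr hT u
  have hcu : (h • T).card = 3 := by rw [Finset.card_smul_finset, hT3]
  have htu : t ∈ St H u := mem_St.2 ⟨(mem_St.1 ht).1, mem_Fx.1 hu⟩
  have hf2 := fix_of_prime t (by norm_num) hto _ (hTu.2 t htu) (by omega)
  have hs2 : h • T ⊆ Fx t := fun y hy => mem_Fx.2 (hf2 y hy)
  obtain ⟨v, hv⟩ := Finset.inter_nonempty_of_card_lt_card_add_card hs1 hs2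
    (by rw [hc, hT3, hcu]; norm_num)
  rw [Finset.mem_inter] at hv
  obtain ⟨h', _, _, hTv⟩ := good_exists htr hT v
  have hcv : (h' • T).card = 3 := by rw [Finset.card_smul_finset, hT3]
  have e1 := block (p := 7) (n := 3) (by norm_num) hFx (h7 x) hT hT3 hv.1 hTv hcv
  have e2 := block (p := 7) (n := 3) (by norm_num) hFx (h7 u) hTu hcu hv.2 hTv hcv
  apply huT
  rw [← e1, e2]
  exact hTu.1

/-! ### no invariant octad -/

theorem good_unique {H : Subgroup (Equiv.Perm GolayPt)} {v : GolayPt} {O O' : Finset GolayPt}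
    (hO : Good H v O) (hOo : O ∈ octads) (hO' : O' ∈ octads) (hv : v ∈ O') (hE : EP H O') :
    O = O' := by
  apply Finset.eq_of_subset_of_card_le
  · apply subset_of_EP hO' hE O _ (by rw [octad_card hOo]; norm_num)
    intro e he hfix y hy
    exact hO.2 e (mem_St.2 ⟨he, hfix v hv⟩) y hy
  · rw [octad_card hOo, octad_card hO']

theorem card_inter_oct {t : Equiv.Perm GolayPt} (ht : t ∈ M24) (hto : orderOf t = 5)
    {O : Finset GolayPt} (hO : O ∈ octads) (hinv : ∀ y ∈ O, t y ∈ O) : (O ∩ Fx t).card = 3 := by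
  have f5 : Fact (Nat.Prime 5) := ⟨by norm_num⟩
  have h1 := card_inter_Fx_modEq t hto O hinv
  rw [octad_card hO] at h1
  have h2 : (O ∩ Fx t).card ≤ 4 := by
    rw [← card_Fx5 ht hto]; exact Finset.card_le_card Finset.inter_subset_right
  unfold Nat.ModEq at h1
  omega

theorem no_oct {H : Subgroup (Equiv.Perm GolayPt)} (hH : H ≤ M24) (htr : Tr H) {x : GolayPt}
    {o : Finset GolayPt} (ho : o ∈ octads) (hT : Good H x o) (hE : EP H o)
    (h5 : 5 ∣ Nat.card (St H x)) : False := by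
  have f5 : Fact (Nat.Prime 5) := ⟨by norm_num⟩
  obtain ⟨t, ht, hto⟩ := exists_order _ 5 h5
  have htM : t ∈ M24 := hH (mem_St.1 ht).1
  have hc := card_Fx5 htM hto
  have hc1 := card_inter_oct htM hto ho (hT.2 t ht)
  obtain ⟨u, hu, huo⟩ := Finset.exists_mem_notMem_of_card_lt_card
    (by rw [hc1, hc]; norm_num : (o ∩ Fx t).card < (Fx t).card)
  have huo' : u ∉ o := fun h => huo (Finset.mem_inter.2 ⟨h, hu⟩)
  obtain ⟨h, hh, _, hTu⟩ := good_exists htr hT u
  have hou : h • o ∈ octads := (smul_mem_octads_iff (hH hh) o).2 ho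
  have htu : t ∈ St H u := mem_St.2 ⟨(mem_St.1 ht).1, mem_Fx.1 hu⟩
  have hc2 := card_inter_oct htM hto hou (hTu.2 t htu)
  obtain ⟨v, hv⟩ := Finset.inter_nonempty_of_card_lt_card_add_card
    (Finset.inter_subset_right (s₁ := o) (s₂ := Fx t))
    (Finset.inter_subset_right (s₁ := h • o) (s₂ := Fx t)) (by rw [hc, hc1, hc2]; norm_num)
  simp only [Finset.mem_inter] at hv
  obtain ⟨h', hh', _, hTv⟩ := good_exists htr hT v
  have hov : h' • o ∈ octads := (smul_mem_octads_iff (hH hh') o).2 ho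
  have e1 := good_unique hTv hov ho hv.1.1 hE
  have e2 := good_unique hTv hov hou hv.2.1 (hE.smul hh)
  apply huo'
  rw [← e1, e2]
  exact hTu.1

/-! ### an invariant tetrad gives an invariant sextet -/

theorem sextet_case {H : Subgroup (Equiv.Perm GolayPt)} (hH : H ≤ M24) (htr : Tr H) {x : GolayPt}
    {T : Finset GolayPt} (hT : Good H x T) (hT4 : T.card = 4)
    (htrT : ∀ z z', z ∉ T → z' ∉ T → ∃ k ∈ St H x, k z = z')
    {o : Finset GolayPt} (ho : o ∈ octads) (hTo : T ⊆ o) (hE : EP H o)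
    (h5 : ∀ v, 5 ∣ Nat.card (St H v)) : ∀ h ∈ H, h • sextetOf T = sextetOf T := by
  have f5 : Fact (Nat.Prime 5) := ⟨by norm_num⟩
  have hFx : ∀ t ∈ H, orderOf t = 5 → (Fx t).card = 4 := fun t ht h => card_Fx5 (hH ht) h
  intro h hh
  rw [smul_sextetOf (hH hh) hT4]
  have hTz := hT.smul hh
  have hcz : (h • T).card = 4 := by rw [Finset.card_smul_finset, hT4]
  by_cases hz : h x ∈ T
  · rw [block (p := 5) (n := 4) (by norm_num) hFx (h5 x) hT hT4 hz hTz hcz]
  · obtain ⟨z0, hz0o, hz0T⟩ := Finset.exists_mem_notMem_of_card_lt_card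
      (by rw [hT4, octad_card ho]; norm_num : T.card < o.card)
    obtain ⟨k, hk, ek⟩ := htrT z0 (h x) hz0T hz
    have hkH : k ∈ H := (mem_St.1 hk).1
    have hT0 := hTz.smul (H.inv_mem hkH)
    have ez0 : k⁻¹ (h x) = z0 := by rw [← ek]; exact k.symm_apply_apply z0
    rw [ez0] at hT0
    have hc0 : (k⁻¹ • h • T).card = 4 := by rw [Finset.card_smul_finset, hcz]
    have hsub : k⁻¹ • h • T ⊆ o := by
      apply subset_of_EP ho hE _ _ (by rw [hc0]; norm_num)
      intro e he hfix y hy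
      exact hT0.2 e (mem_St.2 ⟨he, hfix z0 hz0o⟩) y hy
    have hdis : Disjoint T (k⁻¹ • h • T) := by
      rw [Finset.disjoint_left]
      intro v hv1 hv2
      obtain ⟨h', _, _, hTv⟩ := good_exists htr hT v
      have hcv : (h' • T).card = 4 := by rw [Finset.card_smul_finset, hT4]
      have e1 := block (p := 5) (n := 4) (by norm_num) hFx (h5 x) hT hT4 hv1 hTv hcv
      have e2 := block (p := 5) (n := 4) (by norm_num) hFx (h5 z0) hT0 hc0 hv2 hTv hcv
      apply hz0T
      rw [← e1, e2]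
      exact hT0.1
    have hun : T ∪ k⁻¹ • h • T = o := by
      apply Finset.eq_of_subset_of_card_le (Finset.union_subset hTo hsub)
      rw [Finset.card_union_of_disjoint hdis, hT4, hc0, octad_card ho]
    have hsd : symmDiff T (k⁻¹ • h • T) ∈ Csup := by
      rw [Disjoint.symmDiff_eq_sup hdis]
      show T ∪ k⁻¹ • h • T ∈ Csup
      rw [hun]; exact ho.1
    have e1 := (sextetOf_eq_iff hT4 hc0).2 hsd
    have e2 : k • sextetOf T = k • sextetOf (k⁻¹ • h • T) := by rw [e1]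
    rw [smul_sextetOf (hH hkH) hT4, smul_sextetOf (hH hkH) hc0, smul_inv_smul,
      smul_eq_of_inv k T (hT.2 k hk)] at e2
    exact e2.symm

end Cfsg.Agent.Lib.Helper94.M24I
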