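import Cfsg.Agent.Lib.Helper94.M24Idx2
import Cfsg.Agent.Lib.Helper34.OctStab

set_option autoImplicit false
open scoped Pointwise

namespace Cfsg.Agent.Lib.Helper94.M24I

open Cfsg Cfsg.Agent.Lib.Helper94 Cfsg.Agent.Lib.Helper94.M23S

/-! ### orbits as finite sets -/

theorem exists_orbit (K : Subgroup (Equiv.Perm GolayPt)) (y : GolayPt) :
    ∃ Ω : Finset GolayPt, y ∈ Ω ∧ (∀ k ∈ K, ∀ w ∈ Ω, k w ∈ Ω) ∧ (∀ w ∈ Ω, ∃ k ∈ K, k y = w) ∧
      Nat.card K = Ω.card * Nat.card (St K y) := by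
  classical
  obtain ⟨Ω, memΩ⟩ : ∃ Ω : Finset GolayPt, ∀ w, w ∈ Ω ↔ w ∈ MulAction.orbit K y :=
    ⟨Finset.univ.filter (fun w => w ∈ MulAction.orbit K y), by intro w; simp⟩
  refine ⟨Ω, (memΩ y).2 (MulAction.mem_orbit_self y), ?_, ?_, ?_⟩
  · intro k hk w hw
    rw [memΩ] at hw ⊢
    obtain ⟨⟨k', hk'⟩, e⟩ := hw
    have e' : k' y = w := e
    refine ⟨⟨k * k', K.mul_mem hk hk'⟩, ?_⟩
    show (k * k') y = k w
    rw [Equiv.Perm.mul_apply, e']
  · intro w hw
    rw [memΩ] at hw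
    obtain ⟨⟨k', hk'⟩, e⟩ := hw
    exact ⟨k', hk', e⟩
  · have h1 : (MulAction.orbit K y) = ((Ω : Finset GolayPt) : Set GolayPt) := by
      ext w
      rw [Finset.mem_coe, memΩ]
    have := card_St K y
    rwa [h1, Set.ncard_coe_finset] at this

/-! ### subgroups of odd index -/

theorem E0_le24 : E0 ≤ M24 := fun _ hg => (mem_fixG.1 hg).1

theorem relIndex_mul (H M : Subgroup (Equiv.Perm GolayPt)) (h : H ≤ M) :
    Nat.card H * H.relIndex M = Nat.card M := by
  have := Subgroup.relIndex_mul_relIndex (⊥ : Subgroup (Equiv.Perm GolayPt)) H M bot_le h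
  rwa [Subgroup.relIndex_bot_left, Subgroup.relIndex_bot_left] at this

theorem odd_cases {H : Subgroup (Equiv.Perm GolayPt)} (hH : H ≤ M24) (h2 : 1024 ∣ Nat.card H) :
    ∃ o ∈ octads, EP H o ∧ ((∀ h ∈ H, h • o = o) ∨ Tr H) := by
  have hodd : ¬ 2 ∣ H.relIndex M24 := by
    intro h
    have h1 := relIndex_mul H M24 hH
    rw [card_M24] at h1
    have h3 : 1024 * 2 ∣ Nat.card H * H.relIndex M24 := Nat.mul_dvd_mul h2 h
    rw [h1] at h3
    norm_num at h3
  obtain ⟨g, hg, hE⟩ := exists_EP M24 H E0_le24 hodd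
  have ho : g⁻¹ • unm 8536111 ∈ octads :=
    (smul_mem_octads_iff (M24.inv_mem hg) _).2 baseOctad_mem
  refine ⟨_, ho, hE, ?_⟩
  obtain ⟨Y, hYo, hYinv, hYtr, _, hY⟩ := orbit_analysis H hH ho hE
  rcases hY with hY | hY
  · left
    intro h hh
    rw [← hY]
    exact smul_eq_of_inv h Y (hYinv h hh)
  · right
    rcases Finset.eq_empty_or_nonempty Y with he | ⟨x, hx⟩
    · intro a b
      exact hYtr a b (by rw [he]; simp) (by rw [he]; simp)
    · exfalso
      obtain ⟨Ω, hxΩ, _, hΩ2, hΩ3⟩ := exists_orbit H x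
      have hn1 : 1 ≤ Ω.card := Finset.card_pos.2 ⟨_, hxΩ⟩
      have hsub : Ω ⊆ Y := by
        intro w hw
        obtain ⟨k, hk, e⟩ := hΩ2 w hw
        rw [← e]; exact hYinv k hk x hx
      have hn : Ω.card ≤ 4 := (Finset.card_le_card hsub).trans hY
      have hd : Nat.card (St H x) ∣ 10200960 := by
        rw [← card_St_M24 x]; exact Subgroup.card_dvd_of_le (St_mono hH x)
      rw [hΩ3] at h2
      have h256 : 256 ∣ Nat.card (St H x) := by
        generalize Nat.card (St H x) = c at h2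
        generalize Ω.card = n at h2 hn hn1
        interval_cases n <;> omega
      have := h256.trans hd
      norm_num at this

theorem St23_le {H : Subgroup (Equiv.Perm GolayPt)} (hH : H ≤ M24) : St H (pt 23) ≤ fixG [23] := by
  intro g hg
  rw [mem_St] at hg
  rw [mem_fixG]
  refine ⟨hH hg.1, ?_⟩
  intro t ht
  rw [List.mem_singleton.1 ht]; exact hg.2

theorem stage2 {H : Subgroup (Equiv.Perm GolayPt)} (hH : H ≤ M24)
    (h2 : 128 ∣ Nat.card (St H (pt 23))) :
    ∃ o ∈ octads, EP H o ∧ ∃ Y : Finset GolayPt, Y ⊆ o ∧ Good H (pt 23) Y ∧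
      (∀ z z', z ∉ Y → z' ∉ Y → ∃ k ∈ St H (pt 23), k z = z') ∧
      (24 - Y.card) ∣ Nat.card (St H (pt 23)) ∧ (Y = o ∨ Y.card ≤ 4) := by
  have hK := St23_le hH
  have hodd : ¬ 2 ∣ (St H (pt 23)).relIndex (fixG [23]) := by
    intro h
    have h1 := relIndex_mul _ _ hK
    rw [card_fixG1] at h1
    have h3 : 128 * 2 ∣ Nat.card (St H (pt 23)) * (St H (pt 23)).relIndex (fixG [23]) :=
      Nat.mul_dvd_mul h2 h
    rw [h1] at h3
    norm_num at h3
  obtain ⟨g, hg, hE⟩ := exists_EP (fixG [23]) _ E0_le hodd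
  have hgM : g ∈ M24 := (mem_fixG.1 hg).1
  have ho : g⁻¹ • unm 8536111 ∈ octads :=
    (smul_mem_octads_iff (M24.inv_mem hgM) _).2 baseOctad_mem
  refine ⟨_, ho, EP_mono (St_le H _) hE, ?_⟩
  obtain ⟨Y, hYo, hYinv, hYtr, hYd, hY⟩ := orbit_analysis _ ((St_le H _).trans hH) ho hE
  refine ⟨Y, hYo, ⟨?_, hYinv⟩, hYtr, hYd, hY⟩
  by_contra h23
  have hcY : Y.card ≤ 8 := by rw [← octad_card ho]; exact Finset.card_le_card hYo
  obtain ⟨z, hz⟩ := exists_not_mem (insert (pt 23) Y)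
    (lt_of_le_of_lt (Finset.card_insert_le _ _) (by omega))
  rw [Finset.mem_insert, not_or] at hz
  obtain ⟨k, hk, e⟩ := hYtr (pt 23) z h23 hz.2
  rw [(mem_St.1 hk).2] at e
  exact hz.1 e.symm

theorem no_four7 {H : Subgroup (Equiv.Perm GolayPt)} (hH : H ≤ M24) {x : GolayPt}
    {Y : Finset GolayPt} (hY : Good H x Y) (h4 : Y.card = 4) (h7 : 7 ∣ Nat.card (St H x)) :
    False := by
  have f7 : Fact (Nat.Prime 7) := ⟨by norm_num⟩
  obtain ⟨t, ht, hto⟩ := exists_order _ 7 h7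
  have hf := fix_of_prime t (by norm_num) hto Y (hY.2 t ht) (by omega)
  have := order_dvd_4 (hH (mem_St.1 ht).1) Y hf (by omega)
  rw [hto] at this
  norm_num at this

theorem le_octStab {H : Subgroup (Equiv.Perm GolayPt)} (hH : H ≤ M24) {o : Finset GolayPt}
    (h : ∀ h ∈ H, h • o = o) : H ≤ M24 ⊓ MulAction.stabilizer (Equiv.Perm GolayPt) o :=
  fun g hg => ⟨hH hg, MulAction.mem_stabilizer_iff.2 (h g hg)⟩

/-- index 253. -/
theorem part4 {H : Subgroup (Equiv.Perm GolayPt)} (hH : H ≤ M24) (hc : Nat.card H = 967680) :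
    False := by
  obtain ⟨o, ho, _, h | htr⟩ := odd_cases hH (by rw [hc]; norm_num)
  · have := Subgroup.card_dvd_of_le (le_octStab hH h)
    rw [hc, Cfsg.Agent.Lib.Helper34.card_octStab ho] at this
    norm_num at this
  · have hcs : ∀ v, Nat.card (St H v) = 40320 := by
      intro v
      have := card_St_of_Tr htr v
      omega
    obtain ⟨o, ho, hE, Y, _, hG, _, hd, hY⟩ := stage2 hH (by rw [hcs]; norm_num)
    rw [hcs] at hd
    rcases hY with rfl | hY
    · exact no_oct hH htr ho hG hE (by rw [hcs]; norm_num)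
    · have h1 : 1 ≤ Y.card := Finset.card_pos.2 ⟨_, hG.1⟩
      have key : ∀ y < 5, 1 ≤ y → (24 - y) ∣ 40320 → y = 3 ∨ y = 4 := by decide
      rcases key _ (by omega) h1 hd with h | h
      · exact no_tri hH htr hG h (by rw [hcs]; norm_num) (fun v => by rw [hcs]; norm_num)
      · exact no_four7 hH hG h (by rw [hcs]; norm_num)

/-- index 759. -/
theorem part1 {H : Subgroup (Equiv.Perm GolayPt)} (hH : H ≤ M24) (hc : Nat.card H = 322560) :
    ∃ o ∈ octads, ∀ g, g ∈ H ↔ g ∈ M24 ∧ g • o = o := by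
  obtain ⟨o, ho, _, h | htr⟩ := odd_cases hH (by rw [hc]; norm_num)
  · refine ⟨o, ho, ?_⟩
    have e : H = M24 ⊓ MulAction.stabilizer (Equiv.Perm GolayPt) o :=
      Subgroup.eq_of_le_of_card_ge (le_octStab hH h)
        (by rw [hc, Cfsg.Agent.Lib.Helper34.card_octStab ho])
    intro g
    rw [e, Subgroup.mem_inf]
    exact and_congr Iff.rfl MulAction.mem_stabilizer_iff
  · exfalso
    have hcs : ∀ v, Nat.card (St H v) = 13440 := by
      intro v
      have := card_St_of_Tr htr v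
      omega
    obtain ⟨o, ho, hE, Y, _, hG, _, hd, hY⟩ := stage2 hH (by rw [hcs]; norm_num)
    rw [hcs] at hd
    rcases hY with rfl | hY
    · exact no_oct hH htr ho hG hE (by rw [hcs]; norm_num)
    · have h1 : 1 ≤ Y.card := Finset.card_pos.2 ⟨_, hG.1⟩
      have key : ∀ y < 5, 1 ≤ y → (24 - y) ∣ 13440 → y = 3 ∨ y = 4 := by decide
      rcases key _ (by omega) h1 hd with h | h
      · exact no_tri hH htr hG h (by rw [hcs]; norm_num) (fun v => by rw [hcs]; norm_num)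
      · exact no_four7 hH hG h (by rw [hcs]; norm_num)

/-- index 1771. -/
theorem part3 {H : Subgroup (Equiv.Perm GolayPt)} (hH : H ≤ M24) (hc : Nat.card H = 138240) :
    ∃ S ∈ sextets, ∀ h ∈ H, h • S = S := by
  obtain ⟨o, ho, _, h | htr⟩ := odd_cases hH (by rw [hc]; norm_num)
  · exfalso
    have := Subgroup.card_dvd_of_le (le_octStab hH h)
    rw [hc, Cfsg.Agent.Lib.Helper34.card_octStab ho] at this
    norm_num at this
  · have hcs : ∀ v, Nat.card (St H v) = 5760 := by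
      intro v
      have := card_St_of_Tr htr v
      omega
    obtain ⟨o, ho, hE, Y, hYo, hG, hYtr, hd, hY⟩ := stage2 hH (by rw [hcs]; norm_num)
    rw [hcs] at hd
    rcases hY with rfl | hY
    · exact (no_oct hH htr ho hG hE (by rw [hcs]; norm_num)).elim
    · have h1 : 1 ≤ Y.card := Finset.card_pos.2 ⟨_, hG.1⟩
      have key : ∀ y < 5, 1 ≤ y → (24 - y) ∣ 5760 → y = 4 := by decide
      have h4 := key _ (by omega) h1 hd
      exact ⟨sextetOf Y, sextetOf_mem h4,
        sextet_case hH htr hG h4 hYtr ho hYo hE (fun v => by rw [hcs]; norm_num)⟩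

end Cfsg.Agent.Lib.Helper94.M24I
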