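import Cfsg.Agent.Lib.Helper94.M24Idx3

set_option autoImplicit false
open scoped Pointwise

namespace Cfsg.Agent.Lib.Helper94.M24I

open Cfsg Cfsg.Agent.Lib.Helper94 Cfsg.Agent.Lib.Helper94.M23S

/-! ### index 276 -/

theorem arithA : ∀ n < 25, 1 ≤ n → n ∣ 887040 → (n % 11 = 1 ∨ n % 11 = 2) → n % 7 ≤ 3 →
    n = 1 ∨ n = 2 ∨ n = 24 := by
  intro n hn h1 h2 h3 h4
  interval_cases n <;> omega

theorem arithB : ∀ n < 24, n ∣ 36960 → n % 11 = 1 → n % 7 ≤ 2 → n = 1 := by decide

theorem arithC : ∀ n < 24, 1 ≤ n → n % 11 = 0 → n = 11 ∨ n = 22 := by decide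

/-- in the transitive case a point stabiliser fixes a second point. -/
theorem second_fixed {H : Subgroup (Equiv.Perm GolayPt)} (hH : H ≤ M24) (x : GolayPt)
    (hcs : Nat.card (St H x) = 36960) :
    ∃ y, y ≠ x ∧ (∀ k ∈ St H x, k y = y) ∧
      ∃ t ∈ St H x, orderOf t = 11 ∧ Fx t = {x, y} := by
  have f11 : Fact (Nat.Prime 11) := ⟨by norm_num⟩
  have f7 : Fact (Nat.Prime 7) := ⟨by norm_num⟩
  obtain ⟨t, ht, hto⟩ := exists_order (St H x) 11 (by rw [hcs]; norm_num)
  obtain ⟨s, hs, hso⟩ := exists_order (St H x) 7 (by rw [hcs]; norm_num)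
  have htM : t ∈ M24 := hH (mem_St.1 ht).1
  have hsM : s ∈ M24 := hH (mem_St.1 hs).1
  have hct := card_Fx11 htM hto
  have hcs7 := card_Fx7 hsM hso
  have hxt : x ∈ Fx t := mem_Fx.2 (mem_St.1 ht).2
  have hxs : x ∈ Fx s := mem_Fx.2 (mem_St.1 hs).2
  obtain ⟨y, hy, hyx⟩ := Finset.exists_mem_ne (by rw [hct]; norm_num : 1 < (Fx t).card) x
  have hFx : Fx t = {x, y} := by
    symm
    apply Finset.eq_of_subset_of_card_le
    · intro w hw
      rw [Finset.mem_insert, Finset.mem_singleton] at hw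
      rcases hw with rfl | rfl
      · exact hxt
      · exact hy
    · rw [hct, Finset.card_pair (Ne.symm hyx)]
  obtain ⟨Ω, hyΩ, hinv, hΩ2, hΩ3⟩ := exists_orbit (St H x) y
  have hxΩ : x ∉ Ω := by
    intro h
    obtain ⟨k, hk, e⟩ := hΩ2 x h
    have e2 : k x = x := (mem_St.1 hk).2
    rw [← e2] at e
    exact hyx (k.injective e)
  have h11 := card_inter_Fx_modEq t hto Ω (hinv t ht)
  have h7 := card_inter_Fx_modEq s hso Ω (hinv s hs)
  have c1 : (Ω ∩ Fx t).card = 1 := by
    have e : Ω ∩ Fx t = {y} := by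
      ext w
      rw [Finset.mem_inter, hFx, Finset.mem_insert, Finset.mem_singleton]
      constructor
      · rintro ⟨h1, rfl | rfl⟩
        · exact absurd h1 hxΩ
        · rfl
      · rintro rfl
        exact ⟨hyΩ, Or.inr rfl⟩
    rw [e, Finset.card_singleton]
  have c2 : (Ω ∩ Fx s).card ≤ 2 := by
    have hsub : Ω ∩ Fx s ⊆ (Fx s).erase x := by
      intro w hw
      rw [Finset.mem_inter] at hw
      rw [Finset.mem_erase]
      exact ⟨fun e => hxΩ (e ▸ hw.1), hw.2⟩
    have := Finset.card_le_card hsub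
    rw [Finset.card_erase_of_mem hxs, hcs7] at this
    omega
  have hlt : Ω.card < 24 := by
    have hsub : Ω ⊆ Finset.univ.erase x := by
      intro w hw
      rw [Finset.mem_erase]
      exact ⟨fun e => hxΩ (e ▸ hw), Finset.mem_univ _⟩
    have := Finset.card_le_card hsub
    rw [Finset.card_erase_of_mem (Finset.mem_univ _), Finset.card_univ, card_golayPt] at this
    omega
  have hd : Ω.card ∣ 36960 := by rw [← hcs, hΩ3]; exact Dvd.intro _ rfl
  unfold Nat.ModEq at h11 h7
  rw [Nat.mod_eq_of_lt (by omega : (Ω ∩ Fx s).card < 7)] at h7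
  rw [c1] at h11
  have hone := arithB _ hlt hd h11.symm (by rw [← h7]; exact c2)
  refine ⟨y, hyx, ?_, t, ht, hto, hFx⟩
  intro k hk
  obtain ⟨a, ha⟩ := Finset.card_eq_one.1 hone
  have e1 := hinv k hk y hyΩ
  rw [ha, Finset.mem_singleton] at e1 hyΩ
  rw [e1, hyΩ]

theorem St_eq_of_fix {H : Subgroup (Equiv.Perm GolayPt)} {a b : GolayPt}
    (hc : Nat.card (St H a) = Nat.card (St H b)) (h : ∀ k ∈ St H a, k b = b) :
    St H a = St H b :=
  Subgroup.eq_of_le_of_card_ge (fun k hk => mem_St.2 ⟨(mem_St.1 hk).1, h k hk⟩) (by rw [hc])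

theorem no_trans2 {H : Subgroup (Equiv.Perm GolayPt)} (hH : H ≤ M24)
    (hcs : ∀ v, Nat.card (St H v) = 36960) : False := by
  have f11 : Fact (Nat.Prime 11) := ⟨by norm_num⟩
  have f7 : Fact (Nat.Prime 7) := ⟨by norm_num⟩
  obtain ⟨y, hyx, hfy, t, ht, hto, hFx⟩ := second_fixed hH (pt 23) (hcs _)
  obtain ⟨z, hz⟩ := exists_not_mem {pt 23, y} (lt_of_le_of_lt Finset.card_le_two (by norm_num))
  rw [Finset.mem_insert, Finset.mem_singleton, not_or] at hz
  obtain ⟨z', hz'z, hfz', _⟩ := second_fixed hH z (hcs _)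
  -- the stabiliser of `z` is different from that of the base point
  have hne : St H z ≠ St H (pt 23) := by
    intro e
    have h1 : t ∈ St H z := by rw [e]; exact ht
    have h2 : z ∈ Fx t := mem_Fx.2 (mem_St.1 h1).2
    rw [hFx, Finset.mem_insert, Finset.mem_singleton] at h2
    exact h2.elim hz.1 hz.2
  obtain ⟨Ω, hzΩ, hinv, hΩ2, hΩ3⟩ := exists_orbit (St H (pt 23)) z
  have hnot : ∀ w, (∀ k ∈ St H (pt 23), k w = w) → w ≠ z → w ∉ Ω := by
    intro w hw hwz h
    obtain ⟨k, hk, e⟩ := hΩ2 w h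
    rw [← hw k hk] at e
    exact hwz (k.injective e).symm
  have hxΩ := hnot (pt 23) (fun k hk => (mem_St.1 hk).2) (Ne.symm hz.1)
  have hyΩ := hnot y hfy (Ne.symm hz.2)
  have h11 := card_inter_Fx_modEq t hto Ω (hinv t ht)
  have c0 : (Ω ∩ Fx t).card = 0 := by
    rw [Finset.card_eq_zero, Finset.eq_empty_iff_forall_notMem]
    intro w hw
    rw [Finset.mem_inter, hFx, Finset.mem_insert, Finset.mem_singleton] at hw
    rcases hw.2 with rfl | rfl
    · exact hxΩ hw.1
    · exact hyΩ hw.1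
  have hlt : Ω.card < 24 := by
    have hsub : Ω ⊆ Finset.univ.erase (pt 23) := by
      intro w hw
      rw [Finset.mem_erase]
      exact ⟨fun e => hxΩ (e ▸ hw), Finset.mem_univ _⟩
    have := Finset.card_le_card hsub
    rw [Finset.card_erase_of_mem (Finset.mem_univ _), Finset.card_univ, card_golayPt] at this
    omega
  unfold Nat.ModEq at h11
  have hn := arithC _ hlt (Finset.card_pos.2 ⟨_, hzΩ⟩) (by omega)
  rw [hcs] at hΩ3
  have h7 : 7 ∣ Nat.card (St (St H (pt 23)) z) := by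
    rcases hn with h | h <;> rw [h] at hΩ3 <;> omega
  obtain ⟨s, hs, hso⟩ := exists_order _ 7 h7
  have hs1 : s ∈ St H (pt 23) := (mem_St.1 hs).1
  have hsz : s z = z := (mem_St.1 hs).2
  have hs2 : s ∈ St H z := mem_St.2 ⟨(mem_St.1 hs1).1, hsz⟩
  have hc7 := card_Fx7 (hH (mem_St.1 hs1).1) hso
  have hsub : ({pt 23, y, z} : Finset GolayPt) ⊆ Fx s := by
    intro w hw
    rw [Finset.mem_insert, Finset.mem_insert, Finset.mem_singleton] at hw
    rcases hw with rfl | rfl | rfl
    · exact mem_Fx.2 (mem_St.1 hs1).2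
    · exact mem_Fx.2 (hfy s hs1)
    · exact mem_Fx.2 hsz
  have hc3 : ({pt 23, y, z} : Finset GolayPt).card = 3 := by
    rw [Finset.card_eq_three]
    exact ⟨_, _, _, Ne.symm hyx, Ne.symm hz.1, Ne.symm hz.2, rfl⟩
  have heq : ({pt 23, y, z} : Finset GolayPt) = Fx s :=
    Finset.eq_of_subset_of_card_le hsub (by rw [hc7, hc3])
  have hz'F : z' ∈ Fx s := mem_Fx.2 (hfz' s hs2)
  rw [← heq, Finset.mem_insert, Finset.mem_insert, Finset.mem_singleton] at hz'F
  rcases hz'F with e | e | e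
  · -- the stabiliser of `z` fixes the base point
    apply hne
    exact St_eq_of_fix (by rw [hcs, hcs]) (fun k hk => by rw [← e]; exact hfz' k hk)
  · apply hne
    have e1 : St H z = St H y :=
      St_eq_of_fix (by rw [hcs, hcs]) (fun k hk => by rw [← e]; exact hfz' k hk)
    have e2 : St H (pt 23) = St H y := St_eq_of_fix (by rw [hcs, hcs]) hfy
    rw [e1, e2]
  · exact hz'z e

theorem part2 {H : Subgroup (Equiv.Perm GolayPt)} (hH : H ≤ M24) (hc : Nat.card H = 887040) :
    ∃ s : Finset GolayPt, s.card = 2 ∧ ∀ g, g ∈ H ↔ g ∈ M24 ∧ g • s = s := by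
  have f11 : Fact (Nat.Prime 11) := ⟨by norm_num⟩
  have f7 : Fact (Nat.Prime 7) := ⟨by norm_num⟩
  obtain ⟨t, ht, hto⟩ := exists_order H 11 (by rw [hc]; norm_num)
  obtain ⟨s, hs, hso⟩ := exists_order H 7 (by rw [hc]; norm_num)
  have hct := card_Fx11 (hH ht) hto
  have hcs7 := card_Fx7 (hH hs) hso
  obtain ⟨a, ha⟩ := Finset.card_pos.1 (by rw [hct]; norm_num : 0 < (Fx t).card)
  obtain ⟨Ω, haΩ, hinv, hΩ2, hΩ3⟩ := exists_orbit H a
  have h11 := card_inter_Fx_modEq t hto Ω (hinv t ht)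
  have h7 := card_inter_Fx_modEq s hso Ω (hinv s hs)
  have c1 : 1 ≤ (Ω ∩ Fx t).card := Finset.card_pos.2 ⟨a, Finset.mem_inter.2 ⟨haΩ, ha⟩⟩
  have c2 : (Ω ∩ Fx t).card ≤ 2 := by
    rw [← hct]; exact Finset.card_le_card Finset.inter_subset_right
  have c3 : (Ω ∩ Fx s).card ≤ 3 := by
    rw [← hcs7]; exact Finset.card_le_card Finset.inter_subset_right
  have hle : Ω.card ≤ 24 := by
    rw [← card_golayPt, ← Finset.card_univ]; exact Finset.card_le_card (Finset.subset_univ _)
  have hd : Ω.card ∣ 887040 := by rw [← hc, hΩ3]; exact Dvd.intro _ rfl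
  unfold Nat.ModEq at h11 h7
  rcases arithA _ (by omega) (Finset.card_pos.2 ⟨_, haΩ⟩) hd (by omega) (by omega) with h | h | h
  · exfalso
    rw [h, hc, one_mul] at hΩ3
    have := Subgroup.card_dvd_of_le (St_mono hH a)
    rw [← hΩ3, card_St_M24] at this
    norm_num at this
  · refine ⟨Ω, h, ?_⟩
    have hHS : H ≤ M24 ⊓ MulAction.stabilizer (Equiv.Perm GolayPt) Ω :=
      le_octStab hH (fun k hk => smul_eq_of_inv k Ω (hinv k hk))
    obtain ⟨b, hb, hba⟩ := Finset.exists_mem_ne (by rw [h]; norm_num : 1 < Ω.card) a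
    have hΩeq : Ω = {a, b} := by
      symm
      apply Finset.eq_of_subset_of_card_le
      · intro w hw
        rw [Finset.mem_insert, Finset.mem_singleton] at hw
        rcases hw with rfl | rfl
        · exact haΩ
        · exact hb
      · rw [h, Finset.card_pair (Ne.symm hba)]
    obtain ⟨Ω', _, _, hΩ2', hΩ3'⟩ :=
      exists_orbit (M24 ⊓ MulAction.stabilizer (Equiv.Perm GolayPt) Ω) a
    have hsub : Ω' ⊆ Ω := by
      intro w hw
      obtain ⟨k, hk, e⟩ := hΩ2' w hw
      rw [← e]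
      exact smul_mem_of_smul_eq (MulAction.mem_stabilizer_iff.1 hk.2) a haΩ
    have hn : Ω'.card ≤ 2 := by rw [← h]; exact Finset.card_le_card hsub
    have hdv : Nat.card (St (M24 ⊓ MulAction.stabilizer (Equiv.Perm GolayPt) Ω) a) ∣ 443520 := by
      apply card_dvd_of_fix2 _ _ (Ne.symm hba)
      · intro g hg; exact (mem_St.1 hg).2
      · intro g hg
        have hg1 := (mem_St.1 hg).1
        have hga := (mem_St.1 hg).2
        have := smul_mem_of_smul_eq (MulAction.mem_stabilizer_iff.1 hg1.2) b hb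
        rw [hΩeq, Finset.mem_insert, Finset.mem_singleton] at this
        rcases this with e | e
        · rw [← hga] at e
          exact absurd (g.injective e) hba
        · exact e
      · intro g hg; exact (mem_St.1 hg).1.1
    have hle2 := Nat.le_of_dvd (by norm_num) hdv
    have e : H = M24 ⊓ MulAction.stabilizer (Equiv.Perm GolayPt) Ω := by
      apply Subgroup.eq_of_le_of_card_ge hHS
      rw [hc, hΩ3']
      calc Ω'.card * _ ≤ 2 * 443520 := Nat.mul_le_mul hn hle2
        _ = 887040 := by norm_num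
    intro g
    rw [e, Subgroup.mem_inf]
    exact and_congr Iff.rfl MulAction.mem_stabilizer_iff
  · exfalso
    have hΩu : Ω = Finset.univ := by
      apply Finset.eq_univ_of_card
      rw [h, card_golayPt]
    have htr : Tr H := by
      intro p q
      obtain ⟨k1, hk1, e1⟩ := hΩ2 p (by rw [hΩu]; exact Finset.mem_univ _)
      obtain ⟨k2, hk2, e2⟩ := hΩ2 q (by rw [hΩu]; exact Finset.mem_univ _)
      refine ⟨k2 * k1⁻¹, H.mul_mem hk2 (H.inv_mem hk1), ?_⟩
      rw [Equiv.Perm.mul_apply, ← e1]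
      have : k1⁻¹ (k1 a) = a := k1.symm_apply_apply _
      rw [this, e2]
    apply no_trans2 hH
    intro v
    have := card_St_of_Tr htr v
    omega

end Cfsg.Agent.Lib.Helper94.M24I
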