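import Mathlib
import Cfsg.Agent.Lib.Helper59.TwoGroupUniq
import Cfsg.Agent.Lib.Helper59.TwoGroupRecog

set_option autoImplicit false
open scoped Pointwise

namespace Cfsg.Agent.Lib.Helper94

/-! ### recognising the Sylow structure of a group of shape `3^2:Q8` from elementwise facts -/

/-- elementwise facts satisfied by a group of shape `3^2:Q8`. -/
structure M9Facts (H : Type*) [Group H] : Prop where
  card : Nat.card H = 72
  c9 : Nat.card {x : H // x ^ 9 = 1} = 9
  e3 : ∀ x : H, x ^ 9 = 1 → x ^ 3 = 1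
  e4 : ∀ x : H, x ^ 8 = 1 → x ^ 4 = 1
  inv : ∀ x y : H, x ^ 2 = 1 → y ^ 2 = 1 → x * y = y * x → x = 1 ∨ y = 1 ∨ x = y

variable {H H' : Type*} [Group H] [Group H']

theorem M9Facts.of_equiv (φ : H ≃* H') (h : M9Facts H') : M9Facts H where
  card := (Nat.card_congr φ.toEquiv).trans h.card
  c9 := by
    refine (Nat.card_congr ?_).trans h.c9
    apply φ.toEquiv.subtypeEquiv
    intro x
    show x ^ 9 = 1 ↔ φ x ^ 9 = 1
    rw [← map_pow, MulEquiv.map_eq_one_iff]
  e3 := by
    intro x hx
    have := h.e3 (φ x) (by rw [← map_pow, hx, map_one])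
    rwa [← map_pow, MulEquiv.map_eq_one_iff] at this
  e4 := by
    intro x hx
    have := h.e4 (φ x) (by rw [← map_pow, hx, map_one])
    rwa [← map_pow, MulEquiv.map_eq_one_iff] at this
  inv := by
    intro x y hx hy hxy
    have := h.inv (φ x) (φ y) (by rw [← map_pow, hx, map_one]) (by rw [← map_pow, hy, map_one])
      (by rw [← map_mul, hxy, map_mul])
    rcases this with h1 | h1 | h1
    · exact Or.inl ((MulEquiv.map_eq_one_iff φ).1 h1)
    · exact Or.inr (Or.inl ((MulEquiv.map_eq_one_iff φ).1 h1))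
    · exact Or.inr (Or.inr (φ.injective h1))

theorem fact72_3 : (72 : ℕ).factorization 3 = 2 := by
  have e : (72 : ℕ) = 3 ^ 2 * 8 := by norm_num
  rw [e, Nat.factorization_mul (by norm_num) (by norm_num), Nat.Prime.factorization_pow (by norm_num)]
  simp only [Finsupp.coe_add, Pi.add_apply, Finsupp.single_eq_same]
  rw [Nat.factorization_eq_zero_of_not_dvd (by norm_num)]

theorem fact72_2 : (72 : ℕ).factorization 2 = 3 := by
  have e : (72 : ℕ) = 2 ^ 3 * 9 := by norm_num
  rw [e, Nat.factorization_mul (by norm_num) (by norm_num), Nat.Prime.factorization_pow (by norm_num)]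
  simp only [Finsupp.coe_add, Pi.add_apply, Finsupp.single_eq_same]
  rw [Nat.factorization_eq_zero_of_not_dvd (by norm_num)]

theorem M9Facts.sylow3 [Finite H] (h : M9Facts H) (Q : Sylow 3 H) :
    (Q : Subgroup H).Normal ∧ Nat.card ↥Q = 9 ∧ ∀ x ∈ (Q : Subgroup H), x ^ 3 = 1 := by
  have : Fact (Nat.Prime 3) := ⟨by norm_num⟩
  have hc : Nat.card ↥Q = 9 := by
    have h0 := Q.card_eq_multiplicity
    rw [h.card, fact72_3] at h0
    exact h0.trans (by norm_num)
  have h9 : ∀ x ∈ (Q : Subgroup H), x ^ 9 = 1 := by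
    intro x hx
    have h1 : (⟨x, hx⟩ : ↥(Q : Subgroup H)) ^ Nat.card ↥(Q : Subgroup H) = 1 := pow_card_eq_one'
    have h2 := congrArg Subtype.val h1
    rw [show Nat.card ↥(Q : Subgroup H) = 9 from hc] at h2
    exact h2
  have hset : ((Q : Subgroup H) : Set H) = {x : H | x ^ 9 = 1} := by
    have e1 : ({x : H | x ^ 9 = 1} : Set H).ncard = 9 := by
      rw [← Nat.card_coe_set_eq]; exact h.c9
    have e2 : ((Q : Subgroup H) : Set H).ncard = 9 := by
      rw [← Nat.card_coe_set_eq]; exact hc
    exact Set.eq_of_subset_of_ncard_le (fun x hx => h9 x hx) (by rw [e1, e2]) (Set.toFinite _)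
  refine ⟨⟨?_⟩, hc, fun x hx => h.e3 x (h9 x hx)⟩
  intro n hn g
  have h1 : g * n * g⁻¹ ∈ {x : H | x ^ 9 = 1} := by
    show (g * n * g⁻¹) ^ 9 = 1
    rw [conj_pow, h9 n hn, mul_one, mul_inv_cancel]
  rw [← hset] at h1
  exact h1

theorem M9Facts.sylow2 [Finite H] (h : M9Facts H) (P : Sylow 2 H) : Nonempty (↥P ≃* QuaternionGroup 2) := by
  have : Fact (Nat.Prime 2) := ⟨by norm_num⟩
  have hc : Nat.card ↥P = 8 := by
    have h0 := P.card_eq_multiplicity
    rw [h.card, fact72_2] at h0
    exact h0.trans (by norm_num)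
  have hp : IsPGroup 2 ↥P := P.isPGroup'
  have : Nontrivial ↥P := by
    rw [← Finite.one_lt_card_iff_nontrivial, hc]; norm_num
  -- a central involution
  have hz : ∃ z : ↥P, z ∈ Subgroup.center ↥P ∧ orderOf z = 2 := by
    have hnt : Nontrivial (Subgroup.center ↥P) := hp.center_nontrivial
    have hpc : IsPGroup 2 (Subgroup.center ↥P) := hp.to_subgroup _
    obtain ⟨n, hn⟩ := IsPGroup.iff_card.1 hpc
    have hn0 : n ≠ 0 := by
      rintro rfl
      rw [pow_zero] at hn
      have := Finite.one_lt_card_iff_nontrivial.2 hnt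
      omega
    have h2 : 2 ∣ Nat.card (Subgroup.center ↥P) := by
      rw [hn]; exact dvd_pow_self 2 hn0
    obtain ⟨z, hz⟩ := exists_prime_orderOf_dvd_card' 2 h2
    exact ⟨z.1, z.2, (Subgroup.orderOf_coe z).trans hz⟩
  obtain ⟨z, hzc, hz2⟩ := hz
  have key : ∀ x : ↥P, orderOf x = 2 → x = z := by
    intro x hx
    have hx2 : ((x : H)) ^ 2 = 1 := by
      have : x ^ 2 = 1 := by
        have h0 := pow_orderOf_eq_one x
        rwa [hx] at h0
      exact congrArg Subtype.val this
    have hz2' : ((z : H)) ^ 2 = 1 := by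
      have : z ^ 2 = 1 := by
        have h0 := pow_orderOf_eq_one z
        rwa [hz2] at h0
      exact congrArg Subtype.val this
    have hcomm : (x : H) * (z : H) = (z : H) * (x : H) := by
      have := (Subgroup.mem_center_iff.1 hzc x)
      exact congrArg Subtype.val this
    rcases h.inv _ _ hx2 hz2' hcomm with h1 | h1 | h1
    · exfalso
      have : x = 1 := Subtype.ext h1
      rw [this, orderOf_one] at hx
      omega
    · exfalso
      have : z = 1 := Subtype.ext h1
      rw [this, orderOf_one] at hz2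
      omega
    · exact Subtype.ext h1
  rcases Cfsg.Agent.Lib.Helper59.two_group_unique_involution hp
    (fun x y hx hy => (key x hx).trans (key y hy).symm) with hcyc | ⟨k, a, b, ha, hcard, hb, hbb, hconj⟩
  · exfalso
    obtain ⟨g, hg⟩ := hcyc.exists_generator
    have ho : orderOf g = 8 := by rw [orderOf_eq_card_of_forall_mem_zpowers hg, hc]
    have h8 : ((g : H)) ^ 8 = 1 := by
      have : g ^ 8 = 1 := ho ▸ pow_orderOf_eq_one g
      exact congrArg Subtype.val this
    have h4 : g ^ 4 = 1 := Subtype.ext (h.e4 _ h8)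
    have := orderOf_dvd_of_pow_eq_one h4
    rw [ho] at this
    omega
  · have hk : k = 0 := by
      rw [hc] at hcard
      by_contra hk
      have : 2 ≤ 2 ^ k := by
        calc 2 = 2 ^ 1 := by norm_num
          _ ≤ 2 ^ k := Nat.pow_le_pow_right (by norm_num) (Nat.one_le_iff_ne_zero.2 hk)
      omega
    subst hk
    exact Cfsg.Agent.Lib.Helper59.quaternion_recog 2 (by norm_num) a b (by rw [ha]; norm_num)
      (by rw [hbb]; norm_num) hconj hb (by rw [hc])

end Cfsg.Agent.Lib.Helper94
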