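import Mathlib
import Cfsg.Prelude.Def_Sporadic_a
import Cfsg.Prelude.Def_SporadicCombinatorics
import Cfsg.Agent.Lib.Helper94.SextetStab
import Cfsg.Agent.Lib.Helper94.M9Abs
import Cfsg.Agent.Lib.Helper9.M12Gen

set_option autoImplicit false
open scoped Pointwise

namespace Cfsg.Agent.Lib.Helper94

/-! ### the stabiliser of a dodecad and three of its points -/

/-- iteration evaluating every intermediate value. -/
def iterF (f : ℕ → ℕ) : ℕ → ℕ → ℕ
  | 0, x => x
  | n + 1, x => force (f x) (iterF f n)

theorem iterF_eq (f : ℕ → ℕ) (n x : ℕ) : iterF f n x = f^[n] x := by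
  induction n generalizing x with
  | zero => rfl
  | succ n ih => rw [iterF, force_eq, ih, Function.iterate_succ_apply]

/-- test: the `n`-th power of the product of the two factors is the identity. -/
def powOne (n A s : ℕ) : Bool :=
  all24 fun i => Nat.beq (iterF (applyS2 A s) n (Nat.pow 2 i)) (Nat.pow 2 i)

theorem iterate_applyS2 (a s : Equiv.Perm GolayPt) (n : ℕ) (p : GolayPt) :
    (applyS2 (codeS a) (codeS s))^[n] (2 ^ enc p) = 2 ^ enc (((a * s) ^ n) p) := by
  induction n with
  | zero => rfl
  | succ n ih =>
    rw [Function.iterate_succ_apply', ih, applyS2_pt, pow_succ']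
    rfl

theorem powOne_iff (n : ℕ) (a s : Equiv.Perm GolayPt) :
    powOne n (codeS a) (codeS s) = true ↔ (a * s) ^ n = 1 := by
  rw [powOne, all24_iff]
  constructor
  · intro h
    apply Equiv.ext
    intro p
    have h1 := h (enc p) (enc_lt p)
    rw [Nat.beq_eq, Nat.pow_eq, iterF_eq, iterate_applyS2] at h1
    exact enc_injective (Nat.pow_right_injective (le_refl 2) h1)
  · intro h i hi
    have h2 := iterate_applyS2 a s n (pt i)
    rw [enc_pt hi, h] at h2
    rw [Nat.beq_eq, Nat.pow_eq, iterF_eq, h2, Equiv.Perm.one_apply, enc_pt hi]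

theorem D9_mem : unm 11472927 ∈ dodecads := unm_mem_dodecads (by decide +kernel)

/-- fixing the base dodecad and three of its points. -/
def PhiH (g : Equiv.Perm GolayPt) : Prop :=
  g • unm 11472927 = unm 11472927 ∧ g (pt 23) = pt 23 ∧ g (pt 0) = pt 0 ∧ g (pt 1) = pt 1

def psiH (A s : ℕ) : Bool :=
  Nat.beq (applyS2 A s 11472927) 11472927 && (Nat.beq (applyS2 A s 8388608) 8388608 &&
    (Nat.beq (applyS2 A s 1) 1 && Nat.beq (applyS2 A s 2) 2))

theorem beq_pt_iff (a s : Equiv.Perm GolayPt) {i : ℕ} (hi : i < 24) :
    applyS2 (codeS a) (codeS s) (2 ^ i) = 2 ^ i ↔ (a * s) (pt i) = pt i := by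
  have h := applyS2_pt a s (pt i)
  rw [enc_pt hi] at h
  rw [h]
  constructor
  · intro h1
    apply enc_injective
    rw [Nat.pow_right_injective (le_refl 2) h1, enc_pt hi]
  · intro h1
    rw [h1, enc_pt hi]

theorem psiH_iff (a s : Equiv.Perm GolayPt) : psiH (codeS a) (codeS s) = true ↔ PhiH (a * s) := by
  have e0 : applyS2 (codeS a) (codeS s) 11472927 = 11472927 ↔ (a * s) • unm 11472927 = unm 11472927 := by
    have h := applyS2_smul a s (unm 11472927)
    rw [msk_unm (by norm_num)] at h
    rw [h, msk_eq_iff (by norm_num)]
  have e1 := beq_pt_iff a s (i := 23) (by norm_num)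
  have e2 := beq_pt_iff a s (i := 0) (by norm_num)
  have e3 := beq_pt_iff a s (i := 1) (by norm_num)
  norm_num at e1 e2 e3
  rw [psiH, PhiH]
  simp only [Bool.and_eq_true, Nat.beq_eq]
  rw [e0, e1, e2, e3]
  rfl

def TH : List ℕ :=
  ((bitsOf 11472927).flatMap fun a => (bitsOf 11472927).map fun b => pack5 23 0 1 a b).filter validB

def THL : List ℕ := [24118339, 24118340, 24118348, 24118352, 24118353, 24118354, 24118355, 24118357, 24118370, 24118372, 24118380, 24118384, 24118385, 24118386, 24118387, 24118389, 24118402, 24118403, 24118412, 24118416, 24118417, 24118418, 24118419, 24118421, 24118658, 24118659, 24118660, 24118672, 24118673, 24118674, 24118675, 24118677, 24118786, 24118787, 24118788, 24118796, 24118801, 24118802, 24118803, 24118805, 24118818, 24118819, 24118820, 24118828, 24118832, 24118834, 24118835, 24118837, 24118850, 24118851, 24118852, 24118860, 24118864, 24118865, 24118867, 24118869, 24118882, 24118883, 24118884, 24118892, 24118896, 24118897, 24118898, 24118901, 24118946, 24118947, 24118948, 24118956, 24118960, 24118961, 24118962, 24118963]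

theorem TH_eq : TH = THL := by decide +kernel

theorem THL_nodup : THL.Nodup := by decide +kernel

theorem THL_valid : ∀ u ∈ THL, ValidU u := by
  intro u hu
  rw [← TH_eq, TH, List.mem_filter] at hu
  exact (validB_iff u).1 hu.2

theorem PhiH_img : ∀ g ∈ M24, PhiH g → imgU g ∈ THL := by
  rintro g _ ⟨hD, h23, h0, h1⟩
  rw [← TH_eq, TH, List.mem_filter]
  refine ⟨?_, (validB_iff _).2 (validU_imgU g)⟩
  rw [List.mem_flatMap]
  refine ⟨_, img_mem_bitsOf hD (i := 2) (by decide), ?_⟩
  rw [List.mem_map]
  refine ⟨_, img_mem_bitsOf hD (i := 3) (by decide), ?_⟩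
  rw [imgU, h23, h0, h1, enc_pt (by norm_num), enc_pt (by norm_num), enc_pt (by norm_num)]

theorem pass_psiH : pass2 psiH THL = 72 := by decide +kernel

theorem card_PhiH : Nat.card {g : Equiv.Perm GolayPt // g ∈ M24 ∧ PhiH g} = 72 := by
  rw [card_by_enum2 PhiH THL THL_nodup THL_valid PhiH_img psiH (fun a _ s _ => psiH_iff a s), pass_psiH]

theorem pass_psiH9 : pass2 (fun A s => psiH A s && powOne 9 A s) THL = 9 := by decide +kernel

theorem card_PhiH9 : Nat.card {g : Equiv.Perm GolayPt // g ∈ M24 ∧ (PhiH g ∧ g ^ 9 = 1)} = 9 := by
  rw [card_by_enum2 (fun g => PhiH g ∧ g ^ 9 = 1) THL THL_nodup THL_valid (fun g hg h => PhiH_img g hg h.1)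
    (fun A s => psiH A s && powOne 9 A s)
    (fun a _ s _ => by rw [Bool.and_eq_true, psiH_iff, powOne_iff]), pass_psiH9]

theorem fail_e3 : fail2 (fun A s => !psiH A s || (!powOne 9 A s || powOne 3 A s)) THL = 0 := by decide +kernel

theorem PhiH_e3 : ∀ g ∈ M24, PhiH g → (g ^ 9 = 1 → g ^ 3 = 1) := by
  apply forall_by_enum2 PhiH (fun g => g ^ 9 = 1 → g ^ 3 = 1) THL PhiH_img _ _ fail_e3
  intro a _ s _ hΦ h h9
  rw [Bool.or_eq_true, Bool.or_eq_true, (psiH_iff a s).2 hΦ, (powOne_iff 9 a s).2 h9] at h
  rcases h with h | h | h
  · exact absurd h (by simp)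
  · exact absurd h (by simp)
  · exact (powOne_iff 3 a s).1 h

theorem fail_e4 : fail2 (fun A s => !psiH A s || (!powOne 8 A s || powOne 4 A s)) THL = 0 := by decide +kernel

theorem PhiH_e4 : ∀ g ∈ M24, PhiH g → (g ^ 8 = 1 → g ^ 4 = 1) := by
  apply forall_by_enum2 PhiH (fun g => g ^ 8 = 1 → g ^ 4 = 1) THL PhiH_img _ _ fail_e4
  intro a _ s _ hΦ h h9
  rw [Bool.or_eq_true, Bool.or_eq_true, (psiH_iff a s).2 hΦ, (powOne_iff 8 a s).2 h9] at h
  rcases h with h | h | h
  · exact absurd h (by simp)
  · exact absurd h (by simp)
  · exact (powOne_iff 4 a s).1 h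

/-- the involutions. -/
def IL : List ℕ := [0x400000000800010000010000010000000040000000100000100040000000080800000040000000080000100000040000080000002000002000080000100000100000000010000004000001, 0x400000100000002000000010002000002000000400002000000010000000080010000000010000400000100000008010000000004000008000080000010000000020000020000004000001, 0x400000000800004000000010000080000000204000000100000040000010000800000080000000400000008000010010000000010000001000008000000040200000000040000004000001, 0x400000100000000002010000001000001000001000000000080010000001000010000000004000080001000000010000080000010000001000000402000000080000004000000004000001, 0x400000000800008000000080000000408000000020000000040040000001000800000020000080000001000000008000010000004000008000000400000100400000040000000004000001, 0x400000002000000200000080000000800400000000080400002000000000080004000200000080000000100000010000010000010000001000080000800000000040080000000004000001, 0x400000002000000001010000000800000000100000200800002000000010000004000001000000080000008000008000080000004000008000008000200001000000100000000004000001,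 0x400000002000040000000010000000200000400200000200002000000001000004000000008000400001000000040010000000002000002000000400400000008000200000000004000001, 0x400000100000000000800080004000000800000800000010000010000010000010000010000080000000008000040000010000002000002000008000000080000080800000000004000001]
def ILS : List ℕ := [0x200000000400008000008000008000000020000000080000080020000000040400000020000000040000080000020000040000001000001000040000080000080000000008000002000000809b63eabaee0ee6689, 0x20000008000000100000000800100000100000020000100000000800000004000800000000800020000008000000400800000000200000400004000000800000001000001000000200000080a176ac58131bb42b1, 0x2000000004000020000000080000400000001020000000800000200000080004000000400000002000000040000080080000000080000008000040000000201000000000200000020000008090c2fdae5aae27319, 0x200000080000000001008000000800000800000800000000040008000000800008000000002000040000800000008000040000008000000800000201000000040000002000000002000000809e4acbeeab21eec89, 0x20000000040000400000004000000020400000001000000002002000000080040000001000004000000080000000400000800000200000400000020000008020000002000000000200000080a710811295061dff9,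 0x200000001000000100000040000000400200000000040200001000000000040002000100000040000000080000008000008000008000000800040000400000000020040000000002000000806c43a63f4d53d3d89, 0x2000000010000000008080000004000000000800001004000010000000080000020000008000000400000040000040000400000020000040000040001000008000000800000000020000008073a864aae4222ee61, 0x200000001000020000000008000000100000200100000100001000000000800002000000004000200000800000020008000000001000001000000200200000004000100000000002000000805988db2ee5914d721, 0x200000080000000000400040002000000400000400000008000008000008000008000008000040000000004000020000008000001000001000004000000040000040400000000002000000809add8cfa3c35c1cb9]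

theorem IL_in : ∀ P ∈ IL, inM24 P = true := by decide +kernel
theorem ILS_eq : IL.map toS = ILS := by decide +kernel
theorem IL_noncomm : ∀ P ∈ IL, ∀ P' ∈ IL, mulM P P' = mulM P' P → P = P' := by decide +kernel

theorem fail_inv : fail2 (fun A s => !psiH A s || (!powOne 2 A s ||
    force (mulS A s) fun Q => Nat.beq Q idS || memL Q ILS)) THL = 0 := by decide +kernel

theorem PhiH_inv : ∀ g ∈ M24, PhiH g → (g ^ 2 = 1 → g = 1 ∨ ∃ P ∈ IL, g = permOf P) := by
  apply forall_by_enum2 PhiH (fun g => g ^ 2 = 1 → g = 1 ∨ ∃ P ∈ IL, g = permOf P) THL PhiH_img _ _ fail_inv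
  intro a _ s _ hΦ h h2
  rw [Bool.or_eq_true, Bool.or_eq_true, (psiH_iff a s).2 hΦ, (powOne_iff 2 a s).2 h2, force_eq, mulS_codeS,
    Bool.or_eq_true, beq_idS, memL_iff, ← ILS_eq, List.mem_map] at h
  rcases h with h | h | h | ⟨P, hP, e⟩
  · exact absurd h (by simp)
  · exact absurd h (by simp)
  · exact Or.inl h
  · refine Or.inr ⟨P, hP, ?_⟩
    apply codeS_injective
    rw [← e, ← toS_code, code_permOf (validM_of_inM24 (IL_in P hP))]

theorem PhiH_comm {g h : Equiv.Perm GolayPt} (hg : g ∈ M24) (hh : h ∈ M24) (Hg : PhiH g) (Hh : PhiH h)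
    (g2 : g ^ 2 = 1) (h2 : h ^ 2 = 1) (hc : g * h = h * g) : g = 1 ∨ h = 1 ∨ g = h := by
  rcases PhiH_inv g hg Hg g2 with e | ⟨P, hP, rfl⟩
  · exact Or.inl e
  rcases PhiH_inv h hh Hh h2 with e | ⟨P', hP', rfl⟩
  · exact Or.inr (Or.inl e)
  refine Or.inr (Or.inr ?_)
  have vP := validM_of_inM24 (IL_in P hP)
  have vP' := validM_of_inM24 (IL_in P' hP')
  rw [← permOf_mulM vP vP', ← permOf_mulM vP' vP] at hc
  have h1 := congrArg code hc
  rw [code_permOf (validM_mulM vP vP'), code_permOf (validM_mulM vP' vP)] at h1
  rw [IL_noncomm P hP P' hP' h1]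

/-- the elementwise facts for a subgroup described by `PhiH`. -/
theorem m9Facts_of_mem (K : Subgroup ↥M24) (hK : ∀ x : ↥M24, x ∈ K ↔ PhiH (x : Equiv.Perm GolayPt)) :
    M9Facts ↥K where
  card := by
    rw [← card_PhiH]
    apply Nat.card_congr
    exact {
      toFun := fun x => ⟨x.1.1, x.1.2, (hK x.1).1 x.2⟩
      invFun := fun g => ⟨⟨g.1, g.2.1⟩, (hK _).2 g.2.2⟩
      left_inv := fun _ => rfl
      right_inv := fun _ => rfl }
  c9 := by
    refine (Nat.card_congr ?_).trans card_PhiH9
    exact {
      toFun := fun x => ⟨x.1.1.1, x.1.1.2, (hK x.1.1).1 x.1.2,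
        congrArg (fun y : ↥K => ((y : ↥M24) : Equiv.Perm GolayPt)) x.2⟩
      invFun := fun g => ⟨⟨⟨g.1, g.2.1⟩, (hK _).2 g.2.2.1⟩, Subtype.ext (Subtype.ext g.2.2.2)⟩
      left_inv := fun _ => rfl
      right_inv := fun _ => rfl }
  e3 := by
    intro x hx
    apply Subtype.ext
    apply Subtype.ext
    exact PhiH_e3 _ x.1.2 ((hK x.1).1 x.2) (congrArg (fun y : ↥K => ((y : ↥M24) : Equiv.Perm GolayPt)) hx)
  e4 := by
    intro x hx
    apply Subtype.ext
    apply Subtype.ext
    exact PhiH_e4 _ x.1.2 ((hK x.1).1 x.2) (congrArg (fun y : ↥K => ((y : ↥M24) : Equiv.Perm GolayPt)) hx)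
  inv := by
    intro x y hx hy hxy
    rcases PhiH_comm x.1.2 y.1.2 ((hK x.1).1 x.2) ((hK y.1).1 y.2)
      (congrArg (fun y : ↥K => ((y : ↥M24) : Equiv.Perm GolayPt)) hx)
      (congrArg (fun y : ↥K => ((y : ↥M24) : Equiv.Perm GolayPt)) hy)
      (congrArg (fun y : ↥K => ((y : ↥M24) : Equiv.Perm GolayPt)) hxy) with h | h | h
    · exact Or.inl (Subtype.ext (Subtype.ext h))
    · exact Or.inr (Or.inl (Subtype.ext (Subtype.ext h)))
    · exact Or.inr (Or.inr (Subtype.ext (Subtype.ext h)))

end Cfsg.Agent.Lib.Helper94
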