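import Mathlib
import Cfsg.Prelude.Def_Sporadic_a
import Cfsg.Prelude.Def_SporadicCombinatorics
import Cfsg.Agent.Lib.Helper94.GolayEnum2
import Cfsg.Agent.Lib.Helper94.GolayClassFacts
import Cfsg.Agent.Lib.Helper94.Cent2B
import Cfsg.Agent.Lib.Helper94.ConjSub

set_option autoImplicit false
open scoped Pointwise

namespace Cfsg.Agent.Lib.Helper94

/-! ### the normaliser of an element of order seven -/

/-- test on the two factors of a candidate: the trio with code `c` is mapped to itself. -/
def fixT2 (A s c : ℕ) : Bool :=
  mem3 (applyS2 A s (Nat.shiftRight c 24)) (Nat.shiftRight c 24) (Nat.land c 16777215) &&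
  mem3 (applyS2 A s (Nat.land c 16777215)) (Nat.shiftRight c 24) (Nat.land c 16777215)

theorem fixT2_iff {a s : Equiv.Perm GolayPt} (ha : a ∈ M24) (hs : s ∈ M24) {c : ℕ} (hc : c ∈ trioL) :
    fixT2 (codeS a) (codeS s) c = true ↔ (a * s) • unT c = unT c := by
  obtain ⟨x, y, hx, hy, hd, _, _, ea, eb, e⟩ := trioL_spec hc
  rw [fixT2, ea, eb, applyS2_smul, applyS2_smul, Bool.and_eq_true, mem3_iff hd, mem3_iff hd, e]
  constructor
  · rintro ⟨h1, h2⟩
    rw [smul_trioOf]
    refine (trio_eq (trioOf_mem hx hy hd) h1 h2 ?_).symm
    intro h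
    exact octad_ne_of_disjoint hx hd (smul_left_cancel _ h)
  · intro h
    constructor
    · rw [← h]; exact Finset.smul_mem_smul_finset (by rw [mem_trioOf]; simp)
    · rw [← h]; exact Finset.smul_mem_smul_finset (by rw [mem_trioOf]; simp)

/-- an element of order seven with `23 → 0 → 1 → 2 → 3`, and its powers. -/
def w1 : ℕ := 0x802000000400000001002000000020010000000100000008000010000000200000040000100000100000010040000008000008000000400000800000000100000020000008000002
def w2 : ℕ := 0x1000400000020008000000040000008000000020100000000200010000800000200000000040000100020000000800000000800080010000000400000100000000080000010000004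
def w3 : ℕ := 0x2000010080000004000000010000002000000040100001000000010000010000002000080000000100000002000100004000000004000000020008004000000080000000040000008
def w4 : ℕ := 0x408000000100000008000000400400000000008010000001000001000000200000010000000800010001000000000400200001000000000004000200000000a000000040000000020
def w5 : ℕ := 0x10000800000200000020008000000000400000100100000000800010000000080400000040000000100008000020000000040000200000000080000800000010000005000000020000
def w6 : ℕ := 0x10000000040000008000008000000802000000000400100002000000010000400000008000020000000100000100000200000010000040000000101000000000020000008000002800000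
def w1S : ℕ := 0x40100000020000000080100000001000800000008000000400000800000010000002000008000008000000802000000400000400000020000040000000008000001000000400000100646c641635fa08b1f
def w2S : ℕ := 0x8002000000100040000000200000040000000100800000001000080004000001000000000200000800100000004000000004000400080000002000000800000000400000080000020086178b9f667eb5ec7
def w3S : ℕ := 0x1000008040000002000000008000001000000020080000800000008000008000001000040000000080000001000080002000000002000000010004002000000040000000020000004008d0f854dc08eec6f1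
def w4S : ℕ := 0x2040000000800000040000002002000000000040080000008000008000001000000080000004000080008000000002001000008000000000020001000000005000000020000000010006fd8ffd29285cd091
def w5S : ℕ := 0x8000400000100000010004000000000200000080080000000400008000000040200000020000000080004000010000000020000100000000040000400000008000002800000010000009ff45752a8ac6cb8f
def w6S : ℕ := 0x8000000020000004000004000000401000000000200080001000000008000200000004000010000000080000080000100000008000020000000080800000000010000004000001400000005941a6b7d53c5a305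

theorem w1_in : inM24 w1 = true := by decide +kernel
theorem w2_in : inM24 w2 = true := by decide +kernel
theorem w3_in : inM24 w3 = true := by decide +kernel
theorem w4_in : inM24 w4 = true := by decide +kernel
theorem w5_in : inM24 w5 = true := by decide +kernel
theorem w6_in : inM24 w6 = true := by decide +kernel
theorem w2_eq : mulM w1 w1 = w2 := by decide +kernel
theorem w3_eq : mulM w1 w2 = w3 := by decide +kernel
theorem w4_eq : mulM w1 w3 = w4 := by decide +kernel
theorem w5_eq : mulM w1 w4 = w5 := by decide +kernel
theorem w6_eq : mulM w1 w5 = w6 := by decide +kernel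
theorem w7_eq : mulM w1 w6 = idM := by decide +kernel
theorem w1S_eq : toS w1 = w1S := by decide +kernel
theorem w2S_eq : toS w2 = w2S := by decide +kernel
theorem w3S_eq : toS w3 = w3S := by decide +kernel
theorem w4S_eq : toS w4 = w4S := by decide +kernel
theorem w5S_eq : toS w5 = w5S := by decide +kernel
theorem w6S_eq : toS w6 = w6S := by decide +kernel

theorem codeS_of {w W : ℕ} (hw : inM24 w = true) (e : toS w = W) : codeS (permOf w) = W := by
  rw [← toS_code, code_permOf (validM_of_inM24 hw), e]

theorem pw2 : permOf w2 = permOf w1 ^ 2 := by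
  rw [← w2_eq, permOf_mulM (validM_of_inM24 w1_in) (validM_of_inM24 w1_in), pow_two]
theorem pw3 : permOf w3 = permOf w1 ^ 3 := by
  rw [← w3_eq, permOf_mulM (validM_of_inM24 w1_in) (validM_of_inM24 w2_in), pw2, ← pow_succ']
theorem pw4 : permOf w4 = permOf w1 ^ 4 := by
  rw [← w4_eq, permOf_mulM (validM_of_inM24 w1_in) (validM_of_inM24 w3_in), pw3, ← pow_succ']
theorem pw5 : permOf w5 = permOf w1 ^ 5 := by
  rw [← w5_eq, permOf_mulM (validM_of_inM24 w1_in) (validM_of_inM24 w4_in), pw4, ← pow_succ']
theorem pw6 : permOf w6 = permOf w1 ^ 6 := by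
  rw [← w6_eq, permOf_mulM (validM_of_inM24 w1_in) (validM_of_inM24 w5_in), pw5, ← pow_succ']
theorem pw7 : permOf w1 ^ 7 = 1 := by
  have h := permOf_mulM (validM_of_inM24 w1_in) (validM_of_inM24 w6_in)
  rw [w7_eq, pw6, ← pow_succ'] at h
  rw [← h, ← code_one, permOf_code]

theorem w1_ne_one : permOf w1 ≠ 1 := by
  intro h
  have h1 : code (permOf w1) = code 1 := by rw [h]
  rw [code_permOf (validM_of_inM24 w1_in), code_one] at h1
  exact absurd h1 (by decide +kernel)

theorem order_w1 : orderOf (permOf w1) = 7 := by
  haveI : Fact (Nat.Prime 7) := ⟨by norm_num⟩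
  exact orderOf_eq_prime pw7 w1_ne_one

/-- conjugating `w1` to one of its nontrivial powers. -/
def Phi7 (n : Equiv.Perm GolayPt) : Prop := ∃ w ∈ [w1, w2, w3, w4, w5, w6], n * permOf w1 = permOf w * n

def T7 : List ℕ :=
  ([w1, w2, w3, w4, w5, w6].flatMap fun w => (List.range 24).map fun a =>
    pack5 a (imgN w a) (imgN w (imgN w a)) (imgN w (imgN w (imgN w a)))
      (imgN w (imgN w (imgN w (imgN w a))))).filter fun u => decide (ValidU u)

def T7L : List ℕ := [34917, 1117361, 2201143, 3327712, 4835689, 5823489, 6993174, 8000114, 9125254, 9687187, 11837060, 12801448, 13916652, 16128685, 18579490, 19244276, 20524327, 21122635, 22454991, 23572693, 24118339, 71393, 1164290, 2284579, 3702853, 4794003, 5997681, 6740373, 7489844, 8886710, 10112359, 11768393, 13279718, 14365352, 15939276, 17828023, 19190379, 20290706, 21605604, 22297805, 23483663, 24153632, 121937, 1212535, 2655392, 3901985, 4575815, 5246690, 6566319, 7971979, 8795637, 9580178, 12208371, 13024950, 14145222, 16439496, 17863683, 19123492, 20222324, 21569129, 22747404, 23273869, 24200229, 165410, 1608419,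 2853893, 3150897, 4508914, 5293143, 7034349, 7950692, 8608431, 10067540, 11675239, 12851925, 14033110, 16167174, 17914976, 19541129, 20171403, 21336371, 22525320, 23772588, 24215713, 560183, 1807424, 2114657, 3202210, 4435572, 5308963, 6791852, 7720585, 9089741, 10031339, 12177714, 13317327, 13843733, 16012694, 17925861, 19012979, 20588100, 21284999, 22436262, 23501288, 24283153, 771235, 1072677, 2130673, 3212311, 4857131, 5343264, 6700744, 7646803, 8836300, 9816676, 12143764, 13097229, 14326159, 16458165, 17992769, 19501703, 20074729, 21210482, 22229494, 23344806, 24679522]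

theorem T7_eq : T7 = T7L := by decide +kernel

theorem T7L_nodup : T7L.Nodup := by decide +kernel

theorem T7L_valid : ∀ u ∈ T7L, ValidU u := by
  intro u hu
  rw [← T7_eq, T7, List.mem_filter] at hu
  exact of_decide_eq_true hu.2

theorem w1_23 : permOf w1 (pt 23) = pt 0 := by
  rw [permOf_apply_eq_iff (validM_of_inM24 w1_in)]; decide +kernel
theorem w1_0 : permOf w1 (pt 0) = pt 1 := by
  rw [permOf_apply_eq_iff (validM_of_inM24 w1_in)]; decide +kernel
theorem w1_1 : permOf w1 (pt 1) = pt 2 := by
  rw [permOf_apply_eq_iff (validM_of_inM24 w1_in)]; decide +kernel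
theorem w1_2 : permOf w1 (pt 2) = pt 3 := by
  rw [permOf_apply_eq_iff (validM_of_inM24 w1_in)]; decide +kernel

theorem wl_in : ∀ w ∈ [w1, w2, w3, w4, w5, w6], inM24 w = true := by
  intro w hw
  simp only [List.mem_cons, List.not_mem_nil, or_false] at hw
  rcases hw with rfl | rfl | rfl | rfl | rfl | rfl
  exacts [w1_in, w2_in, w3_in, w4_in, w5_in, w6_in]

theorem Phi7_img : ∀ g ∈ M24, Phi7 g → imgU g ∈ T7L := by
  rintro g _ ⟨w, hw, hc⟩
  have hv := validM_of_inM24 (wl_in w hw)
  have hcp : ∀ p, g (permOf w1 p) = permOf w (g p) := fun p => by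
    have := congrArg (fun f : Equiv.Perm GolayPt => f p) hc
    simpa using this
  have e0 : enc (g (pt 0)) = imgN w (enc (g (pt 23))) := by rw [← w1_23, hcp, imgN_spec hv]
  have e1 : enc (g (pt 1)) = imgN w (enc (g (pt 0))) := by rw [← w1_0, hcp, imgN_spec hv]
  have e2 : enc (g (pt 2)) = imgN w (enc (g (pt 1))) := by rw [← w1_1, hcp, imgN_spec hv]
  have e3 : enc (g (pt 3)) = imgN w (enc (g (pt 2))) := by rw [← w1_2, hcp, imgN_spec hv]
  rw [← T7_eq, T7, List.mem_filter]
  refine ⟨?_, decide_eq_true (validU_imgU g)⟩
  rw [List.mem_flatMap]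
  refine ⟨w, hw, ?_⟩
  rw [List.mem_map]
  refine ⟨enc (g (pt 23)), List.mem_range.2 (enc_lt _), ?_⟩
  rw [imgU, e3, e2, e1, e0]

/-- the test for `Phi7`. -/
def psi7 (A s : ℕ) : Bool :=
  intertw w1S w1S A s || (intertw w1S w2S A s || (intertw w1S w3S A s || (intertw w1S w4S A s ||
    (intertw w1S w5S A s || intertw w1S w6S A s))))

theorem psi7_iff (a s : Equiv.Perm GolayPt) : psi7 (codeS a) (codeS s) = true ↔ Phi7 (a * s) := by
  rw [psi7, Phi7]
  simp only [Bool.or_eq_true, List.mem_cons, List.not_mem_nil, or_false, exists_eq_or_imp, exists_eq_left]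
  rw [← codeS_of w2_in w2S_eq, ← codeS_of w3_in w3S_eq, ← codeS_of w4_in w4S_eq, ← codeS_of w5_in w5S_eq,
    ← codeS_of w6_in w6S_eq, ← codeS_of w1_in w1S_eq]
  simp only [intertw_iff]

theorem pass_psi7 : pass2 psi7 T7L = 126 := by decide +kernel

theorem card_Phi7 : Nat.card {g : Equiv.Perm GolayPt // g ∈ M24 ∧ Phi7 g} = 126 := by
  rw [card_by_enum2 Phi7 T7L T7L_nodup T7L_valid Phi7_img psi7 (fun a _ s _ => psi7_iff a s), pass_psi7]

/-- commuting with `w1`. -/
def Phi7c (n : Equiv.Perm GolayPt) : Prop := n * permOf w1 = permOf w1 * n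

theorem Phi7c_imp {n : Equiv.Perm GolayPt} (h : Phi7c n) : Phi7 n := ⟨w1, by simp, h⟩

theorem pass_psi7c : pass2 (intertw w1S w1S) T7L = 42 := by decide +kernel

theorem card_Phi7c : Nat.card {g : Equiv.Perm GolayPt // g ∈ M24 ∧ Phi7c g} = 42 := by
  rw [card_by_enum2 Phi7c T7L T7L_nodup T7L_valid (fun g hg h => Phi7_img g hg (Phi7c_imp h)) (intertw w1S w1S)
    (fun a _ s _ => by rw [← codeS_of w1_in w1S_eq, intertw_iff, Phi7c]), pass_psi7c]

/-- code of the trio fixed by the normaliser. -/
def c7 : ℕ := 143212184384832

theorem c7_mem : c7 ∈ trioL := by decide +kernel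

theorem fail_psi7 : fail2 (fun A s => !psi7 A s || fixT2 A s c7) T7L = 0 := by decide +kernel

theorem Phi7_trio : ∀ g ∈ M24, Phi7 g → g • unT c7 = unT c7 := by
  apply forall_by_enum2 Phi7 (fun g => g • unT c7 = unT c7) T7L Phi7_img _ _ fail_psi7
  intro a ha s hs hΦ h
  rw [Bool.or_eq_true, (psi7_iff a s).2 hΦ] at h
  rcases h with h | h
  · exact absurd h (by simp)
  · exact (fixT2_iff ha hs c7_mem).1 h

/-- two elements of the centraliser which do not commute. -/
def x7 : ℕ := 0x800004000040000800000002008000010000000004000400000010000000100040000001000004000000020010000020000000020000400000010000000100000020000008000002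
def y7 : ℕ := 0x8000000400004000800000002008000002000000004000000010040000040000000004001000001000000020080000020000000000200001000010000001000002000080000080000

theorem x7_in : inM24 x7 = true := by decide +kernel
theorem y7_in : inM24 y7 = true := by decide +kernel
theorem x7_comm : mulM x7 w1 = mulM w1 x7 := by decide +kernel
theorem y7_comm : mulM y7 w1 = mulM w1 y7 := by decide +kernel
theorem xy7_ne : mulM x7 y7 ≠ mulM y7 x7 := by decide +kernel

theorem x7_Phi : Phi7c (permOf x7) := by
  rw [Phi7c, ← permOf_mulM (validM_of_inM24 x7_in) (validM_of_inM24 w1_in),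
    ← permOf_mulM (validM_of_inM24 w1_in) (validM_of_inM24 x7_in), x7_comm]
theorem y7_Phi : Phi7c (permOf y7) := by
  rw [Phi7c, ← permOf_mulM (validM_of_inM24 y7_in) (validM_of_inM24 w1_in),
    ← permOf_mulM (validM_of_inM24 w1_in) (validM_of_inM24 y7_in), y7_comm]
theorem xy7 : permOf x7 * permOf y7 ≠ permOf y7 * permOf x7 := by
  intro h
  apply xy7_ne
  have h1 := congrArg code h
  rw [← permOf_mulM (validM_of_inM24 x7_in) (validM_of_inM24 y7_in),
    ← permOf_mulM (validM_of_inM24 y7_in) (validM_of_inM24 x7_in),
    code_permOf (validM_mulM (validM_of_inM24 x7_in) (validM_of_inM24 y7_in)),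
    code_permOf (validM_mulM (validM_of_inM24 y7_in) (validM_of_inM24 x7_in))] at h1
  exact h1

end Cfsg.Agent.Lib.Helper94
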