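import Mathlib
import Cfsg.Agent.Lib.Helper94.GolayEnum2
import Cfsg.Agent.Lib.Helper94.Fam

/-!
# Computing information on the order of a permutation from its salted code
-/

set_option autoImplicit false

namespace Cfsg.Agent.Lib.Helper94

/-- search for the length of the cycle of the point with mask `p`. -/
def perGo (Q p : ℕ) : ℕ → ℕ → ℕ → ℕ
  | 0, _, _ => 0
  | fuel + 1, q, n =>
    bif Nat.beq q p then n else force (applyS Q q) fun q' => perGo Q p fuel q' (Nat.succ n)

/-- length of the cycle of the point with mask `p`. -/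
def perS (Q p : ℕ) : ℕ := force (applyS Q p) fun q => perGo Q p 24 q 1

theorem two_pow_enc_inj {p q : GolayPt} (h : 2 ^ enc p = 2 ^ enc q) : p = q :=
  enc_injective (Nat.pow_right_injective (le_refl 2) h)

theorem perGo_spec (g : Equiv.Perm GolayPt) (p : GolayPt) : ∀ (fuel n r : ℕ), 0 < n →
    (∀ j, 0 < j → j < n → (g ^ j) p ≠ p) →
    perGo (codeS g) (2 ^ enc p) fuel (2 ^ enc ((g ^ n) p)) n = r → r ≠ 0 →
    (g ^ r) p = p ∧ 0 < r ∧ ∀ j, 0 < j → j < r → (g ^ j) p ≠ p := by
  intro fuel
  induction fuel with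
  | zero =>
    intro n r _ _ h hr
    exact absurd h.symm hr
  | succ fuel ih =>
    intro n r hn hmin h hr
    rw [perGo] at h
    by_cases hb : (g ^ n) p = p
    · have : Nat.beq (2 ^ enc ((g ^ n) p)) (2 ^ enc p) = true := by rw [Nat.beq_eq, hb]
      rw [this, cond_true] at h
      subst h
      exact ⟨hb, hn, hmin⟩
    · have : Nat.beq (2 ^ enc ((g ^ n) p)) (2 ^ enc p) = false := by
        rw [← Bool.not_eq_true, Nat.beq_eq]
        exact fun e => hb (two_pow_enc_inj e)
      rw [this, cond_false, force_eq, applyS_pt] at h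
      have e : g ((g ^ n) p) = (g ^ (Nat.succ n)) p := by
        rw [pow_succ']; rfl
      rw [e] at h
      apply ih (Nat.succ n) r (Nat.succ_pos n) _ h hr
      intro j hj hjn
      rcases Nat.lt_succ_iff_lt_or_eq.1 hjn with h1 | h1
      · exact hmin j hj h1
      · rw [h1]; exact hb

theorem perS_spec (g : Equiv.Perm GolayPt) (p : GolayPt) (hr : perS (codeS g) (2 ^ enc p) ≠ 0) :
    (g ^ perS (codeS g) (2 ^ enc p)) p = p ∧ 0 < perS (codeS g) (2 ^ enc p) ∧
      ∀ j, 0 < j → j < perS (codeS g) (2 ^ enc p) → (g ^ j) p ≠ p := by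
  apply perGo_spec g p 24 1 _ Nat.one_pos (fun j h1 h2 => by omega) _ hr
  rw [perS, force_eq, applyS_pt, pow_one]

theorem dvd_of_min {g : Equiv.Perm GolayPt} {p : GolayPt} {r : ℕ} (h1 : (g ^ r) p = p) (h0 : 0 < r)
    (hmin : ∀ j, 0 < j → j < r → (g ^ j) p ≠ p) {n : ℕ} (hn : g ^ n = 1) : r ∣ n := by
  have h2 : (g ^ (n % r)) p = p := by
    have e : g ^ n = g ^ (n % r) * (g ^ r) ^ (n / r) := by
      rw [← pow_mul, ← pow_add, Nat.mod_add_div]
    have h3 : ((g ^ r) ^ (n / r)) p = p := Equiv.Perm.pow_apply_eq_self_of_apply_eq_self h1 _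
    have h4 : (g ^ n) p = p := by rw [hn]; rfl
    rw [e, Equiv.Perm.mul_apply, h3] at h4
    exact h4
  by_contra hc
  have h5 : 0 < n % r := Nat.pos_of_ne_zero fun h => hc (Nat.dvd_of_mod_eq_zero h)
  exact hmin _ h5 (Nat.mod_lt _ h0) h2

theorem perS_dvd_orderOf (g : Equiv.Perm GolayPt) (p : GolayPt)
    (hr : perS (codeS g) (2 ^ enc p) ≠ 0) : perS (codeS g) (2 ^ enc p) ∣ orderOf g := by
  obtain ⟨h1, h0, hmin⟩ := perS_spec g p hr
  exact dvd_of_min h1 h0 hmin (pow_orderOf_eq_one g)

/-- iteration evaluating every intermediate value. -/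
def iterP (f : ℕ → ℕ) : ℕ → ℕ → ℕ
  | 0, x => x
  | n + 1, x => force (f x) (iterP f n)

theorem iterP_eq (f : ℕ → ℕ) (n x : ℕ) : iterP f n x = f^[n] x := by
  induction n generalizing x with
  | zero => rfl
  | succ n ih => rw [iterP, force_eq, ih, Function.iterate_succ_apply]

/-- test: the `n`-th power is the identity. -/
def powOneS (n Q : ℕ) : Bool :=
  all24 fun i => Nat.beq (iterP (applyS Q) n (Nat.pow 2 i)) (Nat.pow 2 i)

theorem iterate_applyS (g : Equiv.Perm GolayPt) (n : ℕ) (p : GolayPt) :
    (applyS (codeS g))^[n] (2 ^ enc p) = 2 ^ enc ((g ^ n) p) := by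
  induction n with
  | zero => rfl
  | succ n ih =>
    rw [Function.iterate_succ_apply', ih, applyS_pt, pow_succ']
    rfl

theorem powOneS_iff (n : ℕ) (g : Equiv.Perm GolayPt) : powOneS n (codeS g) = true ↔ g ^ n = 1 := by
  rw [powOneS, all24_iff]
  constructor
  · intro h
    apply Equiv.ext
    intro p
    have h1 := h (enc p) (enc_lt p)
    rw [Nat.beq_eq, Nat.pow_eq, iterP_eq, iterate_applyS] at h1
    exact two_pow_enc_inj h1
  · intro h i hi
    have h2 := iterate_applyS g n (pt i)
    rw [enc_pt hi, h] at h2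
    rw [Nat.beq_eq, Nat.pow_eq, iterP_eq, h2, Equiv.Perm.one_apply, enc_pt hi]

/-- information on the order: a member of `long` dividing the order, or `0` if the order is
even or divides a member of `small`, or `99`. -/
def otGo (long small : List ℕ) (Q : ℕ) : List ℕ → ℕ
  | [] => 99
  | p :: ps => force (perS Q p) fun r =>
      bif memL r long then r
      else bif Nat.beq r 1 then otGo long small Q ps
      else bif Nat.beq r 0 then 99
      else bif Nat.beq (Nat.mod r 2) 0 then 0
      else bif (memL r small && powOneS r Q) then 0 else otGo long small Q ps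

def ptsL : List ℕ := [1, 2, 4, 8, 16, 32, 64, 128, 256, 512, 1024, 2048, 4096, 8192, 16384, 32768,
  65536, 131072, 262144, 524288, 1048576, 2097152, 4194304, 8388608]

theorem ptsL_spec : ∀ m ∈ ptsL, ∃ p : GolayPt, m = 2 ^ enc p := by
  have h : ∀ m ∈ ptsL, ∃ i < 24, m = 2 ^ i := by decide
  intro m hm
  obtain ⟨i, hi, rfl⟩ := h m hm
  exact ⟨pt i, by rw [enc_pt hi]⟩

def otype (long small : List ℕ) (Q : ℕ) : ℕ := otGo long small Q ptsL

theorem otGo_spec (long small : List ℕ) (h0 : 0 ∉ long) (g : Equiv.Perm GolayPt) : ∀ ps : List ℕ,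
    (∀ m ∈ ps, ∃ p : GolayPt, m = 2 ^ enc p) →
    (otGo long small (codeS g) ps ∈ long ∧ otGo long small (codeS g) ps ∣ orderOf g) ∨
    (otGo long small (codeS g) ps = 0 ∧ (2 ∣ orderOf g ∨ ∃ n ∈ small, g ^ n = 1)) ∨
    otGo long small (codeS g) ps = 99 := by
  intro ps
  induction ps with
  | nil => intro _; right; right; rfl
  | cons m ps ih =>
    intro hps
    obtain ⟨p, rfl⟩ := hps m (by simp)
    have ih' := ih fun m hm => hps m (by simp [hm])
    rw [otGo, force_eq]
    set r := perS (codeS g) (2 ^ enc p) with hr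
    by_cases h1 : memL r long = true
    · rw [h1, cond_true]
      left
      have hl := (memL_iff r long).1 h1
      exact ⟨hl, perS_dvd_orderOf g p fun h => h0 (by rw [← hr] at h; exact h ▸ hl)⟩
    · rw [Bool.not_eq_true] at h1
      rw [h1, cond_false]
      by_cases h2 : Nat.beq r 1 = true
      · rw [h2, cond_true]; exact ih'
      · rw [Bool.not_eq_true] at h2
        rw [h2, cond_false]
        by_cases h3 : Nat.beq r 0 = true
        · rw [h3, cond_true]; right; right; rfl
        · have hr0 : r ≠ 0 := fun h => h3 (by rw [Nat.beq_eq]; exact h)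
          rw [Bool.not_eq_true] at h3
          rw [h3, cond_false]
          by_cases h4 : Nat.beq (Nat.mod r 2) 0 = true
          · rw [h4, cond_true]
            right; left
            refine ⟨rfl, Or.inl ?_⟩
            rw [Nat.beq_eq] at h4
            exact (Nat.dvd_of_mod_eq_zero h4).trans (perS_dvd_orderOf g p hr0)
          · rw [Bool.not_eq_true] at h4
            rw [h4, cond_false]
            by_cases h5 : (memL r small && powOneS r (codeS g)) = true
            · rw [h5, cond_true]
              right; left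
              rw [Bool.and_eq_true, memL_iff, powOneS_iff] at h5
              exact ⟨rfl, Or.inr ⟨r, h5.1, h5.2⟩⟩
            · rw [Bool.not_eq_true] at h5
              rw [h5, cond_false]; exact ih'

theorem otype_spec (long small : List ℕ) (h0 : 0 ∉ long) (g : Equiv.Perm GolayPt) :
    (otype long small (codeS g) ∈ long ∧ otype long small (codeS g) ∣ orderOf g) ∨
    (otype long small (codeS g) = 0 ∧ (2 ∣ orderOf g ∨ ∃ n ∈ small, g ^ n = 1)) ∨
    otype long small (codeS g) = 99 :=
  otGo_spec long small h0 g ptsL ptsL_spec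

end Cfsg.Agent.Lib.Helper94
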