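import Cfsg.Agent.Lib.Helper94.Plane4Data

set_option autoImplicit false
open scoped Pointwise

namespace Cfsg.Agent.Lib.Helper94.Plane4

open Cfsg Cfsg.Agent.Lib.Helper94 Cfsg.Agent.Lib.Helper10

/-! ### boolean tests -/

def tb (m n : ℕ) : Bool := Nat.beq (Nat.land (Nat.shiftRight m n) 1) 1

theorem tb_eq (m n : ℕ) : tb m n = m.testBit n := by
  have h1 : Nat.land (Nat.shiftRight m n) 1 = (m >>> n) % 2 := Nat.and_one_is_mod _
  have h2 : m.testBit n = decide ((m >>> n) % 2 = 1) := by
    rw [Nat.testBit_eq_decide_div_mod_eq, Nat.shiftRight_eq_div_pow]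
  rw [tb, h1, h2]
  rcases Nat.mod_two_eq_zero_or_one (m >>> n) with h | h <;> rw [h] <;> rfl

def r21 : List ℕ := [0, 1, 2, 3, 4, 5, 6, 7, 8, 9, 10, 11, 12, 13, 14, 15, 16, 17, 18, 19, 20]

theorem mem_r21 {i : ℕ} (h : i < 21) : i ∈ r21 := by
  unfold r21
  interval_cases i <;> simp

/-- no line meets the set in more than two points. -/
noncomputable def indB (n : ℕ) : Bool := allL (fun m => Nat.ble (popc (Nat.land m n)) 2) std21

noncomputable def goodB (k n : ℕ) : Bool :=
  bAnd (Nat.ble (Nat.succ n) 2097152) (bAnd (Nat.beq (popc n) k) (indB n))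

noncomputable def autB (P : ℕ) : Bool := bAnd (permOKv 21 P) (mapsInto applyM P std21 std21)

noncomputable def sw (a b i : ℕ) : ℕ := Bool.rec (Bool.rec i a (Nat.beq i b)) b (Nat.beq i a)

theorem sw_eq (a b i : ℕ) : sw a b i = if i = a then b else if i = b then a else i := by
  unfold sw
  by_cases h1 : i = a
  · have : Nat.beq i a = true := Nat.beq_eq ▸ h1
    rw [this, if_pos h1]
  · have e1 : Nat.beq i a = false := by
      cases h : Nat.beq i a
      · rfl
      · exact absurd (Nat.eq_of_beq_eq_true h) h1
    rw [e1, if_neg h1]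
    by_cases h2 : i = b
    · have : Nat.beq i b = true := Nat.beq_eq ▸ h2
      rw [this, if_pos h2]
    · have e2 : Nat.beq i b = false := by
        cases h : Nat.beq i b
        · rfl
        · exact absurd (Nat.eq_of_beq_eq_true h) h2
      rw [e2, if_neg h2]

noncomputable def swB (P h a b : ℕ) : Bool :=
  allL (fun i => bOr (bNot (tb h i))
    (Nat.beq (applyM P (Nat.pow 2 i)) (Nat.pow 2 (sw a b i)))) r21

noncomputable def allSwB (h : ℕ) : Bool :=
  allL (fun a => bOr (bNot (tb h a)) (allL (fun b => bOr (bNot (tb h b)) (bOr (Nat.beq a b)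
    (anyL (fun P => bAnd (Nat.beq (applyM P (Nat.pow 2 a)) (Nat.pow 2 b)) (swB P h a b)) baerL)))
    r21)) r21

noncomputable def secB (h : ℕ) : Bool :=
  allL (fun i => bOr (tb h i) (anyL (fun m1 => bAnd (tb m1 i)
    (bAnd (Nat.beq (popc (Nat.land m1 h)) 2)
      (anyL (fun m2 => bAnd (bNot (Nat.beq m1 m2)) (bAnd (tb m2 i)
        (Nat.beq (popc (Nat.land m2 h)) 2))) std21))) std21)) r21

noncomputable def uniqB (n : ℕ) : Bool :=
  anyL (fun h => bAnd (Nat.beq (Nat.land n h) n)
    (allL (fun h' => bOr (bNot (Nat.beq (Nat.land n h') n)) (Nat.beq h' h)) hypL)) hypL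

/-! ### kernel computations -/

set_option maxRecDepth 1000000 in
theorem ind4_collect : collect indB 21 4 0 [] = ind4L := by decide +kernel

set_option maxRecDepth 1000000 in
theorem hyp_collect : collect indB 21 6 0 [] = hypL := by decide +kernel

set_option maxRecDepth 1000000 in
theorem ind4_good : allL (goodB 4) ind4L = true := by decide +kernel

set_option maxRecDepth 1000000 in
theorem hyp_good : allL (goodB 6) hypL = true := by decide +kernel

set_option maxRecDepth 1000000 in
theorem ind4_chain : ind4L.IsChain (· > ·) := by decide +kernel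

set_option maxRecDepth 1000000 in
theorem hyp_chain : hypL.IsChain (· > ·) := by decide +kernel

set_option maxRecDepth 1000000 in
theorem ind4_length : ind4L.length = 2520 := by decide +kernel

set_option maxRecDepth 1000000 in
theorem hyp_length : hypL.length = 168 := by decide +kernel

set_option maxRecDepth 1000000 in
theorem uniq_ok : allL uniqB ind4L = true := by decide +kernel

set_option maxRecDepth 1000000 in
theorem baer_ok : allL autB baerL = true := by decide +kernel

set_option maxRecDepth 1000000 in
theorem sw_ok : allL allSwB hypL = true := by decide +kernel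

set_option maxRecDepth 1000000 in
theorem sec_ok : allL secB hypL = true := by decide +kernel

end Cfsg.Agent.Lib.Helper94.Plane4
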