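import Cfsg.Agent.Lib.Helper94.Plane4

set_option autoImplicit false
set_option linter.unusedSectionVars false
open scoped Pointwise

namespace Cfsg.Agent.Lib.Helper94.Plane4

open Cfsg Cfsg.Agent.Lib.Helper94 Cfsg.Agent.Lib.Helper10

variable {α : Type*} [Fintype α] [DecidableEq α]

/-- a numbering of the points identifying the plane with the standard one. -/
structure Lab (L : Set (Finset α)) (f : α → GolayPt) : Prop where
  inj : Function.Injective f
  lt : ∀ a, enc (f a) < 21
  surj : ∀ p, enc p < 21 → ∃ a, f a = p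
  blk : ∀ b ∈ L, ∃ m ∈ std21, b.image f = unm m
  blk' : ∀ m ∈ std21, ∃ b ∈ L, b.image f = unm m

theorem exists_lab (hα : Fintype.card α = 21) {L : Set (Finset α)}
    (hL : IsSteinerSystem 2 5 L) : ∃ f : α → GolayPt, Lab L f := by
  obtain ⟨f, hf, hlt, hm⟩ := labelled21 hα hL
  exact ⟨f, hf, hlt, labelling_surj (by norm_num) hα hf hlt,
    labelled_block hL (by norm_num) cover21 hf hlt hm, hm⟩

/-- the mask of a set of points. -/
def mu (f : α → GolayPt) (S : Finset α) : ℕ := msk (S.image f)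

theorem std_lt {m : ℕ} (h : m ∈ std21) : m < 2 ^ 24 := by
  have := (allL_iff _ _).1 std21_lt m h
  rw [Nat.ble_eq] at this
  omega

variable {L : Set (Finset α)} {f : α → GolayPt}

theorem mu_inj (h : Lab L f) : Function.Injective (mu f) :=
  msk_injective.comp (Finset.image_injective h.inj)

theorem card_eq (h : Lab L f) (S : Finset α) : S.card = popc (mu f S) := by
  rw [mu, ← card_eq_popc, Finset.card_image_of_injective _ h.inj]

theorem mu_inter (h : Lab L f) (S T : Finset α) : mu f (S ∩ T) = mu f S &&& mu f T := by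
  rw [mu, Finset.image_inter _ _ h.inj, msk_inter]; rfl

theorem subset_iff (h : Lab L f) (S T : Finset α) : S ⊆ T ↔ mu f S &&& mu f T = mu f S := by
  rw [mu, mu, ← subset_iff_msk, Finset.image_subset_image_iff h.inj]

theorem testBit_mu (h : Lab L f) (S : Finset α) (a : α) :
    (mu f S).testBit (enc (f a)) = decide (a ∈ S) := by
  rw [mu, testBit_msk]
  congr 1
  rw [eq_iff_iff]
  constructor
  · intro ha
    obtain ⟨b, hb, hab⟩ := Finset.mem_image.1 ha
    rw [← h.inj hab]; exact hb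
  · intro ha
    exact Finset.mem_image_of_mem f ha

theorem mu_blk {b : Finset α} {m : ℕ} (hm : m ∈ std21) (hb : b.image f = unm m) :
    mu f b = m := by
  rw [mu, hb, msk_unm (std_lt hm)]

theorem indep_iff (h : Lab L f) (S : Finset α) :
    (∀ l ∈ L, (l ∩ S).card ≤ 2) ↔ indB (mu f S) = true := by
  rw [indB, allL_iff]
  constructor
  · intro hS m hm
    obtain ⟨b, hb, hbm⟩ := h.blk' m hm
    have := hS b hb
    rw [card_eq h, mu_inter h, mu_blk hm hbm] at this
    rw [Nat.ble_eq]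
    exact this
  · intro hS l hl
    obtain ⟨m, hm, hbm⟩ := h.blk l hl
    have := hS m hm
    rw [Nat.ble_eq] at this
    rw [card_eq h, mu_inter h, mu_blk hm hbm]
    exact this

theorem exists_of_lt (h : Lab L f) {n : ℕ} (hn : n < 2 ^ 21) : ∃ S : Finset α, mu f S = n := by
  refine ⟨Finset.univ.filter (fun a => f a ∈ unm n), ?_⟩
  have e : (Finset.univ.filter (fun a => f a ∈ unm n)).image f = unm n := by
    ext p
    simp only [Finset.mem_image, Finset.mem_filter, Finset.mem_univ, true_and]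
    constructor
    · rintro ⟨a, ha, rfl⟩; exact ha
    · intro hp
      have h1 : enc p < 21 := by
        by_contra hc
        rw [mem_unm, Nat.testBit_lt_two_pow (lt_of_lt_of_le hn
          (Nat.pow_le_pow_right (by norm_num) (by omega)))] at hp
        exact absurd hp (by simp)
      obtain ⟨a, rfl⟩ := h.surj p h1
      exact ⟨a, hp, rfl⟩
  rw [mu, e, msk_unm (lt_trans hn (by norm_num))]

theorem mem_iff (h : Lab L f) {k : ℕ} {lst : List ℕ} (h1 : collect indB 21 k 0 [] = lst)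
    (h2 : allL (goodB k) lst = true) (S : Finset α) :
    (S.card = k ∧ ∀ l ∈ L, (l ∩ S).card ≤ 2) ↔ mu f S ∈ lst := by
  constructor
  · rintro ⟨hc, hi⟩
    have := collect_sound indB 21 k 0 [] (S.image f) (by
        intro p hp
        obtain ⟨a, _, rfl⟩ := Finset.mem_image.1 hp
        exact h.lt a) (by intro p _; simp)
      (by rw [Finset.card_image_of_injective _ h.inj, hc])
      (by rw [Nat.zero_or]; exact (indep_iff h S).1 hi)
    rw [Nat.zero_or, h1] at this
    exact this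
  · intro hm
    have := (allL_iff _ _).1 h2 _ hm
    rw [goodB, bAnd_iff, bAnd_iff, Nat.beq_eq] at this
    exact ⟨by rw [card_eq h]; exact this.2.1, (indep_iff h S).2 this.2.2⟩

theorem lt_of_mem {k : ℕ} {lst : List ℕ} (h2 : allL (goodB k) lst = true) {n : ℕ}
    (hn : n ∈ lst) : n < 2 ^ 21 := by
  have := (allL_iff _ _).1 h2 _ hn
  rw [goodB, bAnd_iff, Nat.ble_eq] at this
  have := this.1
  omega

theorem ncard_indep (h : Lab L f) {k : ℕ} {lst : List ℕ} (h1 : collect indB 21 k 0 [] = lst)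
    (h2 : allL (goodB k) lst = true) (h3 : lst.IsChain (· > ·)) :
    {S : Finset α | S.card = k ∧ ∀ l ∈ L, (l ∩ S).card ≤ 2}.ncard = lst.length := by
  have hnd : lst.Nodup := (List.isChain_iff_pairwise.1 h3).imp (fun hab => ne_of_gt hab)
  have e : mu f '' {S : Finset α | S.card = k ∧ ∀ l ∈ L, (l ∩ S).card ≤ 2}
      = (↑(lst.toFinset) : Set ℕ) := by
    ext n
    simp only [Set.mem_image, Finset.mem_coe, List.mem_toFinset]
    constructor
    · rintro ⟨S, hS, rfl⟩
      exact (mem_iff h h1 h2 S).1 hS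
    · intro hn
      obtain ⟨S, rfl⟩ := exists_of_lt h (lt_of_mem h2 hn)
      exact ⟨S, (mem_iff h h1 h2 S).2 hn, rfl⟩
  rw [← Set.ncard_image_of_injective _ (mu_inj h), e, Set.ncard_coe_finset,
    List.toFinset_card_of_nodup hnd]

theorem unique_hyperoval (h : Lab L f) (S : Finset α)
    (hS : S.card = 4 ∧ ∀ l ∈ L, (l ∩ S).card ≤ 2) :
    ∃! H : Finset α, (H.card = 6 ∧ ∀ l ∈ L, (l ∩ H).card ≤ 2) ∧ S ⊆ H := by
  have hn := (mem_iff h ind4_collect ind4_good S).1 hS
  have h1 := (allL_iff _ _).1 uniq_ok _ hn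
  rw [uniqB, anyL_iff] at h1
  obtain ⟨c, hc, h2⟩ := h1
  rw [bAnd_iff, allL_iff, Nat.beq_eq] at h2
  obtain ⟨H, rfl⟩ := exists_of_lt h (lt_of_mem hyp_good hc)
  refine ⟨H, ⟨(mem_iff h hyp_collect hyp_good H).2 hc, (subset_iff h S H).2 h2.1⟩, ?_⟩
  rintro H' ⟨hH', hsub⟩
  have h3 := h2.2 _ ((mem_iff h hyp_collect hyp_good H').1 hH')
  rw [bOr_iff, bNot_iff, Nat.beq_eq] at h3
  rcases h3 with h3 | h3
  · have h4 : Nat.beq (Nat.land (mu f S) (mu f H')) (mu f S) = true := by
      rw [Nat.beq_eq]; exact (subset_iff h S H').1 hsub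
    rw [h4] at h3
    exact absurd h3 (by simp)
  · exact mu_inj h h3

/-! ### automorphisms -/

theorem exists_aut (h : Lab L f) {P : ℕ} (hP : autB P = true) :
    ∃ g : Equiv.Perm α, g ∈ setSystemAut L ∧ ∀ a, f (g a) = permOf P (f a) := by
  rw [autB, bAnd_iff, mapsInto_iff] at hP
  obtain ⟨hval, hfix⟩ := permOKv_spec hP.1
  choose g0 hg0 using fun a => h.surj (permOf P (f a)) (enc_perm_lt hfix (h.lt a))
  have hinj : Function.Injective g0 := by
    intro a b hab
    apply h.inj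
    apply (permOf P).injective
    rw [← hg0 a, ← hg0 b, hab]
  refine ⟨Equiv.ofBijective g0 (Finite.injective_iff_bijective.1 hinj), ?_, hg0⟩
  rw [MulAction.mem_stabilizer_set' (Set.toFinite L)]
  intro b hb
  obtain ⟨m, hm, hbm⟩ := h.blk b hb
  obtain ⟨b', hb', hbm'⟩ := h.blk' _ (hP.2 m hm)
  have e1 : ((Equiv.ofBijective g0 (Finite.injective_iff_bijective.1 hinj)) • b).image f
      = permOf P • (b.image f) := by
    rw [Finset.smul_finset_def, Finset.smul_finset_def, Finset.image_image, Finset.image_image]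
    apply Finset.image_congr
    intro a _
    exact hg0 a
  have e2 : ((Equiv.ofBijective g0 (Finite.injective_iff_bijective.1 hinj)) • b) = b' := by
    apply Finset.image_injective h.inj
    apply msk_injective
    rw [e1, applyM_permOf hval, hbm, hbm', msk_unm (std_lt hm), msk_unm (std_lt (hP.2 m hm))]
  rw [e2]
  exact hb'

theorem exists_swap (h : Lab L f) {H : Finset α} (hH : mu f H ∈ hypL) (x y : ↥H) (hxy : x ≠ y) :
    ∃ g : Equiv.Perm α, g ∈ setSystemAut L ∧ ∀ p : ↥H, g p = (Equiv.swap x y p : ↥H) := by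
  have h1 := (allL_iff _ _).1 sw_ok _ hH
  rw [allSwB, allL_iff] at h1
  have h2 := h1 _ (mem_r21 (h.lt x))
  have hbit : ∀ z : ↥H, tb (mu f H) (enc (f z)) = true := by
    intro z
    rw [tb_eq, testBit_mu h]
    simp
  rw [bOr_iff, bNot_iff, hbit x, allL_iff] at h2
  rcases h2 with h2 | h2
  · exact absurd h2 (by simp)
  have h3 := h2 _ (mem_r21 (h.lt y))
  rw [bOr_iff, bNot_iff, hbit y, bOr_iff, Nat.beq_eq, anyL_iff] at h3
  rcases h3 with h3 | h3 | h3
  · exact absurd h3 (by simp)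
  · exact absurd (Subtype.ext (h.inj (enc_injective h3))) hxy
  obtain ⟨P, hP, h4⟩ := h3
  rw [bAnd_iff, swB, allL_iff] at h4
  have hPa := (allL_iff _ _).1 baer_ok _ hP
  obtain ⟨g, hg, hgf⟩ := exists_aut h hPa
  have hval : validM P = true := by
    rw [autB, bAnd_iff] at hPa
    exact (permOKv_spec hPa.1).1
  refine ⟨g, hg, ?_⟩
  intro p
  apply h.inj
  rw [hgf, permOf_apply_eq_iff hval]
  have h5 := h4.2 _ (mem_r21 (h.lt p))
  rw [bOr_iff, bNot_iff, hbit p, Nat.beq_eq] at h5
  rcases h5 with h5 | h5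
  · exact absurd h5 (by simp)
  have h6 : applyM P (2 ^ enc (f p)) = 2 ^ sw (enc (f x)) (enc (f y)) (enc (f p)) := h5
  rw [h6, sw_eq, Equiv.swap_apply_def]
  have hi : ∀ u v : ↥H, enc (f u) = enc (f v) ↔ u = v := by
    intro u v
    constructor
    · intro e; exact Subtype.ext (h.inj (enc_injective e))
    · rintro rfl; rfl
  simp only [hi]
  split_ifs <;> rfl

theorem ext_exists (h : Lab L f) {H : Finset α} (hH : mu f H ∈ hypL) (σ : Equiv.Perm ↥H) :
    ∃ g : Equiv.Perm α, g ∈ setSystemAut L ∧ ∀ p : ↥H, g p = σ p := by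
  induction σ using Equiv.Perm.swap_induction_on with
  | one => exact ⟨1, Subgroup.one_mem _, fun p => rfl⟩
  | swap_mul σ x y hxy ih =>
    obtain ⟨g, hg, hgp⟩ := ih
    obtain ⟨s, hs, hsp⟩ := exists_swap h hH x y hxy
    refine ⟨s * g, Subgroup.mul_mem _ hs hg, ?_⟩
    intro p
    rw [Equiv.Perm.mul_apply, hgp, hsp, Equiv.Perm.mul_apply]

theorem line_fixed (hL : IsSteinerSystem 2 5 L) {k : Equiv.Perm α} (hk : k ∈ setSystemAut L)
    {H l : Finset α} (hfix : ∀ p ∈ H, k p = p) (hl : l ∈ L) (h2 : (l ∩ H).card = 2) :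
    k • l = l := by
  obtain ⟨x, y, hxy, e⟩ := Finset.card_eq_two.1 h2
  have hx : x ∈ l ∩ H := by rw [e]; simp
  have hy : y ∈ l ∩ H := by rw [e]; simp
  rw [Finset.mem_inter] at hx hy
  have hkl : k • l ∈ L := (MulAction.mem_stabilizer_set' (Set.toFinite L)).1 hk hl
  obtain ⟨d, _, hd⟩ := hL.2 {x, y} (Finset.card_pair hxy)
  have h1 : ({x, y} : Finset α) ⊆ l := by
    intro z hz
    rw [Finset.mem_insert, Finset.mem_singleton] at hz
    rcases hz with rfl | rfl
    · exact hx.1
    · exact hy.1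
  have h3 : ({x, y} : Finset α) ⊆ k • l := by
    intro z hz
    rw [Finset.mem_insert, Finset.mem_singleton] at hz
    rcases hz with rfl | rfl
    · have := Finset.smul_mem_smul_finset (a := k) hx.1
      rwa [Equiv.Perm.smul_def, hfix _ hx.2] at this
    · have := Finset.smul_mem_smul_finset (a := k) hy.1
      rwa [Equiv.Perm.smul_def, hfix _ hy.2] at this
  rw [hd _ ⟨hkl, h3⟩, hd _ ⟨hl, h1⟩]

theorem ext_unique (hL : IsSteinerSystem 2 5 L) (h : Lab L f) {H : Finset α}
    (hH : mu f H ∈ hypL) {k : Equiv.Perm α} (hk : k ∈ setSystemAut L)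
    (hfix : ∀ p ∈ H, k p = p) : k = 1 := by
  ext a
  rw [Equiv.Perm.one_apply]
  by_cases ha : a ∈ H
  · exact hfix a ha
  have h1 := (allL_iff _ _).1 sec_ok _ hH
  rw [secB, allL_iff] at h1
  have h2 := h1 _ (mem_r21 (h.lt a))
  rw [bOr_iff, tb_eq, testBit_mu h, anyL_iff] at h2
  rcases h2 with h2 | h2
  · exact absurd (by simpa using h2) ha
  obtain ⟨m1, hm1, h3⟩ := h2
  rw [bAnd_iff, bAnd_iff, anyL_iff, Nat.beq_eq] at h3
  obtain ⟨ha1, hc1, m2, hm2, h4⟩ := h3
  rw [bAnd_iff, bAnd_iff, bNot_iff, Nat.beq_eq] at h4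
  obtain ⟨hne, ha2, hc2⟩ := h4
  obtain ⟨l1, hl1, e1⟩ := h.blk' m1 hm1
  obtain ⟨l2, hl2, e2⟩ := h.blk' m2 hm2
  have hmem : ∀ {l : Finset α} {m : ℕ}, m ∈ std21 → l.image f = unm m →
      tb m (enc (f a)) = true → a ∈ l := by
    intro l m hm e ht
    rw [tb_eq, ← mu_blk hm e, testBit_mu h] at ht
    simpa using ht
  have hcard : ∀ {l : Finset α} {m : ℕ}, m ∈ std21 → l.image f = unm m →
      popc (Nat.land m (mu f H)) = 2 → (l ∩ H).card = 2 := by
    intro l m hm e hc
    rw [card_eq h, mu_inter h, mu_blk hm e]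
    exact hc
  have hk1 := line_fixed hL hk hfix hl1 (hcard hm1 e1 hc1)
  have hk2 := line_fixed hL hk hfix hl2 (hcard hm2 e2 hc2)
  have a1 := hmem hm1 e1 ha1
  have a2 := hmem hm2 e2 ha2
  have b1 : k a ∈ l1 := by
    have := Finset.smul_mem_smul_finset (a := k) a1
    rwa [hk1] at this
  have b2 : k a ∈ l2 := by
    have := Finset.smul_mem_smul_finset (a := k) a2
    rwa [hk2] at this
  by_contra hne'
  obtain ⟨d, _, hd⟩ := hL.2 {k a, a} (Finset.card_pair hne')
  have s1 : ({k a, a} : Finset α) ⊆ l1 := by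
    intro z hz
    rw [Finset.mem_insert, Finset.mem_singleton] at hz
    rcases hz with rfl | rfl
    · exact b1
    · exact a1
  have s2 : ({k a, a} : Finset α) ⊆ l2 := by
    intro z hz
    rw [Finset.mem_insert, Finset.mem_singleton] at hz
    rcases hz with rfl | rfl
    · exact b2
    · exact a2
  have e12 : l1 = l2 := by rw [hd _ ⟨hl1, s1⟩, hd _ ⟨hl2, s2⟩]
  have : m1 = m2 := by rw [← mu_blk hm1 e1, ← mu_blk hm2 e2, e12]
  rw [this] at hne
  have h5 : Nat.beq m2 m2 = true := by rw [Nat.beq_eq]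
  rw [h5] at hne
  exact absurd hne (by simp)

end Cfsg.Agent.Lib.Helper94.Plane4
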