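import Mathlib

/-!
# Quadratic maps on a finite field of characteristic two

Additive self-maps of a finite field of characteristic two are combinations of field
automorphisms; maps that are quadratic over the prime field are combinations of products of
two automorphisms.
-/

set_option autoImplicit false
set_option linter.unusedSectionVars false

namespace Cfsg.Agent.Lib.Helper94.QuadSpan

/-- The span of the field automorphisms inside all self-maps. -/
def autSpan (F : Type*) [Field F] : Submodule F (F → F) :=
  Submodule.span F (Set.range (fun σ : F ≃+* F => (σ : F → F)))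

/-- The span of the products of two field automorphisms inside all self-maps. -/
def prodSpan (F : Type*) [Field F] : Submodule F (F → F) :=
  Submodule.span F
    (Set.range (fun p : (F ≃+* F) × (F ≃+* F) => fun x : F => p.1 x * p.2 x))

variable {F : Type*} [Field F] [Fintype F] [CharP F 2]

theorem additive_mem_autSpan (f : F → F) (hf : ∀ x y, f (x + y) = f x + f y) :
    f ∈ autSpan F := by
  classical
  let _ : Algebra (ZMod 2) F := ZMod.algebra F 2
  have hli : LinearIndependent F
      (fun σ : F ≃ₐ[ZMod 2] F => ((σ : F →ₐ[ZMod 2] F).toLinearMap : F →ₗ[ZMod 2] F)) := by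
    have h0 := linearIndependent_toLinearMap (ZMod 2) F F
    exact h0.comp (fun σ : F ≃ₐ[ZMod 2] F => (σ : F →ₐ[ZMod 2] F))
      (fun a b h => AlgEquiv.coe_toAlgHom_injective h)
  have hcard : Fintype.card (F ≃ₐ[ZMod 2] F) = Module.finrank F (F →ₗ[ZMod 2] F) := by
    rw [Module.finrank_linearMap_self, ← Nat.card_eq_fintype_card]
    exact IsGalois.card_aut_eq_finrank (ZMod 2) F
  have htop := hli.span_eq_top_of_card_eq_finrank hcard
  let g : F →ₗ[ZMod 2] F := (AddMonoidHom.mk' f hf).toZModLinearMap 2
  have hg : g ∈ Submodule.span F (Set.range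
      (fun σ : F ≃ₐ[ZMod 2] F => ((σ : F →ₐ[ZMod 2] F).toLinearMap : F →ₗ[ZMod 2] F))) := by
    rw [htop]; trivial
  have key : ∀ h : F →ₗ[ZMod 2] F, h ∈ Submodule.span F (Set.range
      (fun σ : F ≃ₐ[ZMod 2] F => ((σ : F →ₐ[ZMod 2] F).toLinearMap : F →ₗ[ZMod 2] F))) →
      (h : F → F) ∈ autSpan F := by
    intro h hh
    induction hh using Submodule.span_induction with
    | mem x hx =>
      obtain ⟨σ, rfl⟩ := hx
      exact Submodule.subset_span ⟨σ.toRingEquiv, rfl⟩
    | zero => exact Submodule.zero_mem _
    | add x y _ _ hx hy => exact Submodule.add_mem _ hx hy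
    | smul a x _ hx => exact Submodule.smul_mem _ a hx
  exact key g hg

theorem mul_mem_prodSpan (f g : F → F) (hf : ∀ x y, f (x + y) = f x + f y)
    (hg : ∀ x y, g (x + y) = g x + g y) : (fun x => f x * g x) ∈ prodSpan F := by
  have h1 := additive_mem_autSpan f hf
  have h2 := additive_mem_autSpan g hg
  have h3 : f * g ∈ autSpan F * autSpan F := Submodule.mul_mem_mul h1 h2
  unfold autSpan at h3
  rw [Submodule.span_mul_span] at h3
  refine Submodule.span_mono ?_ h3
  rintro _ ⟨_, ⟨σ, rfl⟩, _, ⟨τ, rfl⟩, rfl⟩
  exact ⟨(σ, τ), rfl⟩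

theorem zmod2_cases (a : ZMod 2) : a = 0 ∨ a = 1 := by
  revert a; decide

theorem quad_mem_prodSpan (q : F → F)
    (hq : ∀ x y z : F,
      q (x + y + z) + q (x + y) + q (x + z) + q (y + z) + q x + q y + q z = 0) :
    q ∈ prodSpan F := by
  classical
  let _ : Algebra (ZMod 2) F := ZMod.algebra F 2
  have h2 : (2 : F) = 0 := CharTwo.two_eq_zero
  have hq0 : q 0 = 0 := by
    have := hq 0 0 0
    simp only [add_zero] at this
    linear_combination this - 3 * q 0 * h2
  -- the polar form
  let B : F → F → F := fun u w => q (u + w) + q u + q w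
  have hBadd : ∀ u w w', B u (w + w') = B u w + B u w' := by
    intro u w w'
    have := hq u w w'
    simp only [B]
    rw [← add_assoc]
    linear_combination this - (q (u + w) + q (u + w') + q u + q w + q w') * h2
  have hB0 : ∀ w, B 0 w = 0 := by
    intro w
    simp only [B, zero_add, hq0]
    linear_combination q w * h2
  have hqB : ∀ u w, q (u + w) = B u w + q u + q w := by
    intro u w
    simp only [B]
    linear_combination -(q u + q w) * h2
  let b := Module.finBasis (ZMod 2) F
  let lam : Fin (Module.finrank (ZMod 2) F) → F → F :=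
    fun k x => algebraMap (ZMod 2) F (b.repr x k)
  have hlam : ∀ k x y, lam k (x + y) = lam k x + lam k y := by
    intro k x y
    simp only [lam, map_add, Finsupp.add_apply]
  let pr : Finset (Fin (Module.finrank (ZMod 2) F)) → F → F :=
    fun S x => ∑ k ∈ S, (b.repr x k) • b k
  have hpr : ∀ S x y, pr S (x + y) = pr S x + pr S y := by
    intro S x y
    simp only [pr, map_add, Finsupp.add_apply, add_smul, Finset.sum_add_distrib]
  have main : ∀ S, (fun x => q (pr S x)) ∈ prodSpan F := by
    intro S
    induction S using Finset.induction_on with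
    | empty =>
      have : (fun x => q (pr ∅ x)) = 0 := by
        funext x
        simp [pr, hq0]
      rw [this]
      exact Submodule.zero_mem _
    | insert k S hk ih =>
      have e : (fun x => q (pr (insert k S) x))
          = (fun x => lam k x * B (b k) (pr S x)) + (fun x => lam k x * (lam k x * q (b k)))
            + (fun x => q (pr S x)) := by
        funext x
        have e1 : pr (insert k S) x = (b.repr x k) • b k + pr S x := by
          simp only [pr]
          rw [Finset.sum_insert hk]
        simp only [Pi.add_apply]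
        rw [e1, hqB]
        rcases zmod2_cases (b.repr x k) with h | h
        · simp [lam, h, hB0, hq0]
        · simp [lam, h]
      rw [e]
      refine Submodule.add_mem _ (Submodule.add_mem _ ?_ ?_) ih
      · exact mul_mem_prodSpan _ _ (hlam k) (fun x y => by rw [hpr, hBadd])
      · exact mul_mem_prodSpan _ _ (hlam k) (fun x y => by rw [hlam, add_mul])
  have hfin : (fun x => q (pr Finset.univ x)) = q := by
    funext x
    have : pr Finset.univ x = x := b.sum_repr x
    rw [this]
  rw [← hfin]
  exact main _

theorem quad_expansion (q : F → F)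
    (hq : ∀ x y z : F,
      q (x + y + z) + q (x + y) + q (x + z) + q (y + z) + q x + q y + q z = 0) :
    ∃ (s : Finset ((F ≃+* F) × (F ≃+* F))) (c : (F ≃+* F) × (F ≃+* F) → F),
      ∀ x : F, q x = ∑ p ∈ s, c p * (p.1 x * p.2 x) := by
  have h := quad_mem_prodSpan q hq
  unfold prodSpan at h
  rw [Finsupp.mem_span_range_iff_exists_finsupp] at h
  obtain ⟨c, hc⟩ := h
  refine ⟨c.support, c, fun x => ?_⟩
  rw [← hc]
  simp [Finsupp.sum, Finset.sum_apply]

end Cfsg.Agent.Lib.Helper94.QuadSpan
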