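import Mathlib

/-!
# A dihedral action on a group of exponent two

Pure lemma: automorphisms `α`, `β` of a group of exponent two with `β` of order three inverted
by the `2`-element `α` leave invariant a nontrivial subgroup on which `β` has trivial norm and
`α` acts as an involution.
-/

set_option autoImplicit false

namespace Cfsg.Agent.Lib.Helper94.S4Inv

variable {Z : Type*} [Group Z]

theorem inv_eq_self (hexp : ∀ z : Z, z * z = 1) (z : Z) : z⁻¹ = z :=
  inv_eq_of_mul_eq_one_left (hexp z)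

theorem comm_of_exp (hexp : ∀ z : Z, z * z = 1) (x y : Z) : x * y = y * x := by
  have h := inv_eq_self hexp (x * y)
  rw [mul_inv_rev, inv_eq_self hexp, inv_eq_self hexp] at h
  exact h.symm

theorem rearr (hc : ∀ x y : Z, x * y = y * x) (a b c d e f : Z) :
    a * b * (c * d) * (e * f) = (a * c * e) * (b * d * f) := by
  calc a * b * (c * d) * (e * f) = a * (b * c) * d * (e * f) := by simp only [mul_assoc]
    _ = a * (c * b) * d * (e * f) := by rw [hc b c]
    _ = a * c * ((b * d) * e) * f := by simp only [mul_assoc]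
    _ = a * c * (e * (b * d)) * f := by rw [hc (b * d) e]
    _ = (a * c * e) * (b * d * f) := by simp only [mul_assoc]

theorem pow_mem_of_inv (α : MulAut Z) (E : Subgroup Z) (h : ∀ e ∈ E, α e ∈ E) :
    ∀ (k : ℕ), ∀ e ∈ E, (α ^ k) e ∈ E := by
  intro k
  induction k with
  | zero => intro e he; simpa using he
  | succ k ih =>
    intro e he
    rw [pow_succ, MulAut.mul_apply]
    exact ih _ (h e he)

theorem conj_inv_eq (α β : MulAut Z) (hαβ : α * β * α⁻¹ = β⁻¹) : α * β⁻¹ * α⁻¹ = β := by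
  have h := congrArg Inv.inv hαβ
  simpa [mul_assoc] using h

theorem commute_sq (α β : MulAut Z) (hαβ : α * β * α⁻¹ = β⁻¹) : Commute (α ^ 2) β := by
  have h2 := conj_inv_eq α β hαβ
  have h1 : α * β = β⁻¹ * α := by rw [← hαβ]; group
  have h3 : α * β⁻¹ = β * α := by
    calc α * β⁻¹ = (α * β⁻¹ * α⁻¹) * α := by group
      _ = β * α := by rw [h2]
  show α ^ 2 * β = β * α ^ 2
  calc α ^ 2 * β = α * (α * β) := by rw [pow_two, mul_assoc]
    _ = α * (β⁻¹ * α) := by rw [h1]
    _ = (α * β⁻¹) * α := by group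
    _ = (β * α) * α := by rw [h3]
    _ = β * α ^ 2 := by rw [pow_two, mul_assoc]

theorem lemmaA_red (hexp : ∀ z : Z, z * z = 1) (α β : MulAut Z)
    (hαβ : α * β * α⁻¹ = β⁻¹) :
    ∀ (l : ℕ) (E : Subgroup Z), E ≠ ⊥ → (∀ e ∈ E, α e ∈ E) → (∀ e ∈ E, β e ∈ E) →
      (∀ e ∈ E, (α ^ (2 ^ l)) e = e) →
      ∃ E' : Subgroup Z, E' ≤ E ∧ E' ≠ ⊥ ∧ (∀ e ∈ E', α e ∈ E') ∧ (∀ e ∈ E', β e ∈ E') ∧
        (∀ e ∈ E', α (α e) = e) := by
  intro l
  induction l with
  | zero =>
    intro E hne hα hβ hl
    refine ⟨E, le_rfl, hne, hα, hβ, fun e he => ?_⟩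
    have h1 : α e = e := by simpa using hl e he
    rw [h1, h1]
  | succ l ih =>
    cases l with
    | zero =>
      intro E hne hα hβ hl
      refine ⟨E, le_rfl, hne, hα, hβ, fun e he => ?_⟩
      have h1 := hl e he
      simpa [pow_succ, MulAut.mul_apply] using h1
    | succ m =>
      intro E hne hα hβ hl
      obtain ⟨w, hw⟩ : ∃ w, w = α ^ (2 ^ (m + 1)) := ⟨_, rfl⟩
      have hww : w * w = α ^ (2 ^ (m + 1 + 1)) := by
        rw [hw, ← pow_add, pow_succ 2 (m + 1), mul_two]
      have hwα : w * α = α * w := by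
        rw [hw]; exact ((Commute.refl α).pow_left _).eq
      have hwβ : w * β = β * w := by
        have : w = (α ^ 2) ^ (2 ^ m) := by
          rw [hw, ← pow_mul, pow_succ 2 m, mul_comm]
        rw [this]
        exact ((commute_sq α β hαβ).pow_left _).eq
      have hwE : ∀ e ∈ E, w e ∈ E := by
        rw [hw]; exact pow_mem_of_inv α E hα _
      let E₁ : Subgroup Z :=
        { carrier := {e | e ∈ E ∧ w e = e}
          one_mem' := ⟨E.one_mem, map_one _⟩
          mul_mem' := by
            rintro x y ⟨hx, hx'⟩ ⟨hy, hy'⟩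
            exact ⟨E.mul_mem hx hy, by rw [map_mul, hx', hy']⟩
          inv_mem' := by
            rintro x ⟨hx, hx'⟩
            exact ⟨E.inv_mem hx, by rw [map_inv, hx']⟩ }
      have hmem : ∀ e, e ∈ E₁ ↔ e ∈ E ∧ w e = e := fun e => Iff.rfl
      have hne₁ : E₁ ≠ ⊥ := by
        obtain ⟨⟨e, he⟩, he1⟩ := (Subgroup.ne_bot_iff_exists_ne_one).mp hne
        have he1' : e ≠ 1 := fun h => he1 (Subtype.ext h)
        have hwwe : w (w e) = e := by
          rw [← MulAut.mul_apply, hww]; exact hl e he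
        by_cases h : w e = e
        · intro hbot
          have : e ∈ E₁ := (hmem e).mpr ⟨he, h⟩
          rw [hbot, Subgroup.mem_bot] at this
          exact he1' this
        · intro hbot
          have : e * w e ∈ E₁ := by
            refine (hmem _).mpr ⟨E.mul_mem he (hwE e he), ?_⟩
            rw [map_mul, hwwe]
            exact comm_of_exp hexp _ _
          rw [hbot, Subgroup.mem_bot] at this
          apply h
          have h' := eq_inv_of_mul_eq_one_right this
          rw [inv_eq_self hexp] at h'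
          exact h'
      obtain ⟨E', hle, hne', hα', hβ', h2'⟩ := ih E₁ hne₁
        (fun e he => by
          obtain ⟨he1, he2⟩ := (hmem e).mp he
          refine (hmem _).mpr ⟨hα e he1, ?_⟩
          rw [← MulAut.mul_apply, hwα, MulAut.mul_apply, he2])
        (fun e he => by
          obtain ⟨he1, he2⟩ := (hmem e).mp he
          refine (hmem _).mpr ⟨hβ e he1, ?_⟩
          rw [← MulAut.mul_apply, hwβ, MulAut.mul_apply, he2])
        (fun e he => by
          rw [← hw]; exact ((hmem e).mp he).2)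
      exact ⟨E', hle.trans (fun e he => ((hmem e).mp he).1), hne', hα', hβ', h2'⟩

theorem lemmaA (hexp : ∀ z : Z, z * z = 1) (α β : MulAut Z)
    (hβ3 : β ^ 3 = 1) (hβ : β ≠ 1) (hαβ : α * β * α⁻¹ = β⁻¹) (l : ℕ) (hα : α ^ (2 ^ l) = 1) :
    ∃ E : Subgroup Z, E ≠ ⊥ ∧ (∀ e ∈ E, α e ∈ E) ∧ (∀ e ∈ E, β e ∈ E) ∧
      (∀ e ∈ E, e * β e * β (β e) = 1) ∧ (∀ e ∈ E, α (α e) = e) ∧
      (∀ e ∈ E, (α⁻¹ * β) ((α⁻¹ * β) e) = e) := by
  have hc := comm_of_exp hexp
  have h3 : ∀ z, β (β (β z)) = z := by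
    intro z
    have : (β ^ 3) z = z := by rw [hβ3]; rfl
    simpa [pow_succ, MulAut.mul_apply] using this
  have hβα : ∀ z, β (α z) = α (β (β z)) := by
    intro z
    have h2 := conj_inv_eq α β hαβ
    have h4 : β * α = α * β⁻¹ := by
      calc β * α = (α * β⁻¹ * α⁻¹) * α := by rw [h2]
        _ = α * β⁻¹ := by group
    have h5 : β⁻¹ z = β (β z) := by
      apply β.injective
      rw [MulAut.apply_inv_self, h3]
    rw [← MulAut.mul_apply, h4, MulAut.mul_apply, h5]
  let E₀ : Subgroup Z :=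
    { carrier := {e | e * β e * β (β e) = 1}
      one_mem' := by simp
      mul_mem' := by
        intro x y hx hy
        have hx' : x * β x * β (β x) = 1 := hx
        have hy' : y * β y * β (β y) = 1 := hy
        show x * y * β (x * y) * β (β (x * y)) = 1
        simp only [map_mul]
        rw [rearr hc, hx', hy', one_mul]
      inv_mem' := by
        intro x hx
        rw [inv_eq_self hexp]; exact hx }
  have hmem : ∀ e, e ∈ E₀ ↔ e * β e * β (β e) = 1 := fun e => Iff.rfl
  have hne : E₀ ≠ ⊥ := by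
    have : ∃ z, β z ≠ z := by
      by_contra hcon
      push Not at hcon
      exact hβ (MulEquiv.ext hcon)
    obtain ⟨z, hz⟩ := this
    intro hbot
    have hm : z * β z ∈ E₀ := by
      rw [hmem]
      simp only [map_mul]
      rw [h3]
      calc z * β z * (β z * β (β z)) * (β (β z) * z)
          = z * (β z * β z) * (β (β z) * β (β z)) * z := by simp only [mul_assoc]
        _ = 1 := by rw [hexp, hexp, mul_one, mul_one, hexp]
    rw [hbot, Subgroup.mem_bot] at hm
    apply hz
    have h' := eq_inv_of_mul_eq_one_right hm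
    rw [inv_eq_self hexp] at h'
    exact h'
  obtain ⟨E, hle, hne', hα', hβ', h2'⟩ := lemmaA_red hexp α β hαβ l E₀ hne
    (fun e he => by
      rw [hmem] at he ⊢
      rw [hβα, hβα, h3, ← map_mul, ← map_mul, mul_assoc, hc (β (β e)), ← mul_assoc, he, map_one])
    (fun e he => by
      rw [hmem] at he ⊢
      rw [← map_mul, ← map_mul, he, map_one])
    (fun e _ => by rw [hα]; rfl)
  refine ⟨E, hne', hα', hβ', fun e he => (hmem e).mp (hle he), h2', fun e he => ?_⟩
  have h6 : (α⁻¹ * β) * (α⁻¹ * β) = α⁻¹ * α⁻¹ := by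
    have h7 : β * α⁻¹ = α⁻¹ * β⁻¹ := by
      calc β * α⁻¹ = α⁻¹ * (α * β * α⁻¹) := by group
        _ = α⁻¹ * β⁻¹ := by rw [hαβ]
    calc (α⁻¹ * β) * (α⁻¹ * β) = α⁻¹ * (β * α⁻¹) * β := by group
      _ = α⁻¹ * (α⁻¹ * β⁻¹) * β := by rw [h7]
      _ = α⁻¹ * α⁻¹ := by group
  rw [← MulAut.mul_apply, h6, MulAut.mul_apply]
  have h8 := h2' e he
  apply α.injective
  apply α.injective
  rw [MulAut.apply_inv_self, MulAut.apply_inv_self, h8]

end Cfsg.Agent.Lib.Helper94.S4Inv
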