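import Mathlib
import Cfsg.Prelude.Def_Sporadic_a
import Cfsg.Agent.Lib.Helper94.GolayEnum2

set_option autoImplicit false
open scoped Pointwise

namespace Cfsg.Agent.Lib.Helper94

/-- the five point stabiliser moves every further point of the base octad to `5` and every point outside
to `4`. -/
theorem chk_six : (List.range 24).all (fun j => Nat.testBit 8388623 j || stab5L.any fun P =>
    Nat.beq (applyM P (Nat.pow 2 j)) (bif Nat.testBit 8536111 j then 32 else 16)) = true := by decide +kernel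

theorem exists_six (q : GolayPt) (hq : ∀ t ∈ [3, 2, 1, 0, 23], q ≠ pt t) :
    ∃ s ∈ fixG [3, 2, 1, 0, 23], (q ∈ unm 8536111 ∧ s q = pt 5) ∨ (q ∉ unm 8536111 ∧ s q = pt 4) := by
  have h := (List.all_eq_true.1 chk_six) (enc q) (List.mem_range.2 (enc_lt q))
  rw [Bool.or_eq_true] at h
  rcases h with h | h
  · exfalso
    have key : ∀ j < 24, Nat.testBit 8388623 j = true → j ∈ [3, 2, 1, 0, 23] := by decide
    exact hq _ (key _ (enc_lt q) h) (pt_enc q).symm
  · obtain ⟨P, hP, h2⟩ := List.any_eq_true.1 h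
    rw [Nat.beq_eq] at h2
    obtain ⟨hv, hm⟩ := stab5L_spec hP
    refine ⟨permOf P, hm, ?_⟩
    by_cases hb : Nat.testBit 8536111 (enc q) = true
    · left
      rw [hb] at h2
      refine ⟨(mem_unm _ _).2 hb, ?_⟩
      rw [permOf_apply_eq_iff hv, enc_pt (by norm_num)]
      exact h2
    · right
      rw [Bool.not_eq_true] at hb
      rw [hb] at h2
      refine ⟨fun hc => ?_, ?_⟩
      · rw [mem_unm, hb] at hc
        exact absurd hc (by simp)
      · rw [permOf_apply_eq_iff hv, enc_pt (by norm_num)]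
        exact h2

/-- six distinct points can be moved to `23, 0, 1, 2, 3` and `5` (if they lie in an octad) or `4` (otherwise). -/
theorem six_to_base (x1 x2 x3 x4 x5 x6 : GolayPt) (h : [x1, x2, x3, x4, x5, x6].Nodup) :
    ∃ k ∈ M24, k x1 = pt 23 ∧ k x2 = pt 0 ∧ k x3 = pt 1 ∧ k x4 = pt 2 ∧ k x5 = pt 3 ∧
      ((k x6 = pt 5 ∧ ∃ o ∈ octads, ({x1, x2, x3, x4, x5, x6} : Finset GolayPt) ⊆ o) ∨
       (k x6 = pt 4 ∧ ¬ ∃ o ∈ octads, ({x1, x2, x3, x4, x5, x6} : Finset GolayPt) ⊆ o)) := by
  have h5 : [x1, x2, x3, x4, x5].Nodup := by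
    have : [x1, x2, x3, x4, x5, x6] = [x1, x2, x3, x4, x5] ++ [x6] := rfl
    rw [this] at h
    exact (List.nodup_append.1 h).1
  have h6 : x6 ≠ x1 ∧ x6 ≠ x2 ∧ x6 ≠ x3 ∧ x6 ≠ x4 ∧ x6 ≠ x5 := by
    simp only [List.nodup_cons, List.mem_cons, List.not_mem_nil, or_false, not_or] at h
    exact ⟨fun e => h.1.2.2.2.2 e.symm, fun e => h.2.1.2.2.2 e.symm, fun e => h.2.2.1.2.2 e.symm,
      fun e => h.2.2.2.1.2 e.symm, fun e => h.2.2.2.2.1 e.symm⟩
  obtain ⟨k, hk, k1, k2, k3, k4, k5⟩ := five_trans_to_base x1 x2 x3 x4 x5 h5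
  obtain ⟨s, hs, hcase⟩ := exists_six (k x6) (by
    intro t ht
    simp only [List.mem_cons, List.not_mem_nil, or_false] at ht
    rcases ht with rfl | rfl | rfl | rfl | rfl
    · rw [← k5]; exact fun e => h6.2.2.2.2 (k.injective e)
    · rw [← k4]; exact fun e => h6.2.2.2.1 (k.injective e)
    · rw [← k3]; exact fun e => h6.2.2.1 (k.injective e)
    · rw [← k2]; exact fun e => h6.2.1 (k.injective e)
    · rw [← k1]; exact fun e => h6.1 (k.injective e))
  obtain ⟨hsM, hsf⟩ := mem_fixG.1 hs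
  have hsb : s • unm 8536111 = unm 8536111 := inv_baseOctad hs
  have hb : ∀ t ∈ [3, 2, 1, 0, 23], pt t ∈ unm 8536111 := by
    intro t ht
    rw [mem_unm]
    simp only [List.mem_cons, List.not_mem_nil, or_false] at ht
    rcases ht with rfl | rfl | rfl | rfl | rfl <;> decide
  refine ⟨s * k, M24.mul_mem hsM hk, by rw [Equiv.Perm.mul_apply, k1, hsf 23 (by simp)],
    by rw [Equiv.Perm.mul_apply, k2, hsf 0 (by simp)], by rw [Equiv.Perm.mul_apply, k3, hsf 1 (by simp)],
    by rw [Equiv.Perm.mul_apply, k4, hsf 2 (by simp)], by rw [Equiv.Perm.mul_apply, k5, hsf 3 (by simp)], ?_⟩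
  rcases hcase with ⟨hin, hs6⟩ | ⟨hout, hs6⟩
  · left
    refine ⟨by rw [Equiv.Perm.mul_apply, hs6], k⁻¹ • unm 8536111,
      (smul_mem_octads_iff (M24.inv_mem hk) _).2 baseOctad_mem, ?_⟩
    intro x hx
    rw [Finset.mem_inv_smul_finset_iff, Equiv.Perm.smul_def]
    simp only [Finset.mem_insert, Finset.mem_singleton] at hx
    rcases hx with rfl | rfl | rfl | rfl | rfl | rfl
    · rw [k1]; exact hb 23 (by simp)
    · rw [k2]; exact hb 0 (by simp)
    · rw [k3]; exact hb 1 (by simp)
    · rw [k4]; exact hb 2 (by simp)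
    · rw [k5]; exact hb 3 (by simp)
    · exact hin
  · right
    refine ⟨by rw [Equiv.Perm.mul_apply, hs6], ?_⟩
    rintro ⟨o, ho, hsub⟩
    apply hout
    have hko : k • o = unm 8536111 := by
      apply octad_eq_of_inter ((smul_mem_octads_iff hk o).2 ho) baseOctad_mem
      have hsub5 : ({pt 23, pt 0, pt 1, pt 2, pt 3} : Finset GolayPt) ⊆ k • o ∩ unm 8536111 := by
        intro y hy
        simp only [Finset.mem_insert, Finset.mem_singleton] at hy
        rw [Finset.mem_inter]
        rcases hy with rfl | rfl | rfl | rfl | rfl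
        · exact ⟨by rw [← k1]; exact Finset.smul_mem_smul_finset (hsub (by simp)), hb 23 (by simp)⟩
        · exact ⟨by rw [← k2]; exact Finset.smul_mem_smul_finset (hsub (by simp)), hb 0 (by simp)⟩
        · exact ⟨by rw [← k3]; exact Finset.smul_mem_smul_finset (hsub (by simp)), hb 1 (by simp)⟩
        · exact ⟨by rw [← k4]; exact Finset.smul_mem_smul_finset (hsub (by simp)), hb 2 (by simp)⟩
        · exact ⟨by rw [← k5]; exact Finset.smul_mem_smul_finset (hsub (by simp)), hb 3 (by simp)⟩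
      have h5c : ({pt 23, pt 0, pt 1, pt 2, pt 3} : Finset GolayPt).card = 5 := by decide
      rw [← h5c]
      exact Finset.card_le_card hsub5
    rw [← hko]
    exact Finset.smul_mem_smul_finset (hsub (by simp))

/-! ### the pointwise stabiliser of six points of an octad -/

def Phi16 (g : Equiv.Perm GolayPt) : Prop := ∀ t ∈ [5, 3, 2, 1, 0, 23], g (pt t) = pt t

def psi16 (A s : ℕ) : Bool :=
  [5, 3, 2, 1, 0, 23].all fun t => Nat.beq (applyS2 A s (Nat.pow 2 t)) (Nat.pow 2 t)

theorem psi16_iff (a s : Equiv.Perm GolayPt) : psi16 (codeS a) (codeS s) = true ↔ Phi16 (a * s) := by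
  rw [psi16, List.all_eq_true, Phi16]
  apply forall_congr'
  intro t
  apply imp_congr_right
  intro ht
  have hlt : t < 24 := by
    simp only [List.mem_cons, List.not_mem_nil, or_false] at ht
    rcases ht with rfl | rfl | rfl | rfl | rfl | rfl <;> norm_num
  rw [Nat.beq_eq, Nat.pow_eq]
  conv_lhs => rw [← enc_pt hlt, applyS2_pt]
  constructor
  · intro h
    exact enc_injective (Nat.pow_right_injective (le_refl 2) h)
  · intro h
    rw [h]

theorem card_fixG6' : Nat.card (fixG [5, 3, 2, 1, 0, 23]) = 16 := by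
  have h := card_by_enum2 Phi16 [pack5 23 0 1 2 3] (by simp) (by
      intro u hu
      rw [List.mem_singleton] at hu
      subst hu
      decide) (by
      intro g _ hΦ
      rw [List.mem_singleton, imgU, hΦ 23 (by simp), hΦ 0 (by simp), hΦ 1 (by simp), hΦ 2 (by simp),
        hΦ 3 (by simp), enc_pt (by norm_num), enc_pt (by norm_num), enc_pt (by norm_num), enc_pt (by norm_num),
        enc_pt (by norm_num)]) psi16 (fun a _ s _ => psi16_iff a s)
  have e : pass2 psi16 [pack5 23 0 1 2 3] = 16 := by decide +kernel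
  rw [e] at h
  exact h

end Cfsg.Agent.Lib.Helper94
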